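import Cfsg.Agent.Lib.helper8.IndLinear
import Cfsg.Agent.Lib.helper23.Clifford

set_option autoImplicit false

namespace Cfsg.Agent.Lib.helper8

open Cfsg Cfsg.Agent.Lib.helper24 Cfsg.Agent.Lib.helper23
open scoped ComplexConjugate

universe u

variable {K : Type u} [Group K] [Fintype K]

theorem indFun_invariant_apply_mem (N : Subgroup K) [N.Normal] (φ : N → ℂ)
    (hinv : ∀ k : K, conjFun N φ k = φ) (x : N) :
    indFun N φ x = (N.index : ℂ) * φ x := by
  have hN : (Nat.card N : ℂ) ≠ 0 := NeZero.ne _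
  rw [indFun_apply_normal]
  simp only [hinv]
  rw [Finset.sum_const, Finset.card_univ, nsmul_eq_mul, ← Nat.card_eq_fintype_card,
    ← Subgroup.card_mul_index N]
  push_cast
  field_simp

omit [Fintype K] in
theorem conj_not_mem_of_not_mem (N : Subgroup K) [hN : N.Normal] {x : K} (hx : x ∉ N) (g : K) :
    g⁻¹ * x * g ∉ N := by
  intro h
  apply hx
  have := hN.conj_mem _ h g
  simpa [mul_assoc] using this

theorem indFun_normal_apply_not_mem (N : Subgroup K) [hN : N.Normal] (φ : N → ℂ) {x : K}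
    (hx : x ∉ N) : indFun N φ x = 0 := by
  unfold indFun
  apply mul_eq_zero_of_right
  apply Finset.sum_eq_zero
  intro g _
  exact extendByZero_apply_not_mem _ _ (conj_not_mem_of_not_mem N hx g)

theorem restrict_eq_of_invariant (N : Subgroup K) [hN : N.Normal] (φ : N → ℂ)
    (hφ : IsIrrCharacter N φ) (hinv : ∀ k : K, conjFun N φ k = φ) (μ : IrrCharacter K) (m : ℕ)
    (hm : classInner (indFun N φ) μ.1 = m) (hm0 : m ≠ 0) (x : N) : μ.1 x = (m : ℂ) * φ x := by
  classical
  have := Fintype.ofFinite N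
  have hμc : IsClassFunction K μ.1 := isClassFunction_irr μ
  have h1 : classInner (fun n : N => μ.1 n) φ = (m : ℂ) := by
    rw [classInner_conj_symm, ← frobenius_reciprocity N φ hμc, hm, Complex.conj_natCast]
  have h2 := clifford_restrict N hN μ.1 μ.2 φ hφ (by rw [h1]; exact_mod_cast hm0)
  have hset : {ψ : N → ℂ | ∃ g : K, ψ = fun n : N => φ ⟨g * n * g⁻¹, hN.conj_mem n n.2 g⟩} =
      {φ} := by
    ext ψ
    simp only [Set.mem_setOf_eq, Set.mem_singleton_iff]
    constructor
    · rintro ⟨g, rfl⟩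
      exact hinv g
    · rintro rfl
      exact ⟨1, (hinv 1).symm⟩
  rw [hset, finsum_mem_singleton, h1] at h2
  have := congrFun h2 x
  simpa using this

theorem classInner_self_eq_sum_sq [Fintype (IrrCharacter K)] (Φ : K → ℂ) (hΦ : IsCharacter K Φ)
    (m : IrrCharacter K → ℕ) (hm : ∀ μ, classInner Φ μ.1 = m μ) :
    classInner Φ Φ = ∑ μ : IrrCharacter K, (m μ : ℂ) ^ 2 := by
  have hexp : Φ = ∑ μ : IrrCharacter K, (m μ : ℂ) • μ.1 := by
    have h1 := classFunction_expansion (isCharacter_conj_class hΦ)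
    rw [Finset.sum_congr rfl (fun μ _ => by rw [hm μ])] at h1
    exact h1
  have e : classInner Φ Φ = classInner (∑ μ : IrrCharacter K, (m μ : ℂ) • μ.1) Φ := by
    rw [← hexp]
  rw [e, classInner_sum_left]
  apply Finset.sum_congr rfl
  intro μ _
  rw [classInner_smul_left, classInner_conj_symm, hm, Complex.conj_natCast]
  ring

section Ab

variable (N : Subgroup K) [hN : N.Normal] [hQ : IsMulCommutative (K ⧸ N)]

omit [Fintype K] in
theorem twist_isIrr [Finite K] (β : IrrCharacter (K ⧸ N)) (μ : IrrCharacter K) :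
    IsIrrCharacter K (fun x => β.1 (x : K ⧸ N) * μ.1 x) := by
  classical
  have := Fintype.ofFinite K
  have hchar : IsCharacter K (fun x => β.1 (x : K ⧸ N) * μ.1 x) :=
    isCharacter_mul (isCharacter_of_isIrrCharacter (isIrrCharacter_inflate N β.2))
      (isCharacter_irr μ)
  apply isIrrCharacter_of_inner_self_eq_one hchar
  rw [← irr_inner_self μ]
  unfold classInner
  congr 1
  apply Finset.sum_congr rfl
  intro x _
  have h1 : β.1 (x : K ⧸ N) * conj (β.1 (x : K ⧸ N)) = 1 := by
    rw [Complex.mul_conj, Complex.normSq_eq_norm_sq, irr_norm_of_comm]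
    simp
  rw [map_mul]
  linear_combination (μ.1 x * conj (μ.1 x)) * h1

/-- The twist of an irreducible character by a linear character of an abelian quotient. -/
noncomputable def twist [Finite K] (β : IrrCharacter (K ⧸ N)) (μ : IrrCharacter K) : IrrCharacter K :=
  ⟨fun x => β.1 (x : K ⧸ N) * μ.1 x, twist_isIrr N β μ⟩

theorem sum_irr_quot_mem [Fintype (IrrCharacter (K ⧸ N))] {x : K} (hx : x ∈ N) :
    ∑ β : IrrCharacter (K ⧸ N), β.1 (x : K ⧸ N) = (N.index : ℂ) := by
  classical
  have := Fintype.ofFinite (K ⧸ N)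
  have h1 : ∀ β : IrrCharacter (K ⧸ N), β.1 (x : K ⧸ N) = β.1 1 * β.1 (x : K ⧸ N) := by
    intro β
    rw [irr_one_of_comm, one_mul]
  rw [Finset.sum_congr rfl (fun β _ => h1 β)]
  have hx1 : (x : K ⧸ N) = 1 := (QuotientGroup.eq_one_iff x).mpr hx
  rw [hx1, sum_degree_mul_one, Subgroup.index_eq_card]

theorem sum_irr_quot_not_mem [Fintype (IrrCharacter (K ⧸ N))] {x : K} (hx : x ∉ N) :
    ∑ β : IrrCharacter (K ⧸ N), β.1 (x : K ⧸ N) = 0 := by
  classical
  have := Fintype.ofFinite (K ⧸ N)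
  have h1 : ∀ β : IrrCharacter (K ⧸ N), β.1 (x : K ⧸ N) = β.1 1 * β.1 (x : K ⧸ N) := by
    intro β
    rw [irr_one_of_comm, one_mul]
  rw [Finset.sum_congr rfl (fun β _ => h1 β)]
  have hx1 : (x : K ⧸ N) ≠ 1 := fun h => hx ((QuotientGroup.eq_one_iff x).mp h)
  exact sum_degree_mul_of_ne_one hx1

theorem card_irr_quot [Fintype (IrrCharacter (K ⧸ N))] :
    Fintype.card (IrrCharacter (K ⧸ N)) = N.index := by
  have h := sum_irr_quot_mem N (one_mem N)
  simp only [QuotientGroup.mk_one, irr_one_of_comm, Finset.sum_const, Finset.card_univ,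
    nsmul_eq_mul, mul_one] at h
  exact_mod_cast h

theorem abelian_quot_multiplicities (φ : N → ℂ) (hφ : IsIrrCharacter N φ)
    (hinv : ∀ k : K, conjFun N φ k = φ) (m : IrrCharacter K → ℕ)
    (hm : ∀ μ, classInner (indFun N φ) μ.1 = m μ) [Fintype (IrrCharacter K)] :
    (∑ μ : IrrCharacter K, m μ ^ 2 = N.index) ∧
      ∃ e : ℕ, 0 < e ∧ ∀ ν : IrrCharacter K, m ν = 0 ∨ m ν = e := by
  classical
  have := Fintype.ofFinite (IrrCharacter (K ⧸ N))
  have := Fintype.ofFinite N
  have hNc : (Nat.card N : ℂ) ≠ 0 := NeZero.ne _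
  have hΦ : IsCharacter K (indFun N φ) := isCharacter_indFun N (isCharacter_of_isIrrCharacter hφ)
  have hsq : ∑ μ : IrrCharacter K, m μ ^ 2 = N.index := by
    have h1 := card_mul_inner_indFun_normal N hφ
    have h2 : Nat.card {g : K // ∀ h : N, φ ⟨g * h * g⁻¹, hN.conj_mem h h.2 g⟩ = φ h} =
        Nat.card K := by
      apply Nat.card_congr
      refine Equiv.subtypeUnivEquiv ?_
      intro g h
      exact congrFun (hinv g) h
    rw [h2, classInner_self_eq_sum_sq (indFun N φ) hΦ m hm, ← Subgroup.card_mul_index N] at h1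
    push_cast at h1
    have h3 := mul_left_cancel₀ hNc h1
    exact_mod_cast h3
  refine ⟨hsq, ?_⟩
  have htw : ∀ μ : IrrCharacter K, m μ ≠ 0 →
      (m μ : ℂ) • indFun N φ = ∑ β : IrrCharacter (K ⧸ N), (twist N β μ).1 := by
    intro μ hμ
    funext x
    rw [Pi.smul_apply, smul_eq_mul, Finset.sum_apply]
    have h1 : ∀ β : IrrCharacter (K ⧸ N), (twist N β μ).1 x = β.1 (x : K ⧸ N) * μ.1 x :=
      fun β => rfl
    rw [Finset.sum_congr rfl (fun β _ => h1 β), ← Finset.sum_mul]
    by_cases hx : x ∈ N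
    · rw [sum_irr_quot_mem N hx]
      have h2 := indFun_invariant_apply_mem N φ hinv ⟨x, hx⟩
      have h3 := restrict_eq_of_invariant N φ hφ hinv μ (m μ) (hm μ) hμ ⟨x, hx⟩
      simp only at h2 h3
      rw [h2, h3]
      ring
    · rw [sum_irr_quot_not_mem N hx, indFun_normal_apply_not_mem N φ hx]
      ring
  have hcount : ∀ μ : IrrCharacter K, m μ ≠ 0 → ∀ ν : IrrCharacter K,
      (m μ : ℂ) * (m ν : ℂ) =
        ∑ β : IrrCharacter (K ⧸ N), if twist N β μ = ν then (1 : ℂ) else 0 := by
    intro μ hμ ν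
    have h1 : classInner ((m μ : ℂ) • indFun N φ) ν.1 = (m μ : ℂ) * (m ν : ℂ) := by
      rw [classInner_smul_left, hm]
    rw [← h1, htw μ hμ, classInner_sum_left]
    exact Finset.sum_congr rfl (fun β _ => irr_orthonormal _ _)
  have hcountN : ∀ μ : IrrCharacter K, m μ ≠ 0 → ∀ ν : IrrCharacter K,
      m μ * m ν = ∑ β : IrrCharacter (K ⧸ N), if twist N β μ = ν then 1 else 0 := by
    intro μ hμ ν
    have := hcount μ hμ ν
    exact_mod_cast this
  have havg : ∀ μ : IrrCharacter K, m μ ≠ 0 →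
      ∑ β : IrrCharacter (K ⧸ N), m (twist N β μ) = m μ * N.index := by
    intro μ hμ
    calc ∑ β : IrrCharacter (K ⧸ N), m (twist N β μ)
        = ∑ β : IrrCharacter (K ⧸ N), ∑ ν : IrrCharacter K,
            m ν * (if twist N β μ = ν then 1 else 0) := by
          apply Finset.sum_congr rfl
          intro β _
          simp
      _ = ∑ ν : IrrCharacter K, ∑ β : IrrCharacter (K ⧸ N),
            m ν * (if twist N β μ = ν then 1 else 0) := Finset.sum_comm
      _ = ∑ ν : IrrCharacter K, m ν * (m μ * m ν) := by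
          apply Finset.sum_congr rfl
          intro ν _
          rw [← Finset.mul_sum, hcountN μ hμ ν]
      _ = m μ * ∑ ν : IrrCharacter K, m ν ^ 2 := by
          rw [Finset.mul_sum]
          apply Finset.sum_congr rfl
          intro ν _
          ring
      _ = m μ * N.index := by rw [hsq]
  have hne : Nonempty (IrrCharacter K) := by
    by_contra h
    rw [not_nonempty_iff] at h
    have : N.index = 0 := by rw [← hsq]; simp
    exact Subgroup.index_ne_zero_of_finite this
  obtain ⟨μ₀, hμ₀⟩ := Finite.exists_max m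
  have hμ₀ne : m μ₀ ≠ 0 := by
    intro h0
    have : ∀ ν, m ν = 0 := fun ν => by have := hμ₀ ν; omega
    have : N.index = 0 := by rw [← hsq]; simp [this]
    exact Subgroup.index_ne_zero_of_finite this
  refine ⟨m μ₀, Nat.pos_of_ne_zero hμ₀ne, ?_⟩
  have hall : ∀ β : IrrCharacter (K ⧸ N), m (twist N β μ₀) = m μ₀ := by
    have h1 := havg μ₀ hμ₀ne
    have h2 : ∑ _β : IrrCharacter (K ⧸ N), m μ₀ = m μ₀ * N.index := by
      rw [Finset.sum_const, Finset.card_univ, card_irr_quot, smul_eq_mul, mul_comm]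
    have h3 := (Finset.sum_eq_sum_iff_of_le (fun β _ => hμ₀ (twist N β μ₀))).mp (h1.trans h2.symm)
    exact fun β => h3 β (Finset.mem_univ β)
  intro ν
  by_cases hν : m ν = 0
  · exact Or.inl hν
  · right
    have h1 := hcountN μ₀ hμ₀ne ν
    have h2 : ∃ β : IrrCharacter (K ⧸ N), twist N β μ₀ = ν := by
      by_contra hcon
      push_neg at hcon
      have : m μ₀ * m ν = 0 := by
        rw [h1]
        exact Finset.sum_eq_zero (fun β _ => if_neg (hcon β))
      rcases Nat.mul_eq_zero.mp this with h | h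
      · exact hμ₀ne h
      · exact hν h
    obtain ⟨β, rfl⟩ := h2
    exact hall β

end Ab

end Cfsg.Agent.Lib.helper8
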