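import Cfsg.Agent.Lib.helper24.CharNormal
import Cfsg.Agent.Lib.helper24.CharMisc

set_option autoImplicit false

namespace Cfsg.Agent.Lib.helper8

open Cfsg Cfsg.Agent.Lib.helper24
open scoped ComplexConjugate

universe u

variable {G : Type u} [Group G]

theorem extendByZero_add (H : Subgroup G) (θ₁ θ₂ : H → ℂ) (x : G) :
    extendByZero H (θ₁ + θ₂) x = extendByZero H θ₁ x + extendByZero H θ₂ x := by
  by_cases hx : x ∈ H
  · simp [extendByZero_apply_mem _ _ hx]
  · simp [extendByZero_apply_not_mem _ _ hx]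

theorem extendByZero_smul (H : Subgroup G) (c : ℂ) (θ : H → ℂ) (x : G) :
    extendByZero H (c • θ) x = c * extendByZero H θ x := by
  by_cases hx : x ∈ H
  · simp [extendByZero_apply_mem _ _ hx]
  · simp [extendByZero_apply_not_mem _ _ hx]

theorem extendByZero_zero (H : Subgroup G) (x : G) :
    extendByZero H (0 : H → ℂ) x = 0 := by
  by_cases hx : x ∈ H
  · simp [extendByZero_apply_mem _ _ hx]
  · simp [extendByZero_apply_not_mem _ _ hx]

variable [Fintype G]

theorem indFun_add (H : Subgroup G) (θ₁ θ₂ : H → ℂ) :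
    indFun H (θ₁ + θ₂) = indFun H θ₁ + indFun H θ₂ := by
  funext g
  unfold indFun
  simp only [extendByZero_add, Finset.sum_add_distrib, Pi.add_apply]
  ring

theorem indFun_smul (H : Subgroup G) (c : ℂ) (θ : H → ℂ) :
    indFun H (c • θ) = c • indFun H θ := by
  funext g
  unfold indFun
  simp only [extendByZero_smul, ← Finset.mul_sum, Pi.smul_apply, smul_eq_mul]
  ring

theorem indFun_zero (H : Subgroup G) : indFun H (0 : H → ℂ) = 0 := by
  funext g
  unfold indFun
  simp [extendByZero_zero]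

theorem indFun_finset_sum (H : Subgroup G) {ι : Type*} (s : Finset ι) (f : ι → H → ℂ) :
    indFun H (∑ i ∈ s, f i) = ∑ i ∈ s, indFun H (f i) := by
  classical
  induction s using Finset.induction_on with
  | empty => simp [indFun_zero]
  | insert a s ha ih => rw [Finset.sum_insert ha, Finset.sum_insert ha, indFun_add, ih]

theorem eq_zero_of_classInner_self {f : G → ℂ} (h : classInner f f = 0) : f = 0 := by
  unfold classInner at h
  have hG : (Nat.card G : ℂ)⁻¹ ≠ 0 := inv_ne_zero (NeZero.ne _)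
  have h1 : ∑ g : G, f g * conj (f g) = 0 := (mul_eq_zero.mp h).resolve_left hG
  have h2 : ∑ g : G, Complex.normSq (f g) = 0 := by
    have : ∑ g : G, f g * conj (f g) = ((∑ g : G, Complex.normSq (f g) : ℝ) : ℂ) := by
      push_cast
      exact Finset.sum_congr rfl (fun g _ => Complex.mul_conj (f g))
    rw [this] at h1
    exact_mod_cast h1
  have h3 := (Finset.sum_eq_zero_iff_of_nonneg (fun g _ => Complex.normSq_nonneg (f g))).mp h2
  funext g
  exact Complex.normSq_eq_zero.mp (h3 g (Finset.mem_univ g))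

theorem nat_sum_lemma {ι : Type*} [Fintype ι] [DecidableEq ι] (m : ι → ℕ) (n : ι → ι → ℕ)
    (hdiag : ∀ i, 1 ≤ n i i) (h : ∑ i, ∑ j, m i * m j * n i j = ∑ i, m i ^ 2) :
    (∀ i, m i ≠ 0 → n i i = 1) ∧ (∀ i j, i ≠ j → m i ≠ 0 → m j ≠ 0 → n i j = 0) := by
  have hsplit : ∀ i, ∑ j, m i * m j * n i j =
      m i * m i * n i i + ∑ j ∈ Finset.univ.erase i, m i * m j * n i j := fun i =>
    (Finset.add_sum_erase Finset.univ (fun j => m i * m j * n i j) (Finset.mem_univ i)).symm
  have hle : ∀ i ∈ (Finset.univ : Finset ι), m i ^ 2 ≤ ∑ j, m i * m j * n i j := by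
    intro i _
    rw [hsplit i]
    have : m i ^ 2 ≤ m i * m i * n i i := by
      rw [pow_two]
      exact Nat.le_mul_of_pos_right _ (hdiag i)
    omega
  have heq := (Finset.sum_eq_sum_iff_of_le hle).mp h.symm
  have hkey : ∀ i, m i * m i * n i i = m i ^ 2 ∧
      ∑ j ∈ Finset.univ.erase i, m i * m j * n i j = 0 := by
    intro i
    have h1 := heq i (Finset.mem_univ i)
    rw [hsplit i] at h1
    have : m i ^ 2 ≤ m i * m i * n i i := by
      rw [pow_two]
      exact Nat.le_mul_of_pos_right _ (hdiag i)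
    omega
  constructor
  · intro i hi
    have h1 := (hkey i).1
    rw [pow_two] at h1
    have hpos : 0 < m i * m i := Nat.mul_pos (Nat.pos_of_ne_zero hi) (Nat.pos_of_ne_zero hi)
    exact Nat.eq_of_mul_eq_mul_left hpos (by rw [h1, mul_one])
  · intro i j hij hi hj
    have h1 := (Finset.sum_eq_zero_iff.mp (hkey i).2) j
      (Finset.mem_erase.mpr ⟨hij.symm, Finset.mem_univ j⟩)
    rcases Nat.mul_eq_zero.mp h1 with h2 | h2
    · rcases Nat.mul_eq_zero.mp h2 with h3 | h3
      · exact absurd h3 hi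
      · exact absurd h3 hj
    · exact h2

/-- If `Φ₀` is a character of `T` whose induction to `G` has the same norm, then induction is
injective and irreducibility-preserving on the irreducible constituents of `Φ₀`. -/
theorem induction_irr_of_norm_eq (T : Subgroup G) [Fintype T]
    (Φ₀ : T → ℂ) (hΦ : IsCharacter T Φ₀)
    (hnorm : classInner (indFun T Φ₀) (indFun T Φ₀) = classInner Φ₀ Φ₀)
    (ψ ψ' : T → ℂ) (hψ : IsIrrCharacter T ψ) (hψ' : IsIrrCharacter T ψ')
    (hc : classInner Φ₀ ψ ≠ 0) (hc' : classInner Φ₀ ψ' ≠ 0) :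
    IsIrrCharacter G (indFun T ψ) ∧ (indFun T ψ = indFun T ψ' → ψ = ψ') := by
  classical
  have := Fintype.ofFinite (IrrCharacter T)
  choose m hm using fun μ : IrrCharacter T => isCharacter_inner_irr_nat hΦ μ
  choose n hn using fun (μ ν : IrrCharacter T) =>
    isCharacter_inner_nat (isCharacter_indFun T (isCharacter_irr μ))
      (isCharacter_indFun T (isCharacter_irr ν))
  have hexp : Φ₀ = ∑ μ : IrrCharacter T, (m μ : ℂ) • μ.1 := by
    have h1 := classFunction_expansion (isCharacter_conj_class hΦ)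
    rw [Finset.sum_congr rfl (fun μ _ => by rw [hm μ])] at h1
    exact h1
  have hind : indFun T Φ₀ = ∑ μ : IrrCharacter T, (m μ : ℂ) • indFun T μ.1 := by
    conv_lhs => rw [hexp]
    rw [indFun_finset_sum]
    exact Finset.sum_congr rfl (fun μ _ => indFun_smul T _ _)
  have h1 : classInner (indFun T Φ₀) (indFun T Φ₀) =
      ∑ μ : IrrCharacter T, ∑ ν : IrrCharacter T, (m μ : ℂ) * (m ν : ℂ) * (n μ ν : ℂ) := by
    rw [hind, classInner_sum_left]
    apply Finset.sum_congr rfl
    intro μ _
    rw [classInner_smul_left, classInner_sum_right, Finset.mul_sum]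
    apply Finset.sum_congr rfl
    intro ν _
    rw [classInner_smul_right, hn, Complex.conj_natCast]
    ring
  have h2 : classInner Φ₀ Φ₀ = ∑ μ : IrrCharacter T, (m μ : ℂ) ^ 2 := by
    have e : classInner Φ₀ Φ₀ = classInner (∑ μ : IrrCharacter T, (m μ : ℂ) • μ.1) Φ₀ := by
      rw [← hexp]
    rw [e, classInner_sum_left]
    apply Finset.sum_congr rfl
    intro μ _
    rw [classInner_smul_left, classInner_conj_symm, hm, Complex.conj_natCast]
    ring
  have hnat : ∑ μ : IrrCharacter T, ∑ ν : IrrCharacter T, m μ * m ν * n μ ν =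
      ∑ μ : IrrCharacter T, m μ ^ 2 := by
    have := h1.symm.trans (hnorm.trans h2)
    exact_mod_cast this
  have hdiag : ∀ μ : IrrCharacter T, 1 ≤ n μ μ := by
    intro μ
    by_contra h
    have h0 : n μ μ = 0 := by omega
    have h3 : classInner (indFun T μ.1) (indFun T μ.1) = 0 := by rw [hn, h0]; simp
    have hz := congrFun (eq_zero_of_classInner_self h3) 1
    rw [indFun_one] at hz
    rcases mul_eq_zero.mp hz with h4 | h4
    · have : T.index ≠ 0 := Subgroup.index_ne_zero_of_finite
      exact this (by exact_mod_cast h4)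
    · exact irr_one_ne_zero μ h4
  obtain ⟨hA, hB⟩ := nat_sum_lemma m n hdiag hnat
  have hmψ : m ⟨ψ, hψ⟩ ≠ 0 := by
    intro h
    apply hc
    have := hm ⟨ψ, hψ⟩
    rw [h] at this
    simpa using this
  have hmψ' : m ⟨ψ', hψ'⟩ ≠ 0 := by
    intro h
    apply hc'
    have := hm ⟨ψ', hψ'⟩
    rw [h] at this
    simpa using this
  have hself : classInner (indFun T ψ) (indFun T ψ) = 1 := by
    have := hn ⟨ψ, hψ⟩ ⟨ψ, hψ⟩
    rw [hA _ hmψ] at this
    simpa using this
  refine ⟨isIrrCharacter_of_inner_self_eq_one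
    (isCharacter_indFun T (isCharacter_of_isIrrCharacter hψ)) hself, ?_⟩
  intro heq
  by_contra hne
  have hne' : (⟨ψ, hψ⟩ : IrrCharacter T) ≠ ⟨ψ', hψ'⟩ := fun h => hne (congrArg Subtype.val h)
  have h0 := hB _ _ hne' hmψ hmψ'
  have h3 := hn ⟨ψ, hψ⟩ ⟨ψ', hψ'⟩
  rw [h0] at h3
  have h4 : classInner (indFun T ψ) (indFun T ψ') = 1 := by rw [← heq]; exact hself
  rw [h4] at h3
  simp at h3

end Cfsg.Agent.Lib.helper8
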