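import Cfsg.Agent.Lib.helper8.GenChar
import Cfsg.Agent.Lib.helper8.IndLinear
import Cfsg.Prelude.Def_OddOrderChar

set_option autoImplicit false

namespace Cfsg.Agent.Lib.helper8

open Cfsg Cfsg.Agent.Lib.helper24

theorem inner_zsmul_left {G : Type*} [Group G] [Fintype G] (m : ℤ) (f g : G → ℂ) :
    Cfsg.classInner (m • f) g = (m : ℂ) * Cfsg.classInner f g := by
  rw [← Int.cast_smul_eq_zsmul ℂ m f, classInner_smul_left]

theorem inner_zsmul_right {G : Type*} [Group G] [Fintype G] (m : ℤ) (f g : G → ℂ) :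
    Cfsg.classInner f (m • g) = (m : ℂ) * Cfsg.classInner f g := by
  rw [← Int.cast_smul_eq_zsmul ℂ m g, classInner_smul_right, map_intCast]

theorem mem_zspanOn_one {N : Type*} [Group N] (X : Set (N → ℂ)) (z : N → ℂ) :
    z ∈ Cfsg.zspanOn X {1}ᶜ ↔ z ∈ Cfsg.zspan X ∧ z 1 = 0 := by
  constructor
  · intro h
    exact ⟨h.1, h.2 1 (by simp)⟩
  · intro h
    refine ⟨h.1, fun x hx => ?_⟩
    have hx1 : x = 1 := by simpa using hx
    rw [hx1]; exact h.2

theorem zspan_zero_map {N G : Type*} (X : Set (N → ℂ)) (σ : (N → ℂ) → (G → ℂ))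
    (hσsmul : ∀ a ∈ Cfsg.zspan X, ∀ n : ℤ, σ (n • a) = n • σ a) : σ 0 = 0 := by
  have h := hσsmul 0 (Submodule.zero_mem _) 0
  rw [zero_smul, zero_smul] at h
  exact h

/-- Bilinear extension of a vanishing of inner products from generators to integer spans. -/
theorem span_bilin_zero {N G : Type*} [Group G] [Fintype G] (X Y : Set (N → ℂ))
    (σ τ : (N → ℂ) → (G → ℂ))
    (hσadd : ∀ a ∈ Cfsg.zspan X, ∀ b ∈ Cfsg.zspan X, σ (a + b) = σ a + σ b)
    (hσsmul : ∀ a ∈ Cfsg.zspan X, ∀ n : ℤ, σ (n • a) = n • σ a)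
    (hτadd : ∀ a ∈ Cfsg.zspan Y, ∀ b ∈ Cfsg.zspan Y, τ (a + b) = τ a + τ b)
    (hτsmul : ∀ a ∈ Cfsg.zspan Y, ∀ n : ℤ, τ (n • a) = n • τ a)
    (h : ∀ χ ∈ X, ∀ η ∈ Y, Cfsg.classInner (σ χ) (τ η) = 0) :
    ∀ a ∈ Cfsg.zspan X, ∀ b ∈ Cfsg.zspan Y, Cfsg.classInner (σ a) (τ b) = 0 := by
  have hσ0 := zspan_zero_map X σ hσsmul
  have hτ0 := zspan_zero_map Y τ hτsmul
  have step : ∀ χ ∈ X, ∀ b ∈ Cfsg.zspan Y, Cfsg.classInner (σ χ) (τ b) = 0 := by
    intro χ hχ b hb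
    have hb' : b ∈ Submodule.span ℤ Y := hb
    induction hb' using Submodule.span_induction with
    | mem η hη => exact h χ hχ η hη
    | zero => rw [hτ0, classInner_zero_right]
    | add x y hx hy ihx ihy =>
      rw [hτadd x hx y hy, classInner_add_right, ihx hx, ihy hy, add_zero]
    | smul n x hx ih =>
      rw [hτsmul x hx n, inner_zsmul_right, ih hx, mul_zero]
  intro a ha b hb
  have ha' : a ∈ Submodule.span ℤ X := ha
  induction ha' using Submodule.span_induction with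
  | mem χ hχ => exact step χ hχ b hb
  | zero => rw [hσ0, classInner_zero_left]
  | add x y hx hy ihx ihy =>
    rw [hσadd x hx y hy, classInner_add_left, ihx hx, ihy hy, add_zero]
  | smul n x hx ih =>
    rw [hσsmul x hx n, inner_zsmul_left, ih hx, mul_zero]

theorem zspan_one_int {N : Type*} [Group N] (X : Set (N → ℂ))
    (hirr : ∀ χ ∈ X, Cfsg.IsIrrCharacter N χ) :
    ∀ a ∈ Cfsg.zspan X, ∃ m : ℤ, a 1 = (m : ℂ) := by
  intro a ha
  have ha' : a ∈ Submodule.span ℤ X := ha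
  induction ha' using Submodule.span_induction with
  | mem χ hχ =>
    obtain ⟨n, -, hn⟩ := isIrrCharacter_one (hirr χ hχ)
    exact ⟨n, by rw [hn]; simp⟩
  | zero => exact ⟨0, by simp⟩
  | add x y hx hy ihx ihy =>
    obtain ⟨m, hm⟩ := ihx hx
    obtain ⟨k, hk⟩ := ihy hy
    exact ⟨m + k, by rw [Pi.add_apply, hm, hk]; push_cast; ring⟩
  | smul n x hx ih =>
    obtain ⟨m, hm⟩ := ih hx
    exact ⟨n * m, by rw [Pi.smul_apply, hm, zsmul_eq_mul]; push_cast; ring⟩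

theorem zspan_union_decomp {N : Type*} (X Y : Set (N → ℂ)) (z : N → ℂ)
    (hz : z ∈ Cfsg.zspan (X ∪ Y)) :
    ∃ a ∈ Cfsg.zspan X, ∃ b ∈ Cfsg.zspan Y, z = a + b := by
  have hz' : z ∈ Submodule.span ℤ (X ∪ Y) := hz
  rw [Submodule.span_union, Submodule.mem_sup] at hz'
  obtain ⟨a, ha, b, hb, hab⟩ := hz'
  exact ⟨a, ha, b, hb, hab.symm⟩

theorem zspan_mono {N : Type*} {X S : Set (N → ℂ)} (h : X ⊆ S) {z : N → ℂ}
    (hz : z ∈ Cfsg.zspan X) : z ∈ Cfsg.zspan S := Submodule.span_mono h hz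

theorem zsmul_fun_cancel {G : Type*} {k : ℤ} (hk : k ≠ 0) {f g : G → ℂ}
    (h : k • f = k • g) : f = g := by
  funext x
  have h1 := congrFun h x
  rw [Pi.smul_apply, Pi.smul_apply, zsmul_eq_mul, zsmul_eq_mul] at h1
  exact mul_left_cancel₀ (Int.cast_ne_zero.mpr hk) h1

end Cfsg.Agent.Lib.helper8
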