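import Cfsg.Agent.Lib.helper8.Coherence

set_option autoImplicit false

namespace Cfsg.Agent.Lib.helper8

open Cfsg Cfsg.Agent.Lib.helper24
open scoped ComplexConjugate

theorem isGeneralizedCharacter_zero' {G : Type*} [Group G] [Fintype G] :
    IsGeneralizedCharacter G (0 : G → ℂ) :=
  ⟨0, 0, isCharacter_zero, isCharacter_zero, by simp⟩

theorem isGeneralizedCharacter_zsmul {G : Type*} [Group G] [Fintype G] (n : ℤ) {τ : G → ℂ}
    (h : IsGeneralizedCharacter G τ) : IsGeneralizedCharacter G (n • τ) := by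
  induction n using Int.induction_on with
  | zero => rw [zero_smul]; exact isGeneralizedCharacter_zero'
  | succ i ih => rw [add_smul, one_smul]; exact isGeneralizedCharacter_add ih h
  | pred i ih => rw [sub_smul, one_smul]; exact isGeneralizedCharacter_sub ih h

theorem isGeneralizedCharacter_finset_sum {G : Type*} [Group G] [Fintype G] {ι : Type*}
    (s : Finset ι) (f : ι → G → ℂ) (h : ∀ i ∈ s, IsGeneralizedCharacter G (f i)) :
    IsGeneralizedCharacter G (∑ i ∈ s, f i) := by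
  classical
  induction s using Finset.induction_on with
  | empty => simpa using (isGeneralizedCharacter_zero' (G := G))
  | insert a s ha ih =>
    rw [Finset.sum_insert ha]
    exact isGeneralizedCharacter_add (h a (Finset.mem_insert_self a s))
      (ih (fun i hi => h i (Finset.mem_insert_of_mem hi)))

theorem classInner_self_int_nonneg {G : Type*} [Group G] [Fintype G] {f : G → ℂ} {z : ℤ}
    (h : classInner f f = (z : ℂ)) : 0 ≤ z := by
  unfold classInner at h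
  have h2 : ∑ g : G, f g * conj (f g) = ((∑ g : G, Complex.normSq (f g) : ℝ) : ℂ) := by
    push_cast
    exact Finset.sum_congr rfl (fun g _ => Complex.mul_conj (f g))
  rw [h2] at h
  have hpos : (0:ℝ) ≤ (Nat.card G : ℝ)⁻¹ * ∑ g : G, Complex.normSq (f g) :=
    mul_nonneg (inv_nonneg.mpr (Nat.cast_nonneg _))
      (Finset.sum_nonneg (fun g _ => Complex.normSq_nonneg _))
  have h3 : ((Nat.card G : ℝ)⁻¹ * ∑ g : G, Complex.normSq (f g) : ℝ) = (z : ℝ) := by
    have h4 : (((Nat.card G : ℝ)⁻¹ * ∑ g : G, Complex.normSq (f g) : ℝ) : ℂ) = ((z : ℝ) : ℂ) := by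
      push_cast
      push_cast at h
      exact h
    exact_mod_cast h4
  rw [h3] at hpos
  exact_mod_cast hpos

theorem classInner_sum_smul_sum {X ι : Type*} [Group X] [Fintype X] (s : Finset ι)
    (a b : ι → ℂ) (F : ι → X → ℂ) :
    classInner (∑ ξ ∈ s, a ξ • F ξ) (∑ η ∈ s, b η • F η) =
      ∑ ξ ∈ s, ∑ η ∈ s, a ξ * conj (b η) * classInner (F ξ) (F η) := by
  rw [classInner_sum_left]
  apply Finset.sum_congr rfl
  intro ξ _
  rw [classInner_sum_right]
  apply Finset.sum_congr rfl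
  intro η _
  rw [classInner_smul_left, classInner_smul_right]
  ring

theorem coherent_ext {N G : Type*} [Group N] [Fintype N] [Group G] [Fintype G]
    (S' : Finset (N → ℂ)) (T' : (N → ℂ) → (G → ℂ))
    (hnz : ∀ ξ ∈ S', classInner ξ ξ ≠ 0)
    (horth : ∀ ξ ∈ S', ∀ η ∈ S', ξ ≠ η → classInner ξ η = 0)
    (hTgen : ∀ ξ ∈ S', IsGeneralizedCharacter G (T' ξ))
    (hTin : ∀ ξ ∈ S', ∀ η ∈ S', classInner (T' ξ) (T' η) = classInner ξ η) :
    ∃ τ₂ : (N → ℂ) → (G → ℂ), (∀ f g, τ₂ (f + g) = τ₂ f + τ₂ g) ∧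
      (∀ (n : ℤ) f, τ₂ (n • f) = n • τ₂ f) ∧
      IsLinearIsometryOn (zspan (↑S' : Set (N → ℂ))) τ₂ ∧ ∀ ξ ∈ S', τ₂ ξ = T' ξ := by
  classical
  obtain ⟨c, hcdef⟩ : ∃ c : (N → ℂ) → (N → ℂ) → ℂ,
      c = fun f ξ => classInner f ξ / classInner ξ ξ := ⟨_, rfl⟩
  have hcadd : ∀ f g ξ, c (f + g) ξ = c f ξ + c g ξ := by
    intro f g ξ; rw [hcdef]; simp only []; rw [classInner_add_left, add_div]
  have hcsmul : ∀ (n : ℤ) f ξ, c (n • f) ξ = (n : ℂ) * c f ξ := by
    intro n f ξ; rw [hcdef]; simp only []; rw [inner_zsmul_left, mul_div_assoc]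
  have hczero : ∀ ξ, c 0 ξ = 0 := by
    intro ξ; rw [hcdef]; simp only []; rw [classInner_zero_left, zero_div]
  have hcgen : ∀ ξ₀ ∈ S', ∀ ξ ∈ S', c ξ₀ ξ = if ξ = ξ₀ then 1 else 0 := by
    intro ξ₀ h₀ ξ hξ
    by_cases h : ξ = ξ₀
    · subst h; rw [hcdef, if_pos rfl]; exact div_self (hnz ξ hξ)
    · rw [hcdef, if_neg h]; show classInner ξ₀ ξ / classInner ξ ξ = 0
      rw [horth ξ₀ h₀ ξ hξ (Ne.symm h), zero_div]
  obtain ⟨τ₂, hτ₂def⟩ : ∃ τ₂ : (N → ℂ) → (G → ℂ), τ₂ = fun f => ∑ ξ ∈ S', c f ξ • T' ξ :=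
    ⟨_, rfl⟩
  have hadd : ∀ f g, τ₂ (f + g) = τ₂ f + τ₂ g := by
    intro f g
    rw [hτ₂def]; simp only []
    rw [← Finset.sum_add_distrib]
    apply Finset.sum_congr rfl
    intro ξ _
    rw [hcadd, add_smul]
  have hsmul : ∀ (n : ℤ) f, τ₂ (n • f) = n • τ₂ f := by
    intro n f
    rw [hτ₂def]; simp only []
    rw [Finset.smul_sum]
    apply Finset.sum_congr rfl
    intro ξ _
    rw [hcsmul, mul_smul, Int.cast_smul_eq_zsmul]
  have hgen : ∀ ξ₀ ∈ S', τ₂ ξ₀ = T' ξ₀ := by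
    intro ξ₀ h₀
    rw [hτ₂def]; simp only []
    rw [Finset.sum_congr rfl (fun ξ hξ => by rw [hcgen ξ₀ h₀ ξ hξ])]
    simp only [ite_smul, one_smul, zero_smul]
    rw [Finset.sum_ite_eq' S' ξ₀ (fun ξ => T' ξ), if_pos h₀]
  have hzero : τ₂ 0 = 0 := by
    have := hsmul 0 0
    rw [zero_smul, zero_smul] at this
    exact this
  have hexp : ∀ f ∈ zspan (↑S' : Set (N → ℂ)), f = ∑ ξ ∈ S', c f ξ • ξ := by
    intro f hf
    have hf' : f ∈ Submodule.span ℤ (↑S' : Set (N → ℂ)) := hf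
    induction hf' using Submodule.span_induction with
    | mem ξ₀ h₀ =>
      have h₀' : ξ₀ ∈ S' := Finset.mem_coe.mp h₀
      rw [Finset.sum_congr rfl (fun ξ hξ => by rw [hcgen ξ₀ h₀' ξ hξ])]
      simp only [ite_smul, one_smul, zero_smul]
      rw [Finset.sum_ite_eq' S' ξ₀ (fun ξ => ξ), if_pos h₀']
    | zero =>
      symm
      apply Finset.sum_eq_zero
      intro ξ _
      rw [hczero, zero_smul]
    | add x y hx hy ihx ihy =>
      have e : ∑ ξ ∈ S', c (x + y) ξ • ξ = ∑ ξ ∈ S', c x ξ • ξ + ∑ ξ ∈ S', c y ξ • ξ := by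
        rw [← Finset.sum_add_distrib]
        apply Finset.sum_congr rfl
        intro ξ _
        rw [hcadd, add_smul]
      rw [e, ← ihx hx, ← ihy hy]
    | smul n x hx ih =>
      have e : ∑ ξ ∈ S', c (n • x) ξ • ξ = n • ∑ ξ ∈ S', c x ξ • ξ := by
        rw [Finset.smul_sum]
        apply Finset.sum_congr rfl
        intro ξ _
        rw [hcsmul, mul_smul, Int.cast_smul_eq_zsmul]
      rw [e, ← ih hx]
  refine ⟨τ₂, hadd, hsmul, ⟨fun f _ g _ => hadd f g, fun f _ n => hsmul n f, ?_, ?_⟩, hgen⟩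
  · intro f hf g hg
    have e1 : classInner (τ₂ f) (τ₂ g) =
        ∑ ξ ∈ S', ∑ η ∈ S', c f ξ * conj (c g η) * classInner (T' ξ) (T' η) := by
      rw [hτ₂def]; simp only []
      exact classInner_sum_smul_sum S' (c f) (c g) T'
    have e2 : classInner f g =
        ∑ ξ ∈ S', ∑ η ∈ S', c f ξ * conj (c g η) * classInner ξ η := by
      conv_lhs => rw [hexp f hf, hexp g hg]
      exact classInner_sum_smul_sum S' (c f) (c g) (fun ξ => ξ)
    rw [e1, e2]
    apply Finset.sum_congr rfl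
    intro ξ hξ
    apply Finset.sum_congr rfl
    intro η hη
    rw [hTin ξ hξ η hη]
  · intro f hf
    have hf' : f ∈ Submodule.span ℤ (↑S' : Set (N → ℂ)) := hf
    induction hf' using Submodule.span_induction with
    | mem ξ₀ h₀ =>
      rw [hgen ξ₀ (Finset.mem_coe.mp h₀)]
      exact hTgen ξ₀ (Finset.mem_coe.mp h₀)
    | zero => rw [hzero]; exact isGeneralizedCharacter_zero'
    | add x y hx hy ihx ihy =>
      rw [hadd]; exact isGeneralizedCharacter_add (ihx hx) (ihy hy)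
    | smul n x hx ih =>
      rw [hsmul]; exact isGeneralizedCharacter_zsmul n (ih hx)

end Cfsg.Agent.Lib.helper8
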