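import Cfsg.Agent.Lib.helper8.Coherence2

set_option autoImplicit false

namespace Cfsg.Agent.Lib.helper8

open Cfsg Cfsg.Agent.Lib.helper24
open scoped ComplexConjugate

theorem orth_set_finite {N : Type*} [Group N] [Fintype N] (S : Set (N → ℂ))
    (hnz : ∀ ξ ∈ S, classInner ξ ξ ≠ 0)
    (horth : ∀ ξ ∈ S, ∀ η ∈ S, ξ ≠ η → classInner ξ η = 0) : S.Finite := by
  classical
  have hli : LinearIndependent ℂ (fun x : S => (x : N → ℂ)) := by
    rw [linearIndependent_iff']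
    intro s c hc χ hχ
    have h := congrArg (fun f => classInner f χ.1) hc
    simp only [classInner_sum_left, classInner_smul_left, classInner_zero_left] at h
    rw [Finset.sum_eq_single χ] at h
    · exact (mul_eq_zero.mp h).resolve_right (hnz χ.1 χ.2)
    · intro ψ _ hψ
      rw [horth ψ.1 ψ.2 χ.1 χ.2 (fun h' => hψ (Subtype.ext h')), mul_zero]
    · intro h'; exact absurd hχ h'
  exact hli.setFinite

theorem isCharacter_eq_zero_of_one {G : Type*} [Group G] [Fintype G] {χ : G → ℂ}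
    (h : IsCharacter G χ) (h1 : χ 1 = 0) : χ = 0 := by
  funext g
  have := isCharacter_norm_le h g
  rw [h1, Complex.zero_re] at this
  exact norm_le_zero_iff.mp this

theorem orthonormal_sum_inner {G : Type*} [Group G] [Fintype G] (s : Finset (G → ℂ))
    (hs : ∀ α ∈ s, ∀ β ∈ s, classInner α β = if α = β then 1 else 0)
    (a b : (G → ℂ) → ℤ) :
    classInner (∑ α ∈ s, a α • α) (∑ β ∈ s, b β • β) = ((∑ α ∈ s, a α * b α : ℤ) : ℂ) := by
  classical
  rw [classInner_sum_left]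
  push_cast
  apply Finset.sum_congr rfl
  intro α hα
  rw [classInner_sum_right]
  rw [Finset.sum_congr rfl (fun β hβ => by
    rw [inner_zsmul_left, inner_zsmul_right, hs α hα β hβ])]
  simp only [mul_ite, mul_one, mul_zero]
  rw [Finset.sum_ite_eq s α (fun β => (a α : ℂ) * (b β : ℂ)), if_pos hα]

theorem inner_sum_zsmul_right {G : Type*} [Group G] [Fintype G] (s : Finset (G → ℂ))
    (θ : G → ℂ) (b : (G → ℂ) → ℤ) :
    classInner θ (∑ β ∈ s, b β • β) = ∑ β ∈ s, (b β : ℂ) * classInner θ β := by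
  rw [classInner_sum_right]
  apply Finset.sum_congr rfl
  intro β _
  rw [inner_zsmul_right]

theorem inner_sum_zsmul_left {G : Type*} [Group G] [Fintype G] (s : Finset (G → ℂ))
    (θ : G → ℂ) (b : (G → ℂ) → ℤ) :
    classInner (∑ β ∈ s, b β • β) θ = ∑ β ∈ s, (b β : ℂ) * classInner β θ := by
  rw [classInner_sum_left]
  apply Finset.sum_congr rfl
  intro β _
  rw [inner_zsmul_left]

theorem conjFun_conjFun {L : Type*} (f : L → ℂ) : conjFun (conjFun f) = f := by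
  funext x; simp [conjFun]

theorem subcoh_pair {L G : Type*} [Group L] [Fintype L] [Group G] [Fintype G]
    (S : Set (L → ℂ)) (τ : (L → ℂ) → (G → ℂ)) (R : (L → ℂ) → Finset (G → ℂ))
    (hS : IsCoherenceSystem S τ R) (ψ φ : L → ℂ) (hψ : ψ ∈ S) (hφ : φ ∈ S) (hne : φ ≠ ψ)
    (hne' : φ ≠ conjFun ψ) (hdeg : ψ 1 = φ 1)
    (nψ nφ : ℤ) (hnψ : classInner ψ ψ = nψ) (hnφ : classInner φ φ = nφ) :
    ∃ a b : (G → ℂ) → ℤ, τ (ψ - φ) = ∑ α ∈ R ψ, a α • α + ∑ β ∈ R φ, b β • β ∧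
      (∀ α ∈ R ψ, classInner (τ (ψ - φ)) α = a α) ∧ ∑ α ∈ R ψ, a α = nψ ∧
      ∑ α ∈ R ψ, a α ^ 2 = nψ := by
  classical
  obtain ⟨htadd, htsmul, htinner, htgen⟩ := hS.isometry
  have hψc := hS.conj_mem ψ hψ
  have hφc := hS.conj_mem φ hφ
  have hmem : ∀ ξ ∈ S, ξ ∈ zspan S := fun ξ h => Submodule.subset_span h
  have hone : ∀ ξ ∈ S, conjFun ξ 1 = ξ 1 := by
    intro ξ hξ
    obtain ⟨n, hn⟩ := isCharacter_one (hS.isCharacter ξ hξ)
    show (starRingEnd ℂ) (ξ 1) = ξ 1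
    rw [hn, Complex.conj_natCast]
  have hsubmem : ∀ ξ ∈ S, ∀ η ∈ S, ξ 1 = η 1 → ξ - η ∈ zspanOn S {1}ᶜ := by
    intro ξ hξ η hη h
    apply (mem_zspanOn_one S _).mpr
    refine ⟨Submodule.sub_mem _ (hmem ξ hξ) (hmem η hη), ?_⟩
    rw [Pi.sub_apply, h, sub_self]
  have h1 := hsubmem ψ hψ φ hφ hdeg
  have h2 := hsubmem ψ hψ _ hψc (hone ψ hψ).symm
  have h3 := hsubmem φ hφ _ hφc (hone φ hφ).symm
  have o1 : classInner ψ φ = 0 := hS.orthogonal ψ hψ φ hφ (Ne.symm hne)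
  have o2 : classInner φ ψ = 0 := hS.orthogonal φ hφ ψ hψ hne
  have o3 : classInner ψ (conjFun ψ) = 0 :=
    hS.orthogonal ψ hψ _ hψc (Ne.symm (hS.conj_ne ψ hψ))
  have o4 : classInner φ (conjFun ψ) = 0 := hS.orthogonal φ hφ _ hψc hne'
  have o5 : classInner ψ (conjFun φ) = 0 :=
    hS.orthogonal ψ hψ _ hφc (by intro h; apply hne'; rw [h, conjFun_conjFun])
  have o6 : classInner φ (conjFun φ) = 0 :=
    hS.orthogonal φ hφ _ hφc (Ne.symm (hS.conj_ne φ hφ))
  have hRR : ∀ α ∈ R ψ, ∀ β ∈ R φ, classInner α β = 0 := hS.disjoint φ hφ ψ hψ o1 o5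
  have hRR' : ∀ β ∈ R φ, ∀ α ∈ R ψ, classInner β α = 0 := by
    intro β hβ α hα
    rw [classInner_conj_symm, hRR α hα β hβ, map_zero]
  obtain ⟨θ, hθdef⟩ : ∃ θ, θ = τ (ψ - φ) := ⟨_, rfl⟩
  have hθgen : IsGeneralizedCharacter G θ := by rw [hθdef]; exact htgen _ h1
  have hexa : ∀ α, ∃ z : ℤ, α ∈ R ψ → classInner θ α = z := by
    intro α
    by_cases h : α ∈ R ψ
    · obtain ⟨z, hz⟩ := genchar_inner_genchar_int hθgen (hS.virtual ψ hψ α h)
      exact ⟨z, fun _ => hz⟩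
    · exact ⟨0, fun h' => absurd h' h⟩
  choose a ha using hexa
  have hexb : ∀ β, ∃ z : ℤ, β ∈ R φ → classInner θ β = z := by
    intro β
    by_cases h : β ∈ R φ
    · obtain ⟨z, hz⟩ := genchar_inner_genchar_int hθgen (hS.virtual φ hφ β h)
      exact ⟨z, fun _ => hz⟩
    · exact ⟨0, fun h' => absurd h' h⟩
  choose b hb using hexb
  have hsa : ((∑ α ∈ R ψ, a α : ℤ) : ℂ) = nψ := by
    have e := htinner _ h1 _ h2
    rw [hS.sum_eq ψ hψ, ← hθdef, classInner_sum_right] at e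
    rw [Finset.sum_congr rfl (fun α hα => ha α hα)] at e
    rw [classInner_sub_left, classInner_sub_right, classInner_sub_right, hnψ, o3, o2, o4] at e
    push_cast; rw [e]; ring
  have hsb : ((∑ β ∈ R φ, b β : ℤ) : ℂ) = -nφ := by
    have e := htinner _ h1 _ h3
    rw [hS.sum_eq φ hφ, ← hθdef, classInner_sum_right] at e
    rw [Finset.sum_congr rfl (fun β hβ => hb β hβ)] at e
    rw [classInner_sub_left, classInner_sub_right, classInner_sub_right, o1, o5, hnφ, o6] at e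
    push_cast; rw [e]; ring
  have hθθ : classInner θ θ = (nψ : ℂ) + nφ := by
    rw [hθdef, htinner _ h1 _ h1, classInner_sub_left, classInner_sub_right, classInner_sub_right,
      hnψ, o1, o2, hnφ]
    ring
  obtain ⟨Δ, hΔdef⟩ : ∃ Δ, Δ = θ - (∑ α ∈ R ψ, a α • α + ∑ β ∈ R φ, b β • β) := ⟨_, rfl⟩
  have hΔα : ∀ α ∈ R ψ, classInner Δ α = 0 := by
    intro α hα
    rw [hΔdef, classInner_sub_left, classInner_add_left, inner_sum_zsmul_left,
      inner_sum_zsmul_left, ha α hα]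
    rw [Finset.sum_congr (s₁ := R ψ) rfl (fun α' hα' => by rw [hS.orthonormal ψ hψ α' hα' α hα])]
    rw [Finset.sum_congr (s₁ := R φ) rfl (fun β hβ => by rw [hRR' β hβ α hα, mul_zero])]
    simp only [mul_ite, mul_one, mul_zero]
    rw [Finset.sum_ite_eq' (R ψ) α (fun α' => (a α' : ℂ)), if_pos hα, Finset.sum_const_zero]
    ring
  have hΔβ : ∀ β ∈ R φ, classInner Δ β = 0 := by
    intro β hβ
    rw [hΔdef, classInner_sub_left, classInner_add_left, inner_sum_zsmul_left,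
      inner_sum_zsmul_left, hb β hβ]
    rw [Finset.sum_congr (s₁ := R ψ) rfl (fun α hα => by rw [hRR α hα β hβ, mul_zero])]
    rw [Finset.sum_congr (s₁ := R φ) rfl (fun β' hβ' => by rw [hS.orthonormal φ hφ β' hβ' β hβ])]
    simp only [mul_ite, mul_one, mul_zero]
    rw [Finset.sum_ite_eq' (R φ) β (fun β' => (b β' : ℂ)), if_pos hβ, Finset.sum_const_zero]
    ring
  have hΔΔ : classInner Δ Δ =
      ((nψ + nφ - ∑ α ∈ R ψ, a α ^ 2 - ∑ β ∈ R φ, b β ^ 2 : ℤ) : ℂ) := by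
    have e1 : classInner Δ Δ = classInner Δ θ := by
      conv_lhs => rhs; rw [hΔdef]
      rw [classInner_sub_right, classInner_add_right, inner_sum_zsmul_right,
        inner_sum_zsmul_right]
      rw [Finset.sum_congr (s₁ := R ψ) rfl (fun α hα => by rw [hΔα α hα, mul_zero])]
      rw [Finset.sum_congr (s₁ := R φ) rfl (fun β hβ => by rw [hΔβ β hβ, mul_zero])]
      simp
    rw [e1, hΔdef, classInner_sub_left, classInner_add_left, inner_sum_zsmul_left,
      inner_sum_zsmul_left, hθθ]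
    rw [Finset.sum_congr (s₁ := R ψ) rfl (fun α hα => by
      rw [classInner_conj_symm, ha α hα, map_intCast])]
    rw [Finset.sum_congr (s₁ := R φ) rfl (fun β hβ => by
      rw [classInner_conj_symm, hb β hβ, map_intCast])]
    push_cast
    simp only [pow_two]
    ring
  have hz0 := classInner_self_int_nonneg hΔΔ
  have hsa' : ∑ α ∈ R ψ, a α = nψ := by exact_mod_cast hsa
  have hsb' : ∑ β ∈ R φ, b β = -nφ := by exact_mod_cast hsb
  have hna : ∀ α ∈ R ψ, 0 ≤ a α ^ 2 - a α := by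
    intro α _
    rcases le_or_gt (a α) 0 with h | h
    · nlinarith [sq_nonneg (a α)]
    · have : 1 ≤ a α := h
      nlinarith
  have hnb : ∀ β ∈ R φ, 0 ≤ b β ^ 2 + b β := by
    intro β _
    rcases le_or_gt 0 (b β) with h | h
    · nlinarith [sq_nonneg (b β)]
    · have : b β ≤ -1 := by omega
      nlinarith
  have hA := Finset.sum_nonneg hna
  have hB := Finset.sum_nonneg hnb
  rw [Finset.sum_sub_distrib] at hA
  rw [Finset.sum_add_distrib] at hB
  have hsq : ∑ α ∈ R ψ, a α ^ 2 = nψ := by linarith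
  have hzz : (nψ + nφ - ∑ α ∈ R ψ, a α ^ 2 - ∑ β ∈ R φ, b β ^ 2 : ℤ) = 0 := by linarith
  have hΔ0 : Δ = 0 := by
    apply eq_zero_of_classInner_self
    rw [hΔΔ, hzz, Int.cast_zero]
  refine ⟨a, b, ?_, ?_, hsa', hsq⟩
  · rw [← hθdef]
    rw [hΔdef] at hΔ0
    exact sub_eq_zero.mp hΔ0
  · intro α hα
    rw [← hθdef]
    exact ha α hα

end Cfsg.Agent.Lib.helper8
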