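import Cfsg.Agent.Lib.helper8.Coherence3

set_option autoImplicit false

namespace Cfsg.Agent.Lib.helper8

open Cfsg Cfsg.Agent.Lib.helper24
open scoped ComplexConjugate

theorem classInner_self_real_nonneg {G : Type*} [Group G] [Fintype G] {f : G → ℂ} {r : ℝ}
    (h : classInner f f = (r : ℂ)) : 0 ≤ r := by
  unfold classInner at h
  have h2 : ∑ g : G, f g * conj (f g) = ((∑ g : G, Complex.normSq (f g) : ℝ) : ℂ) := by
    push_cast
    exact Finset.sum_congr rfl (fun g _ => Complex.mul_conj (f g))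
  rw [h2] at h
  have hpos : (0:ℝ) ≤ (Nat.card G : ℝ)⁻¹ * ∑ g : G, Complex.normSq (f g) :=
    mul_nonneg (inv_nonneg.mpr (Nat.cast_nonneg _))
      (Finset.sum_nonneg (fun g _ => Complex.normSq_nonneg _))
  have h3 : ((Nat.card G : ℝ)⁻¹ * ∑ g : G, Complex.normSq (f g) : ℝ) = r := by
    have h4 : (((Nat.card G : ℝ)⁻¹ * ∑ g : G, Complex.normSq (f g) : ℝ) : ℂ) = (r : ℂ) := by
      push_cast
      push_cast at h
      exact h
    exact_mod_cast h4
  rw [h3] at hpos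
  exact hpos

theorem coh_conj_one {L G : Type*} [Group L] [Fintype L] [Group G] [Fintype G]
    (S : Set (L → ℂ)) (τ : (L → ℂ) → (G → ℂ)) (R : (L → ℂ) → Finset (G → ℂ))
    (hS : IsCoherenceSystem S τ R) (ξ : L → ℂ) (hξ : ξ ∈ S) : conjFun ξ 1 = ξ 1 := by
  obtain ⟨n, hn⟩ := isCharacter_one (hS.isCharacter ξ hξ)
  show (starRingEnd ℂ) (ξ 1) = ξ 1
  rw [hn, Complex.conj_natCast]

theorem coh_sub_conj_mem {L G : Type*} [Group L] [Fintype L] [Group G] [Fintype G]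
    (S : Set (L → ℂ)) (τ : (L → ℂ) → (G → ℂ)) (R : (L → ℂ) → Finset (G → ℂ))
    (hS : IsCoherenceSystem S τ R) (ξ : L → ℂ) (hξ : ξ ∈ S) :
    ξ - conjFun ξ ∈ zspanOn S {1}ᶜ := by
  apply (mem_zspanOn_one S _).mpr
  refine ⟨Submodule.sub_mem _ (Submodule.subset_span hξ)
    (Submodule.subset_span (hS.conj_mem ξ hξ)), ?_⟩
  rw [Pi.sub_apply, coh_conj_one S τ R hS ξ hξ, sub_self]

theorem coh_card_R {L G : Type*} [Group L] [Fintype L] [Group G] [Fintype G]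
    (S : Set (L → ℂ)) (τ : (L → ℂ) → (G → ℂ)) (R : (L → ℂ) → Finset (G → ℂ))
    (hS : IsCoherenceSystem S τ R) (χ₀ : L → ℂ) (hχ₀ : χ₀ ∈ S) (n₀ : ℕ)
    (hn₀ : classInner χ₀ χ₀ = (n₀ : ℂ)) : (R χ₀).card = 2 * n₀ := by
  classical
  obtain ⟨htadd, htsmul, htinner, htgen⟩ := hS.isometry
  have hχ₀c := hS.conj_mem χ₀ hχ₀
  have hsub := coh_sub_conj_mem S τ R hS χ₀ hχ₀
  have hsumR : τ (χ₀ - conjFun χ₀) = ∑ α ∈ R χ₀, (1 : ℤ) • α := by
    rw [hS.sum_eq χ₀ hχ₀]; simp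
  have e := htinner _ hsub _ hsub
  rw [hsumR, orthonormal_sum_inner (R χ₀) (hS.orthonormal χ₀ hχ₀)] at e
  have o3 : classInner χ₀ (conjFun χ₀) = 0 :=
    hS.orthogonal χ₀ hχ₀ _ hχ₀c (Ne.symm (hS.conj_ne χ₀ hχ₀))
  have o3' : classInner (conjFun χ₀) χ₀ = 0 :=
    hS.orthogonal _ hχ₀c χ₀ hχ₀ (hS.conj_ne χ₀ hχ₀)
  have o4 : classInner (conjFun χ₀) (conjFun χ₀) = (n₀ : ℂ) := by
    have h := classInner_conj_conj χ₀ χ₀
    rw [hn₀, Complex.conj_natCast] at h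
    exact h
  rw [classInner_sub_left, classInner_sub_right, classInner_sub_right, hn₀, o3, o3', o4] at e
  have e' : (((R χ₀).card : ℕ) : ℂ) = ((2 * n₀ : ℕ) : ℂ) := by
    have h : ((∑ α ∈ R χ₀, (1 : ℤ) * 1 : ℤ) : ℂ) = ((R χ₀).card : ℂ) := by simp
    rw [← h, e]; push_cast; ring
  exact_mod_cast e'

theorem coh_in_span {L G : Type*} [Group L] [Fintype L] [Group G] [Fintype G]
    (S : Set (L → ℂ)) (τ : (L → ℂ) → (G → ℂ)) (R : (L → ℂ) → Finset (G → ℂ))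
    (hS : IsCoherenceSystem S τ R) (φ : L → ℂ) (hφ : φ ∈ S) (u v : G → ℂ)
    (hu : IsGeneralizedCharacter G u) (huv : u - v = ∑ α ∈ R φ, α) (n : ℤ)
    (huu : classInner u u = n) (huv0 : classInner u v = 0) :
    ∃ a : (G → ℂ) → ℤ, u = ∑ α ∈ R φ, a α • α := by
  classical
  have hexa : ∀ α, ∃ z : ℤ, α ∈ R φ → classInner u α = z := by
    intro α
    by_cases h : α ∈ R φ
    · obtain ⟨z, hz⟩ := genchar_inner_genchar_int hu (hS.virtual φ hφ α h)
      exact ⟨z, fun _ => hz⟩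
    · exact ⟨0, fun h' => absurd h' h⟩
  choose a ha using hexa
  have hsa : ∑ α ∈ R φ, a α = n := by
    have e : classInner u (u - v) = n := by rw [classInner_sub_right, huu, huv0, sub_zero]
    rw [huv, classInner_sum_right, Finset.sum_congr rfl (fun α hα => ha α hα)] at e
    exact_mod_cast e
  obtain ⟨Δ, hΔdef⟩ : ∃ Δ, Δ = u - ∑ α ∈ R φ, a α • α := ⟨_, rfl⟩
  have hΔα : ∀ α ∈ R φ, classInner Δ α = 0 := by
    intro α hα
    rw [hΔdef, classInner_sub_left, inner_sum_zsmul_left, ha α hα]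
    rw [Finset.sum_congr rfl (fun α' hα' => by rw [hS.orthonormal φ hφ α' hα' α hα])]
    simp only [mul_ite, mul_one, mul_zero]
    rw [Finset.sum_ite_eq' (R φ) α (fun α' => (a α' : ℂ)), if_pos hα, sub_self]
  have hΔΔ : classInner Δ Δ = ((n - ∑ α ∈ R φ, a α ^ 2 : ℤ) : ℂ) := by
    have e1 : classInner Δ Δ = classInner Δ u := by
      conv_lhs => rhs; rw [hΔdef]
      rw [classInner_sub_right, inner_sum_zsmul_right]
      rw [Finset.sum_congr rfl (fun α hα => by rw [hΔα α hα, mul_zero])]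
      simp
    rw [e1, hΔdef, classInner_sub_left, inner_sum_zsmul_left, huu]
    rw [Finset.sum_congr rfl (fun α hα => by rw [classInner_conj_symm, ha α hα, map_intCast])]
    push_cast
    simp only [pow_two]
  have hz0 := classInner_self_int_nonneg hΔΔ
  have hna : ∀ α ∈ R φ, 0 ≤ a α ^ 2 - a α := by
    intro α _
    rcases le_or_gt (a α) 0 with h | h
    · nlinarith [sq_nonneg (a α)]
    · have : 1 ≤ a α := h
      nlinarith
  have hA := Finset.sum_nonneg hna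
  rw [Finset.sum_sub_distrib] at hA
  have hzz : (n - ∑ α ∈ R φ, a α ^ 2 : ℤ) = 0 := by linarith
  have hΔ0 : Δ = 0 := by
    apply eq_zero_of_classInner_self
    rw [hΔΔ, hzz, Int.cast_zero]
  rw [hΔdef] at hΔ0
  exact ⟨a, sub_eq_zero.mp hΔ0⟩

end Cfsg.Agent.Lib.helper8
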