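import Mathlib
import Cfsg.Prelude.Def_SporadicB
import Cfsg.Agent.S0144
import Cfsg.Agent.S1618

set_option autoImplicit false

namespace Cfsg.Agent.Lib.helper8

open scoped commutatorElement

section FischerBasic
variable {G : Type*} [Group G] {D : Set G}

theorem tt_sq (h : Cfsg.IsThreeTranspositionSet D) {d : G} (hd : d ∈ D) : d * d = 1 := by
  have h2 := h.1 d hd
  rw [← pow_two, ← h2]; exact pow_orderOf_eq_one d

theorem tt_inv (h : Cfsg.IsThreeTranspositionSet D) {d : G} (hd : d ∈ D) : d⁻¹ = d :=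
  inv_eq_of_mul_eq_one_left (tt_sq h hd)

theorem tt_ne_one (h : Cfsg.IsThreeTranspositionSet D) {d : G} (hd : d ∈ D) : d ≠ 1 := by
  intro h1
  have h2 := h.1 d hd
  rw [h1, orderOf_one] at h2
  exact absurd h2 (by norm_num)

theorem tt_cube (h : Cfsg.IsThreeTranspositionSet D) {d e : G} (hd : d ∈ D) (he : e ∈ D)
    (hne : ¬ Commute d e) : (d * e) ^ 3 = 1 := by
  rcases h.2 d hd e he with h2 | h3
  · exfalso; apply hne
    have h4 : d * e * (d * e) = 1 := by rw [← pow_two]; exact h2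
    have h1 : d * e = (d * e)⁻¹ := (inv_eq_of_mul_eq_one_left h4).symm
    show d * e = e * d
    rw [h1, mul_inv_rev, tt_inv h hd, tt_inv h he]
  · exact h3

theorem tt_braid (h : Cfsg.IsThreeTranspositionSet D) {d e : G} (hd : d ∈ D) (he : e ∈ D)
    (hne : ¬ Commute d e) : d * e * d = e * d * e := by
  have h3 := tt_cube h hd he hne
  have h5 : d * e * d * (e * d * e) = 1 := by
    rw [pow_succ, pow_two] at h3
    simpa [mul_assoc] using h3
  have h4 : d * e * d = (e * d * e)⁻¹ := eq_inv_of_mul_eq_one_left h5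
  rw [h4, mul_inv_rev, mul_inv_rev, tt_inv h hd, tt_inv h he, mul_assoc]

theorem tt_dich (h : Cfsg.IsThreeTranspositionSet D) {r : G → G → Prop} (hr : Equivalence r)
    (hri : ∀ g p q : G, r p q → r (g * p * g⁻¹) (g * q * g⁻¹))
    {p q d : G} (hq : q ∈ D) (hd : d ∈ D) (hpq : r p q) (hc : Commute d p)
    (hnc : ¬ Commute d q) : r d p := by
  have h1 := hri d p q hpq
  have e1 : d * p * d⁻¹ = p := by rw [hc.eq, mul_inv_cancel_right]
  have e2 : d * q * d⁻¹ = q * d * q := by rw [tt_inv h hd]; exact tt_braid h hd hq hnc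
  rw [e1, e2] at h1
  have h2 : r q (q * d * q) := hr.trans (hr.symm hpq) h1
  have h3 := hri q _ _ h2
  have e3 : q * q * q⁻¹ = q := by rw [mul_inv_cancel_right]
  have e4 : q * (q * d * q) * q⁻¹ = d := by
    calc q * (q * d * q) * q⁻¹ = (q * q) * d := by group
      _ = d := by rw [tt_sq h hq, one_mul]
  rw [e3, e4] at h3
  exact hr.trans (hr.symm h3) (hr.symm hpq)

theorem tt_same_action (h : Cfsg.IsThreeTranspositionSet D) {r : G → G → Prop}
    (hr : Equivalence r) (hri : ∀ g p q : G, r p q → r (g * p * g⁻¹) (g * q * g⁻¹))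
    {p q d : G} (hp : p ∈ D) (hq : q ∈ D) (hd : d ∈ D) (hpq : r p q) :
    r (p * d * p⁻¹) (q * d * q⁻¹) := by
  by_cases hdp : r d p
  · have h1 := hri p _ _ hdp
    have h2 := hri q _ _ (hr.trans hdp hpq)
    rw [mul_inv_cancel_right] at h1 h2
    exact hr.trans h1 (hr.trans hpq (hr.symm h2))
  · by_cases hc : Commute d p
    · have hc' : Commute d q := by
        by_contra hnc
        exact hdp (tt_dich h hr hri hq hd hpq hc hnc)
      have e1 : p * d * p⁻¹ = d := by rw [← hc.eq, mul_inv_cancel_right]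
      have e2 : q * d * q⁻¹ = d := by rw [← hc'.eq, mul_inv_cancel_right]
      rw [e1, e2]; exact hr.refl d
    · have hc' : ¬ Commute d q := by
        intro hcq
        exact hdp (hr.trans (tt_dich h hr hri hp hd (hr.symm hpq) hcq hc) (hr.symm hpq))
      have e1 : p * d * p⁻¹ = d * p * d⁻¹ := by
        rw [tt_inv h hp, tt_inv h hd]; exact (tt_braid h hd hp hc).symm
      have e2 : q * d * q⁻¹ = d * q * d⁻¹ := by
        rw [tt_inv h hq, tt_inv h hd]; exact (tt_braid h hd hq hc').symm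
      rw [e1, e2]; exact hri d p q hpq

theorem tt_kernel (hcl : ∀ g d : G, d ∈ D → g * d * g⁻¹ ∈ D) {r : G → G → Prop}
    (hr : Equivalence r) (hri : ∀ g p q : G, r p q → r (g * p * g⁻¹) (g * q * g⁻¹)) :
    ∃ K : Subgroup G, K.Normal ∧ ∀ g, g ∈ K ↔ ∀ d ∈ D, r (g * d * g⁻¹) d := by
  refine ⟨{ carrier := {g | ∀ d ∈ D, r (g * d * g⁻¹) d}
            mul_mem' := ?_
            one_mem' := ?_
            inv_mem' := ?_ }, ⟨?_⟩, fun g => Iff.rfl⟩
  · intro a b ha hb d hd
    have h1 := hb d hd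
    have h2 := ha _ (hcl b d hd)
    have e : a * b * d * (a * b)⁻¹ = a * (b * d * b⁻¹) * a⁻¹ := by group
    rw [e]; exact hr.trans h2 h1
  · intro d hd
    have e : (1 : G) * d * 1⁻¹ = d := by group
    rw [e]; exact hr.refl d
  · intro a ha d hd
    have h1 := ha _ (hcl a⁻¹ d hd)
    have e : a * (a⁻¹ * d * a⁻¹⁻¹) * a⁻¹ = d := by group
    rw [e] at h1; exact hr.symm h1
  · intro n hn g d hd
    have h1 := hn _ (hcl g⁻¹ d hd)
    have h2 := hri g _ _ h1
    have e1 : g * (n * (g⁻¹ * d * g⁻¹⁻¹) * n⁻¹) * g⁻¹ = g * n * g⁻¹ * d * (g * n * g⁻¹)⁻¹ := by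
      group
    have e2 : g * (g⁻¹ * d * g⁻¹⁻¹) * g⁻¹ = d := by group
    rw [e1, e2] at h2; exact h2

theorem tt_class_closed (hD : Cfsg.IsThreeTranspositionClass D) (g d : G) (hd : d ∈ D) :
    g * d * g⁻¹ ∈ D := by
  obtain ⟨d₀, hd₀, hDe⟩ := hD.2.1
  rw [hDe] at hd ⊢
  obtain ⟨c, hc⟩ := isConj_iff.mp hd
  exact isConj_iff.mpr ⟨g * c, by rw [← hc]; group⟩

theorem tt_class_trans (hD : Cfsg.IsThreeTranspositionClass D) {d e : G} (hd : d ∈ D)
    (he : e ∈ D) : ∃ g : G, g * d * g⁻¹ = e := by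
  obtain ⟨d₀, hd₀, hDe⟩ := hD.2.1
  rw [hDe] at hd he
  obtain ⟨c, hc⟩ := isConj_iff.mp hd
  obtain ⟨c', hc'⟩ := isConj_iff.mp he
  exact ⟨c' * c⁻¹, by rw [← hc, ← hc']; group⟩

theorem mem_conjmap {T : Subgroup G} {g x : G} :
    x ∈ T.map (MulAut.conj g).toMonoidHom ↔ g⁻¹ * x * g ∈ T := by
  constructor
  · rintro ⟨t, ht, rfl⟩
    have e : g⁻¹ * ((MulAut.conj g).toMonoidHom t) * g = t := by
      simp [MulAut.conj_apply, mul_assoc]
    rw [e]; exact ht
  · intro hx
    refine ⟨g⁻¹ * x * g, hx, ?_⟩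
    simp [MulAut.conj_apply, mul_assoc]

end FischerBasic

section FischerNormal
variable {G : Type*} [Group G] [Finite G] {D : Set G}

theorem fischer_min_normal
    (hsol : ∀ N : Subgroup G, N.Normal → Group.IsSolvable ↥N → N = ⊥)
    (hD : Cfsg.IsThreeTranspositionClass D) (K : Subgroup G) (hKn : K.Normal) (hK : K ≠ ⊥) :
    ∃ N : Subgroup G, N.Normal ∧ N ≠ ⊥ ∧ N ≤ K ∧
      ∀ T : Subgroup G, T ≤ N → T ≠ ⊥ → (∀ n ∈ N, ∀ t ∈ T, n * t * n⁻¹ ∈ T) → T = N := by
  classical
  have hs := hD.1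
  obtain ⟨N, ⟨hNn, hN1, hNK⟩, hNmin⟩ := Set.exists_min_image
    {N : Subgroup G | N.Normal ∧ N ≠ ⊥ ∧ N ≤ K} (fun N => Nat.card N) (Set.toFinite _)
    ⟨K, hKn, hK, le_refl K⟩
  obtain ⟨T, ⟨hTN, hT1, hTn⟩, hTmin⟩ := Set.exists_min_image
    {T : Subgroup G | T ≤ N ∧ T ≠ ⊥ ∧ ∀ n ∈ N, ∀ t ∈ T, n * t * n⁻¹ ∈ T}
    (fun T => Nat.card T) (Set.toFinite _)
    ⟨N, le_refl N, hN1, fun n hn t ht => N.mul_mem (N.mul_mem hn ht) (N.inv_mem hn)⟩
  have hconjS : ∀ g : G, T.map (MulAut.conj g).toMonoidHom ≤ N ∧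
      (∀ n ∈ N, ∀ t ∈ T.map (MulAut.conj g).toMonoidHom,
        n * t * n⁻¹ ∈ T.map (MulAut.conj g).toMonoidHom) ∧
      Nat.card (T.map (MulAut.conj g).toMonoidHom) = Nat.card T := by
    intro g
    refine ⟨?_, ?_, Subgroup.card_map_of_injective (MulAut.conj g).injective⟩
    · intro x hx
      rw [mem_conjmap] at hx
      have h1 := hNn.conj_mem _ (hTN hx) g
      have e : g * (g⁻¹ * x * g) * g⁻¹ = x := by group
      rw [e] at h1; exact h1
    · intro n hn t ht
      rw [mem_conjmap] at ht ⊢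
      have hn' : g⁻¹ * n * g ∈ N := by
        have h1 := hNn.conj_mem n hn g⁻¹
        rwa [inv_inv] at h1
      have h2 := hTn _ hn' _ ht
      have e : g⁻¹ * n * g * (g⁻¹ * t * g) * (g⁻¹ * n * g)⁻¹ = g⁻¹ * (n * t * n⁻¹) * g := by
        group
      rw [e] at h2; exact h2
  have hdich : ∀ g : G, T.map (MulAut.conj g).toMonoidHom = T ∨
      T ⊓ T.map (MulAut.conj g).toMonoidHom = ⊥ := by
    intro g
    obtain ⟨h1, h2, h3⟩ := hconjS g
    by_cases hb : T ⊓ T.map (MulAut.conj g).toMonoidHom = ⊥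
    · exact Or.inr hb
    · left
      have hmin : Nat.card T ≤ Nat.card ↥(T ⊓ T.map (MulAut.conj g).toMonoidHom) :=
        hTmin (T ⊓ T.map (MulAut.conj g).toMonoidHom)
          ⟨le_trans inf_le_left hTN, hb, fun n hn t ht => Subgroup.mem_inf.mpr
            ⟨hTn n hn t (Subgroup.mem_inf.mp ht).1, h2 n hn t (Subgroup.mem_inf.mp ht).2⟩⟩
      have e1 : T ⊓ T.map (MulAut.conj g).toMonoidHom = T :=
        Subgroup.eq_of_le_of_card_ge inf_le_left hmin
      have hle : T ≤ T.map (MulAut.conj g).toMonoidHom := by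
        intro x hx
        have hx' : x ∈ T ⊓ T.map (MulAut.conj g).toMonoidHom := by rw [e1]; exact hx
        exact (Subgroup.mem_inf.mp hx').2
      exact (Subgroup.eq_of_le_of_card_ge hle (le_of_eq h3)).symm
  have hcomm : ∀ g : G, T ⊓ T.map (MulAut.conj g).toMonoidHom = ⊥ →
      ∀ t ∈ T, ∀ s ∈ T.map (MulAut.conj g).toMonoidHom, t * s = s * t := by
    intro g hb t ht s hs'
    obtain ⟨h1, h2, h3⟩ := hconjS g
    have hc : t * s * t⁻¹ * s⁻¹ ∈ T ⊓ T.map (MulAut.conj g).toMonoidHom := by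
      refine Subgroup.mem_inf.mpr ⟨?_, ?_⟩
      · have h4 := hTn s (h1 hs') t⁻¹ (T.inv_mem ht)
        have e : t * s * t⁻¹ * s⁻¹ = t * (s * t⁻¹ * s⁻¹) := by group
        rw [e]; exact T.mul_mem ht h4
      · have h4 := h2 t (hTN ht) s hs'
        exact Subgroup.mul_mem _ h4 (Subgroup.inv_mem _ hs')
    rw [hb, Subgroup.mem_bot] at hc
    have e : t * s = (t * s * t⁻¹ * s⁻¹) * (s * t) := by group
    rw [e, hc, one_mul]
  have hTp : ∀ p ∈ D, T.map (MulAut.conj p).toMonoidHom = T := by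
    intro p hp
    rcases hdich p with h | hb
    · exact h
    · exfalso
      have h23 : ∀ t ∈ T, t ^ 2 = 1 ∨ t ^ 3 = 1 := by
        intro t ht
        have hs' : p * t * p⁻¹ ∈ T.map (MulAut.conj p).toMonoidHom := by
          rw [mem_conjmap]
          have e : p⁻¹ * (p * t * p⁻¹) * p = t := by group
          rw [e]; exact ht
        have hcm : Commute (p * t * p⁻¹) t⁻¹ := (hcomm p hb t⁻¹ (T.inv_mem ht) _ hs').symm
        have he : t * p * t⁻¹ ∈ D := tt_class_closed hD t p hp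
        have hprod : p * (t * p * t⁻¹) = (p * t * p⁻¹) * t⁻¹ := by
          rw [tt_inv hs hp]; group
        have key : ∀ j : ℕ, (p * (t * p * t⁻¹)) ^ j = 1 → t ^ j = 1 := by
          intro j hj
          rw [hprod, hcm.mul_pow, inv_pow] at hj
          have h1 : (p * t * p⁻¹) ^ j = t ^ j := mul_inv_eq_one.mp hj
          have h2 : t ^ j ∈ T ⊓ T.map (MulAut.conj p).toMonoidHom := by
            refine Subgroup.mem_inf.mpr ⟨T.pow_mem ht j, ?_⟩
            rw [← h1]; exact Subgroup.pow_mem _ hs' j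
          rw [hb, Subgroup.mem_bot] at h2; exact h2
        rcases hs.2 p hp _ he with h2 | h3
        · exact Or.inl (key 2 h2)
        · exact Or.inr (key 3 h3)
      have hprime : ∀ q : ℕ, q.Prime → q ∣ Nat.card T → q = 2 ∨ q = 3 := by
        intro q hq hdvd
        haveI := Fact.mk hq
        obtain ⟨x, hx⟩ := exists_prime_orderOf_dvd_card' q hdvd
        rcases h23 x.1 x.2 with h2 | h3
        · left
          have h4 : x ^ 2 = 1 := Subtype.ext (by simpa using h2)
          have h5 := orderOf_dvd_of_pow_eq_one h4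
          rw [hx] at h5
          exact (Nat.prime_dvd_prime_iff_eq hq Nat.prime_two).mp h5
        · right
          have h4 : x ^ 3 = 1 := Subtype.ext (by simpa using h3)
          have h5 := orderOf_dvd_of_pow_eq_one h4
          rw [hx] at h5
          exact (Nat.prime_dvd_prime_iff_eq hq Nat.prime_three).mp h5
      have hcard : Nat.card T =
          2 ^ ((Nat.card T).factorization 2) * 3 ^ ((Nat.card T).factorization 3) := by
        have hn : Nat.card T ≠ 0 := Nat.card_pos.ne'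
        have hsupp : (Nat.card T).factorization.support ⊆ {2, 3} := by
          intro q hq
          rw [Nat.support_factorization] at hq
          have hqp := Nat.prime_of_mem_primeFactors hq
          have hqd := Nat.dvd_of_mem_primeFactors hq
          rcases hprime q hqp hqd with h | h <;> simp [h]
        have h0 := Nat.prod_factorization_pow_eq_self hn
        rw [Finsupp.prod_of_support_subset _ hsupp _ (by intros; simp)] at h0
        rw [Finset.prod_pair (by norm_num)] at h0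
        exact h0.symm
      haveI hTsolv : Group.IsSolvable T :=
        Cfsg.Agent.S0144.result 2 3 _ _ Nat.prime_two Nat.prime_three hcard
      have hTmap : ∀ n ∈ N, T.map (MulAut.conj n).toMonoidHom = T := by
        intro n hn
        apply le_antisymm
        · intro x hx
          rw [mem_conjmap] at hx
          have h1 := hTn n hn _ hx
          have e : n * (n⁻¹ * x * n) * n⁻¹ = x := by group
          rw [e] at h1; exact h1
        · intro x hx
          rw [mem_conjmap]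
          have h1 := hTn n⁻¹ (N.inv_mem hn) x hx
          rwa [inv_inv] at h1
      have hTT : ⁅T, T⁆ = ⊥ := by
        by_contra hne
        have hle : ⁅T, T⁆ ≤ T := by
          rw [Subgroup.commutator_le]
          intro a ha b hb'
          exact T.mul_mem (T.mul_mem (T.mul_mem ha hb') (T.inv_mem ha)) (T.inv_mem hb')
        have hnorm : ∀ n ∈ N, ∀ t ∈ ⁅T, T⁆, n * t * n⁻¹ ∈ ⁅T, T⁆ := by
          intro n hn t ht
          have h1 : (MulAut.conj n).toMonoidHom t ∈ (⁅T, T⁆).map (MulAut.conj n).toMonoidHom :=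
            Subgroup.mem_map_of_mem _ ht
          rw [Subgroup.map_commutator, hTmap n hn] at h1
          simpa [MulAut.conj_apply] using h1
        have hmin : Nat.card T ≤ Nat.card ↥(⁅T, T⁆) := hTmin ⁅T, T⁆ ⟨hle.trans hTN, hne, hnorm⟩
        have heq : ⁅T, T⁆ = T := Subgroup.eq_of_le_of_card_ge hle hmin
        haveI : Nontrivial T := (Subgroup.nontrivial_iff_ne_bot T).mpr hT1
        have hlt := Group.IsSolvable.commutator_lt_top_of_nontrivial (G := T)
        have hmap := Subgroup.map_subtype_commutator T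
        rw [heq] at hmap
        apply hlt.ne
        apply Subgroup.map_injective T.subtype_injective
        rw [hmap, ← MonoidHom.range_eq_map, Subgroup.range_subtype]
      have hTab : ∀ t ∈ T, ∀ t' ∈ T, t * t' = t' * t := by
        intro t ht t' ht'
        have h1 := (Subgroup.commutator_eq_bot_iff_le_centralizer.mp hTT) ht
        exact (Subgroup.mem_centralizer_iff.mp h1 t' ht').symm
      have hC : ∀ g : G, ∀ t ∈ T, ∀ t' ∈ T, t * (g * t' * g⁻¹) = (g * t' * g⁻¹) * t := by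
        intro g t ht t' ht'
        have hmem : g * t' * g⁻¹ ∈ T.map (MulAut.conj g).toMonoidHom := by
          rw [mem_conjmap]
          have e : g⁻¹ * (g * t' * g⁻¹) * g = t' := by group
          rw [e]; exact ht'
        rcases hdich g with h | hb'
        · rw [h] at hmem; exact hTab t ht _ hmem
        · exact hcomm g hb' t ht _ hmem
      have hMc : ∀ u ∈ Group.conjugatesOfSet (T : Set G), ∀ v ∈ Group.conjugatesOfSet (T : Set G),
          u * v = v * u := by
        intro u hu v hv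
        obtain ⟨t, ht, htu⟩ := Group.mem_conjugatesOfSet_iff.mp hu
        obtain ⟨t', ht', htv⟩ := Group.mem_conjugatesOfSet_iff.mp hv
        obtain ⟨g, rfl⟩ := isConj_iff.mp htu
        obtain ⟨k, rfl⟩ := isConj_iff.mp htv
        have h1 := hC (g⁻¹ * k) t ht t' ht'
        calc g * t * g⁻¹ * (k * t' * k⁻¹)
            = g * (t * (g⁻¹ * k * t' * (g⁻¹ * k)⁻¹)) * g⁻¹ := by group
          _ = g * ((g⁻¹ * k * t' * (g⁻¹ * k)⁻¹) * t) * g⁻¹ := by rw [h1]
          _ = k * t' * k⁻¹ * (g * t * g⁻¹) := by group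
      have hMsolv : Group.IsSolvable ↥(Subgroup.normalClosure (T : Set G)) := by
        haveI := Subgroup.isMulCommutative_closure hMc
        show Group.IsSolvable ↥(Subgroup.closure (Group.conjugatesOfSet (T : Set G)))
        exact Group.isSolvable_of_comm (fun a b => mul_comm' a b)
      have hM := hsol _ Subgroup.normalClosure_normal hMsolv
      apply hT1
      rw [eq_bot_iff, ← hM]; exact Subgroup.le_normalClosure
  have hTG : ∀ g : G, ∀ t ∈ T, g * t * g⁻¹ ∈ T ∧ g⁻¹ * t * g ∈ T := by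
    intro g
    have hg : g ∈ Subgroup.closure D := by rw [hD.2.2]; exact Subgroup.mem_top g
    induction hg using Subgroup.closure_induction with
    | mem p hp =>
      intro t ht
      have h1 : p * t * p⁻¹ ∈ T := by
        have h2 : p * t * p⁻¹ ∈ T.map (MulAut.conj p).toMonoidHom := by
          rw [mem_conjmap]
          have e : p⁻¹ * (p * t * p⁻¹) * p = t := by group
          rw [e]; exact ht
        rwa [hTp p hp] at h2
      refine ⟨h1, ?_⟩
      rw [tt_inv hs hp] at h1 ⊢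
      exact h1
    | one => intro t ht; simpa using ht
    | mul a b _ _ iha ihb =>
      intro t ht
      refine ⟨?_, ?_⟩
      · have h1 := (iha _ (ihb t ht).1).1
        have e : a * b * t * (a * b)⁻¹ = a * (b * t * b⁻¹) * a⁻¹ := by group
        rw [e]; exact h1
      · have h1 := (ihb _ (iha t ht).2).2
        have e : (a * b)⁻¹ * t * (a * b) = b⁻¹ * (a⁻¹ * t * a) * b := by group
        rw [e]; exact h1
    | inv a _ iha =>
      intro t ht
      refine ⟨?_, ?_⟩
      · have h1 := (iha t ht).2; simpa using h1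
      · have h1 := (iha t ht).1; simpa using h1
  have hTnormal : T.Normal := ⟨fun t ht g => (hTG g t ht).1⟩
  have hTeqN : T = N := by
    have h1 : Nat.card N ≤ Nat.card T := hNmin T ⟨hTnormal, hT1, hTN.trans hNK⟩
    exact Subgroup.eq_of_le_of_card_ge hTN h1
  refine ⟨N, hNn, hN1, hNK, ?_⟩
  intro T' hT'N hT'1 hT'n
  have h1 : Nat.card T ≤ Nat.card T' := hTmin T' ⟨hT'N, hT'1, hT'n⟩
  rw [hTeqN] at h1
  exact Subgroup.eq_of_le_of_card_ge hT'N h1

theorem fischer_no_commute_orbit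
    (hsol : ∀ N : Subgroup G, N.Normal → Group.IsSolvable ↥N → N = ⊥)
    (hD : Cfsg.IsThreeTranspositionClass D) (N : Subgroup G) (hNn : N.Normal) (hN1 : N ≠ ⊥)
    (hsimple : ∀ T : Subgroup G, T ≤ N → T ≠ ⊥ → (∀ n ∈ N, ∀ t ∈ T, n * t * n⁻¹ ∈ T) → T = N)
    {p d : G} (hp : p ∈ D) (hd : d ∈ D) : ∃ n ∈ N, ¬ Commute d (n * p * n⁻¹) := by
  have hs := hD.1
  have hnc : ∀ e ∈ D, ¬ (∀ n ∈ N, Commute e n) := by
    intro e he hall
    have hall' : ∀ e' ∈ D, ∀ n ∈ N, Commute e' n := by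
      intro e' he' n hn
      obtain ⟨g, rfl⟩ := tt_class_trans hD he he'
      have hn' : g⁻¹ * n * g ∈ N := by
        have h1 := hNn.conj_mem n hn g⁻¹
        rwa [inv_inv] at h1
      have h1 : e * (g⁻¹ * n * g) = (g⁻¹ * n * g) * e := (hall _ hn').eq
      show g * e * g⁻¹ * n = n * (g * e * g⁻¹)
      calc g * e * g⁻¹ * n = g * (e * (g⁻¹ * n * g)) * g⁻¹ := by group
        _ = g * ((g⁻¹ * n * g) * e) * g⁻¹ := by rw [h1]
        _ = n * (g * e * g⁻¹) := by group
    have hcen : ∀ n ∈ N, ∀ g : G, g * n = n * g := by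
      intro n hn g
      have hg : g ∈ Subgroup.closure D := by rw [hD.2.2]; exact Subgroup.mem_top g
      have hle : Subgroup.closure D ≤ Subgroup.centralizer {n} := by
        rw [Subgroup.closure_le]
        intro e' he'
        exact Subgroup.mem_centralizer_singleton_iff.mpr (hall' e' he' n hn).eq
      exact Subgroup.mem_centralizer_singleton_iff.mp (hle hg)
    have hNsolv : Group.IsSolvable ↥N :=
      Group.isSolvable_of_comm (fun a b => Subtype.ext (hcen b.1 b.2 a.1))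
    exact hN1 (hsol N hNn hNsolv)
  have hX : Subgroup.closure {x : G | ∃ n ∈ N, x = p * (n * p * n⁻¹)} = N := by
    apply hsimple
    · rw [Subgroup.closure_le]
      rintro x ⟨n, hn, rfl⟩
      have h1 : p * n * p⁻¹ ∈ N := hNn.conj_mem n hn p
      have e : p * (n * p * n⁻¹) = (p * n * p⁻¹) * n⁻¹ := by rw [tt_inv hs hp]; group
      rw [e]; exact N.mul_mem h1 (N.inv_mem hn)
    · intro hbot
      apply hnc p hp
      intro n hn
      have hmem : p * (n * p * n⁻¹) ∈ Subgroup.closure {x : G | ∃ n ∈ N, x = p * (n * p * n⁻¹)} :=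
        Subgroup.subset_closure ⟨n, hn, rfl⟩
      rw [hbot, Subgroup.mem_bot] at hmem
      have h1 : n * p * n⁻¹ = p := by
        have h2 := eq_inv_of_mul_eq_one_right hmem
        rw [h2, tt_inv hs hp]
      show p * n = n * p
      calc p * n = (n * p * n⁻¹) * n := by rw [h1]
        _ = n * p := by group
    · intro m hm x hx
      induction hx using Subgroup.closure_induction with
      | mem y hy =>
        obtain ⟨n, hn, rfl⟩ := hy
        have hpp := tt_sq hs hp
        have e0 : (p * (m * p * m⁻¹)) * (m * (p * (n * p * n⁻¹)) * m⁻¹)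
            = p * ((m * n) * p * (m * n)⁻¹) := by
          calc (p * (m * p * m⁻¹)) * (m * (p * (n * p * n⁻¹)) * m⁻¹)
              = p * m * (p * p) * n * p * n⁻¹ * m⁻¹ := by group
            _ = p * ((m * n) * p * (m * n)⁻¹) := by rw [hpp]; group
        have e : m * (p * (n * p * n⁻¹)) * m⁻¹
            = (p * (m * p * m⁻¹))⁻¹ * (p * ((m * n) * p * (m * n)⁻¹)) := eq_inv_mul_of_mul_eq e0
        rw [e]
        exact Subgroup.mul_mem _ (Subgroup.inv_mem _ (Subgroup.subset_closure ⟨m, hm, rfl⟩))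
          (Subgroup.subset_closure ⟨m * n, N.mul_mem hm hn, rfl⟩)
      | one => simp
      | mul a b _ _ iha ihb =>
        have e : m * (a * b) * m⁻¹ = (m * a * m⁻¹) * (m * b * m⁻¹) := by group
        rw [e]; exact Subgroup.mul_mem _ iha ihb
      | inv a _ iha =>
        have e : m * a⁻¹ * m⁻¹ = (m * a * m⁻¹)⁻¹ := by group
        rw [e]; exact Subgroup.inv_mem _ iha
  by_contra hall
  push_neg at hall
  apply hnc d hd
  intro n hn
  have hle : Subgroup.closure {x : G | ∃ n ∈ N, x = p * (n * p * n⁻¹)}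
      ≤ Subgroup.centralizer {d} := by
    rw [Subgroup.closure_le]
    rintro x ⟨n', hn', rfl⟩
    have h1 : Commute d p := by
      have h0 := hall 1 N.one_mem
      simpa using h0
    have h2 := hall n' hn'
    exact Subgroup.mem_centralizer_singleton_iff.mpr (h1.mul_right h2).symm.eq
  rw [hX] at hle
  have h3 := Subgroup.mem_centralizer_singleton_iff.mp (hle hn)
  show d * n = n * d
  exact h3.symm

theorem fischer_normal_transitive
    (hsol : ∀ N : Subgroup G, N.Normal → Group.IsSolvable ↥N → N = ⊥)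
    (hperf : ⁅commutator G, commutator G⁆ = commutator G)
    (hD : Cfsg.IsThreeTranspositionClass D) (K : Subgroup G) (hKn : K.Normal) (hK : K ≠ ⊥) :
    ∀ d ∈ D, ∀ e ∈ D, ∃ k ∈ K, k * d * k⁻¹ = e := by
  classical
  have hs := hD.1
  have hcl := tt_class_closed hD
  obtain ⟨N, hNn, hN1, hNK, hsimple⟩ := fischer_min_normal hsol hD K hKn hK
  obtain ⟨r, hrdef⟩ : ∃ r : G → G → Prop, r = fun p q => ∃ n ∈ N, n * p * n⁻¹ = q := ⟨_, rfl⟩
  have hr : Equivalence r := by
    subst hrdef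
    refine ⟨fun p => ⟨1, N.one_mem, by group⟩, ?_, ?_⟩
    · rintro p q ⟨n, hn, rfl⟩
      exact ⟨n⁻¹, N.inv_mem hn, by group⟩
    · rintro p q s ⟨n, hn, rfl⟩ ⟨m, hm, rfl⟩
      exact ⟨m * n, N.mul_mem hm hn, by group⟩
  have hri : ∀ g p q : G, r p q → r (g * p * g⁻¹) (g * q * g⁻¹) := by
    subst hrdef
    rintro g p q ⟨n, hn, rfl⟩
    exact ⟨g * n * g⁻¹, hNn.conj_mem n hn g, by group⟩
  suffices hall : ∀ d ∈ D, ∀ e ∈ D, r d e by
    intro d hd e he
    have h1 := hall d hd e he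
    rw [hrdef] at h1
    obtain ⟨n, hn, h⟩ := h1
    exact ⟨n, hNK hn, h⟩
  have hG : ∀ d ∈ D, ∀ e ∈ D, ¬ r d e → ¬ Commute d e := by
    intro d hd e he hnr hc
    obtain ⟨n, hn, hnc⟩ := fischer_no_commute_orbit hsol hD N hNn hN1 hsimple he hd
    have hq : n * e * n⁻¹ ∈ D := hcl n e he
    have hreq : r e (n * e * n⁻¹) := by rw [hrdef]; exact ⟨n, hn, rfl⟩
    exact hnr (tt_dich hs hr hri hq hd hreq hc hnc)
  have hstar : ∀ d ∈ D, ∀ e ∈ D, r (d * e * d⁻¹) e → r d e := by
    intro d hd e he h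
    by_contra hnr
    have hnc := hG d hd e he hnr
    have e1 : d * e * d⁻¹ = e * d * e⁻¹ := by
      rw [tt_inv hs hd, tt_inv hs he]; exact tt_braid hs hd he hnc
    rw [e1] at h
    have h2 := hri e⁻¹ _ _ h
    have e2 : e⁻¹ * (e * d * e⁻¹) * e⁻¹⁻¹ = d := by group
    have e3 : e⁻¹ * e * e⁻¹⁻¹ = e := by group
    rw [e2, e3] at h2
    exact hnr h2
  by_contra hnt
  obtain ⟨Kh, hKhn, hKhmem⟩ := tt_kernel hcl hr hri
  have hk1 : ∀ d ∈ D, ∀ e ∈ D, r d e → d * e ∈ Kh := by
    intro d hd e he hde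
    rw [hKhmem]
    intro c hc
    have h1 := tt_same_action hs hr hri hd he (hcl e c hc) hde
    have e1 : d * (e * c * e⁻¹) * d⁻¹ = d * e * c * (d * e)⁻¹ := by group
    have e2 : e * (e * c * e⁻¹) * e⁻¹ = c := by
      rw [tt_inv hs he]
      calc e * (e * c * e) * e = (e * e) * c * (e * e) := by group
        _ = c := by rw [tt_sq hs he, one_mul, mul_one]
    rw [e1, e2] at h1; exact h1
  have hk2 : ∀ d ∈ D, ∀ e ∈ D, d * e ∈ Kh → r d e := by
    intro d hd e he hmem
    apply hstar d hd e he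
    have h1 := (hKhmem _).mp hmem e he
    have e1 : d * e * e * (d * e)⁻¹ = d * e * d⁻¹ := by group
    rw [e1] at h1; exact h1
  have hk3 : ∀ d ∈ D, d ∉ Kh := by
    intro d hd hmem
    apply hnt
    have hdall : ∀ e ∈ D, r d e := fun e he => hstar d hd e he ((hKhmem _).mp hmem e he)
    intro a ha b hb
    exact hr.trans (hr.symm (hdall a ha)) (hdall b hb)
  haveI := hKhn
  have hsurj := QuotientGroup.mk'_surjective Kh
  have hinv' : ∀ x ∈ (QuotientGroup.mk' Kh) '' D, orderOf x = 2 := by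
    rintro _ ⟨d, hd, rfl⟩
    apply orderOf_eq_prime
    · rw [← map_pow, pow_two, tt_sq hs hd, map_one]
    · intro h1
      exact hk3 d hd ((QuotientGroup.eq_one_iff d).mp h1)
  have hconj' : ∃ x ∈ (QuotientGroup.mk' Kh) '' D,
      (QuotientGroup.mk' Kh) '' D = conjugatesOf x := by
    obtain ⟨d₀, hd₀, hDe⟩ := hD.2.1
    refine ⟨QuotientGroup.mk' Kh d₀, ⟨d₀, hd₀, rfl⟩, ?_⟩
    ext x
    constructor
    · rintro ⟨d, hd, rfl⟩
      obtain ⟨g, rfl⟩ := tt_class_trans hD hd₀ hd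
      show IsConj _ _
      exact isConj_iff.mpr ⟨QuotientGroup.mk' Kh g, by simp⟩
    · intro hx
      obtain ⟨c, rfl⟩ := isConj_iff.mp hx
      obtain ⟨g, rfl⟩ := hsurj c
      exact ⟨g * d₀ * g⁻¹, hcl g d₀ hd₀, by simp⟩
  have hgen' : Subgroup.closure ((QuotientGroup.mk' Kh) '' D) = ⊤ := by
    rw [← MonoidHom.map_closure, hD.2.2, ← MonoidHom.range_eq_map, MonoidHom.range_eq_top]
    exact hsurj
  have hprod' : ∀ x ∈ (QuotientGroup.mk' Kh) '' D, ∀ y ∈ (QuotientGroup.mk' Kh) '' D,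
      x ≠ y → ∃ k : ℕ, orderOf (x * y) = 3 ^ k := by
    rintro _ ⟨d, hd, rfl⟩ _ ⟨e, he, rfl⟩ hne
    have hnr : ¬ r d e := by
      intro hde
      apply hne
      have h1 : QuotientGroup.mk' Kh (d * e) = 1 :=
        (QuotientGroup.eq_one_iff _).mpr (hk1 d hd e he hde)
      rw [map_mul] at h1
      have h2 := eq_inv_of_mul_eq_one_left h1
      rw [h2, ← map_inv, tt_inv hs he]
    have hnc := hG d hd e he hnr
    have h3 : (QuotientGroup.mk' Kh d * QuotientGroup.mk' Kh e) ^ 3 = 1 := by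
      rw [← map_mul, ← map_pow, tt_cube hs hd he hnc, map_one]
    have hdvd := orderOf_dvd_of_pow_eq_one h3
    rcases (Nat.dvd_prime Nat.prime_three).mp hdvd with h | h
    · exact ⟨0, by rw [h, pow_zero]⟩
    · exact ⟨1, by rw [h, pow_one]⟩
  have hnil := Cfsg.Agent.S1618.result 3 Nat.prime_three (by norm_num) hinv' hconj' hgen' hprod'
  haveI : Group.IsNilpotent ↥(commutator (G ⧸ Kh)) := hnil
  have hsolvQ : Group.IsSolvable (G ⧸ Kh) :=
    Group.isSolvable_of_ker_le_range (commutator (G ⧸ Kh)).subtype Abelianization.of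
      (by rw [Abelianization.ker_of, Subgroup.range_subtype])
  obtain ⟨n, hn⟩ := hsolvQ.solvable
  have hge : ∀ k : ℕ, commutator G ≤ derivedSeries G k := by
    intro k
    induction k with
    | zero => exact le_top
    | succ k ih =>
      rw [derivedSeries_succ]
      calc commutator G = ⁅commutator G, commutator G⁆ := hperf.symm
        _ ≤ _ := Subgroup.commutator_mono ih ih
  have hcomK : commutator G ≤ Kh := by
    intro x hx
    have h1 : QuotientGroup.mk' Kh x ∈ (derivedSeries G n).map (QuotientGroup.mk' Kh) :=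
      Subgroup.mem_map_of_mem _ (hge n hx)
    rw [map_derivedSeries_eq hsurj, hn, Subgroup.mem_bot] at h1
    exact (QuotientGroup.eq_one_iff x).mp h1
  apply hnt
  intro d hd e he
  apply hk2 d hd e he
  apply hcomK
  obtain ⟨g, rfl⟩ := tt_class_trans hD hd he
  have e1 : d * (g * d * g⁻¹) = ⁅d, g⁆ := by
    rw [commutatorElement_def, tt_inv hs hd]
    group
  rw [e1]
  exact Subgroup.commutator_mem_commutator (Subgroup.mem_top d) (Subgroup.mem_top g)

theorem fischer_primitive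
    (hsol : ∀ N : Subgroup G, N.Normal → Group.IsSolvable ↥N → N = ⊥)
    (hperf : ⁅commutator G, commutator G⁆ = commutator G)
    (hD : Cfsg.IsThreeTranspositionClass D) {r : G → G → Prop} (hr : Equivalence r)
    (hri : ∀ g p q : G, r p q → r (g * p * g⁻¹) (g * q * g⁻¹))
    {p q : G} (hp : p ∈ D) (hq : q ∈ D) (hne : p ≠ q) (hpq : r p q) :
    ∀ d ∈ D, ∀ e ∈ D, r d e := by
  have hs := hD.1
  have hcl := tt_class_closed hD
  obtain ⟨K, hKn, hKmem⟩ := tt_kernel hcl hr hri
  have hmem : p * q ∈ K := by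
    rw [hKmem]
    intro c hc
    have h1 := tt_same_action hs hr hri hp hq (hcl q c hc) hpq
    have e1 : p * (q * c * q⁻¹) * p⁻¹ = p * q * c * (p * q)⁻¹ := by group
    have e2 : q * (q * c * q⁻¹) * q⁻¹ = c := by
      rw [tt_inv hs hq]
      calc q * (q * c * q) * q = (q * q) * c * (q * q) := by group
        _ = c := by rw [tt_sq hs hq, one_mul, mul_one]
    rw [e1, e2] at h1; exact h1
  have hK1 : K ≠ ⊥ := by
    intro hb
    rw [hb, Subgroup.mem_bot] at hmem
    apply hne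
    have h2 := eq_inv_of_mul_eq_one_left hmem
    rw [h2, tt_inv hs hq]
  intro d hd e he
  obtain ⟨k, hk, rfl⟩ := fischer_normal_transitive hsol hperf hD K hKn hK1 d hd e he
  exact hr.symm ((hKmem k).mp hk d hd)

end FischerNormal

section FischerOrbits
variable {G : Type*} [Group G] {D : Set G}

abbrev ttDc (D : Set G) (p : G) : Set G := {y : G | y ∈ D ∧ y ≠ p ∧ Commute p y}

abbrev ttOrb (D : Set G) (p y : G) : Set G :=
  {z : G | ∃ g ∈ Subgroup.closure (ttDc D p), g * y * g⁻¹ = z}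

abbrev ttF (D : Set G) (m : ℕ) (p : G) : Set G :=
  {y : G | y ∈ ttDc D p ∧ (ttOrb D p y).ncard = m}

theorem tt_commute_conj (d g c : G) : Commute d (g * c * g⁻¹) ↔ Commute (g⁻¹ * d * g) c := by
  constructor
  · intro h2
    show g⁻¹ * d * g * c = c * (g⁻¹ * d * g)
    have h3 : d * (g * c * g⁻¹) = g * c * g⁻¹ * d := h2.eq
    calc g⁻¹ * d * g * c = g⁻¹ * (d * (g * c * g⁻¹)) * g := by group
      _ = g⁻¹ * (g * c * g⁻¹ * d) * g := by rw [h3]
      _ = c * (g⁻¹ * d * g) := by group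
  · intro h2
    show d * (g * c * g⁻¹) = g * c * g⁻¹ * d
    have h3 : g⁻¹ * d * g * c = c * (g⁻¹ * d * g) := h2.eq
    calc d * (g * c * g⁻¹) = g * (g⁻¹ * d * g * c) * g⁻¹ := by group
      _ = g * (c * (g⁻¹ * d * g)) * g⁻¹ := by rw [h3]
      _ = g * c * g⁻¹ * d := by group

theorem ttDc_conj_mem (hcl : ∀ g d : G, d ∈ D → g * d * g⁻¹ ∈ D) {p y : G}
    (hy : y ∈ ttDc D p) {g : G} (hg : g ∈ Subgroup.closure (ttDc D p)) :
    g * y * g⁻¹ ∈ ttDc D p := by
  have hgp : g * p = p * g := by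
    have hle : Subgroup.closure (ttDc D p) ≤ Subgroup.centralizer {p} := by
      rw [Subgroup.closure_le]
      intro d hd
      exact Subgroup.mem_centralizer_singleton_iff.mpr hd.2.2.eq.symm
    exact Subgroup.mem_centralizer_singleton_iff.mp (hle hg)
  refine ⟨hcl g y hy.1, ?_, ?_⟩
  · intro h
    apply hy.2.1
    calc y = g⁻¹ * (g * y * g⁻¹) * g := by group
      _ = g⁻¹ * p * g := by rw [h]
      _ = g⁻¹ * (p * g) := by group
      _ = g⁻¹ * (g * p) := by rw [hgp]
      _ = p := by group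
  · have h1 : Commute (g⁻¹ * p * g) y := by
      have e : g⁻¹ * p * g = p := by
        calc g⁻¹ * p * g = g⁻¹ * (p * g) := by group
          _ = g⁻¹ * (g * p) := by rw [hgp]
          _ = p := by group
      rw [e]; exact hy.2.2
    exact (tt_commute_conj p g y).mpr h1

theorem ttOrb_refl (p y : G) : y ∈ ttOrb D p y := ⟨1, Subgroup.one_mem _, by group⟩

theorem ttOrb_symm {p y z : G} (h : z ∈ ttOrb D p y) : y ∈ ttOrb D p z := by
  obtain ⟨g, hg, rfl⟩ := h
  exact ⟨g⁻¹, Subgroup.inv_mem _ hg, by group⟩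

theorem ttOrb_trans {p y z w : G} (h1 : z ∈ ttOrb D p y) (h2 : w ∈ ttOrb D p z) :
    w ∈ ttOrb D p y := by
  obtain ⟨g, hg, rfl⟩ := h1
  obtain ⟨k, hk, rfl⟩ := h2
  exact ⟨k * g, Subgroup.mul_mem _ hk hg, by group⟩

theorem ttOrb_eq {p y z : G} (h : z ∈ ttOrb D p y) : ttOrb D p z = ttOrb D p y := by
  ext w
  exact ⟨fun hw => ttOrb_trans h hw, fun hw => ttOrb_trans (ttOrb_symm h) hw⟩

theorem ttOrb_sub (hcl : ∀ g d : G, d ∈ D → g * d * g⁻¹ ∈ D) {p y : G} (hy : y ∈ ttDc D p) :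
    ttOrb D p y ⊆ ttDc D p := by
  rintro z ⟨g, hg, rfl⟩
  exact ttDc_conj_mem hcl hy hg

theorem ttOrb_adj (hs : Cfsg.IsThreeTranspositionSet D) {p y z : G} (hy : y ∈ ttDc D p)
    (hz : z ∈ ttDc D p) (hnc : ¬ Commute y z) : z ∈ ttOrb D p y := by
  refine ⟨y * z, Subgroup.mul_mem _ (Subgroup.subset_closure hy) (Subgroup.subset_closure hz), ?_⟩
  have hb := tt_braid hs hz.1 hy.1 (fun h => hnc h.symm)
  rw [mul_inv_rev, tt_inv hs hy.1, tt_inv hs hz.1]
  calc y * z * y * (z * y) = y * (z * y * z) * y := by group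
    _ = y * (y * z * y) * y := by rw [hb]
    _ = (y * y) * z * (y * y) := by group
    _ = z := by rw [tt_sq hs hy.1, one_mul, mul_one]

theorem ttOrb_transfer (hs : Cfsg.IsThreeTranspositionSet D)
    (hcl : ∀ g d : G, d ∈ D → g * d * g⁻¹ ∈ D) {p q y : G} (hy : y ∈ ttDc D p)
    (hsub : ttOrb D p y ⊆ ttDc D q) : ttOrb D p y ⊆ ttOrb D q y := by
  have key : ∀ g ∈ Subgroup.closure (ttDc D p), ∀ z ∈ ttOrb D p y,
      ∃ g' ∈ Subgroup.closure (ttDc D q), g' * z * g'⁻¹ = g * z * g⁻¹ := by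
    intro g hg
    induction hg using Subgroup.closure_induction with
    | mem d hd =>
      intro z hz
      have hzS : z ∈ ttDc D p := ttOrb_sub hcl hy hz
      by_cases hc : Commute d z
      · refine ⟨1, Subgroup.one_mem _, ?_⟩
        rw [hc.eq]; group
      · have hdorb : d ∈ ttOrb D p y := ttOrb_trans hz (ttOrb_adj hs hzS hd (fun h => hc h.symm))
        exact ⟨d, Subgroup.subset_closure (hsub hdorb), rfl⟩
    | one => intro z hz; exact ⟨1, Subgroup.one_mem _, rfl⟩
    | mul a b ha hb iha ihb =>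
      intro z hz
      obtain ⟨b', hb', hbz⟩ := ihb z hz
      have hz1 : b * z * b⁻¹ ∈ ttOrb D p y := ttOrb_trans hz ⟨b, hb, rfl⟩
      obtain ⟨a', ha', haz⟩ := iha _ hz1
      refine ⟨a' * b', Subgroup.mul_mem _ ha' hb', ?_⟩
      calc a' * b' * z * (a' * b')⁻¹ = a' * (b' * z * b'⁻¹) * a'⁻¹ := by group
        _ = a' * (b * z * b⁻¹) * a'⁻¹ := by rw [hbz]
        _ = a * (b * z * b⁻¹) * a⁻¹ := haz
        _ = a * b * z * (a * b)⁻¹ := by group
    | inv a ha iha =>
      intro z hz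
      have hz0 : a⁻¹ * z * a⁻¹⁻¹ ∈ ttOrb D p y :=
        ttOrb_trans hz ⟨a⁻¹, Subgroup.inv_mem _ ha, rfl⟩
      obtain ⟨a', ha', haz⟩ := iha _ hz0
      refine ⟨a'⁻¹, Subgroup.inv_mem _ ha', ?_⟩
      have e : a * (a⁻¹ * z * a⁻¹⁻¹) * a⁻¹ = z := by group
      rw [e] at haz
      calc a'⁻¹ * z * a'⁻¹⁻¹ = a'⁻¹ * (a' * (a⁻¹ * z * a⁻¹⁻¹) * a'⁻¹) * a'⁻¹⁻¹ := by rw [haz]
        _ = a⁻¹ * z * a⁻¹⁻¹ := by group
  rintro z ⟨g, hg, rfl⟩
  obtain ⟨g', hg', h⟩ := key g hg y (ttOrb_refl p y)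
  exact ⟨g', hg', h⟩

theorem ttDc_conj (hcl : ∀ g d : G, d ∈ D → g * d * g⁻¹ ∈ D) (g p : G) :
    ttDc D (g * p * g⁻¹) = (MulAut.conj g).toMonoidHom '' ttDc D p := by
  ext y'
  constructor
  · rintro ⟨h1, h2, h3⟩
    refine ⟨g⁻¹ * y' * g, ⟨?_, ?_, ?_⟩, ?_⟩
    · have h4 := hcl g⁻¹ y' h1
      rwa [inv_inv] at h4
    · intro h
      apply h2
      rw [← h]; group
    · have h4 : Commute y' (g * p * g⁻¹) := h3.symm
      exact ((tt_commute_conj y' g p).mp h4).symm
    · show g * (g⁻¹ * y' * g) * g⁻¹ = y'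
      group
  · rintro ⟨y, ⟨h1, h2, h3⟩, rfl⟩
    show g * y * g⁻¹ ∈ ttDc D (g * p * g⁻¹)
    refine ⟨hcl g y h1, ?_, ?_⟩
    · intro h
      apply h2
      calc y = g⁻¹ * (g * y * g⁻¹) * g := by group
        _ = g⁻¹ * (g * p * g⁻¹) * g := by rw [h]
        _ = p := by group
    · have h4 : Commute (g⁻¹ * (g * p * g⁻¹) * g) y := by
        have e : g⁻¹ * (g * p * g⁻¹) * g = p := by group
        rw [e]; exact h3
      exact (tt_commute_conj (g * p * g⁻¹) g y).mpr h4

theorem ttDc_closure_conj (hcl : ∀ g d : G, d ∈ D → g * d * g⁻¹ ∈ D) (g p : G) :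
    Subgroup.closure (ttDc D (g * p * g⁻¹))
      = (Subgroup.closure (ttDc D p)).map (MulAut.conj g).toMonoidHom := by
  rw [MonoidHom.map_closure, ttDc_conj hcl g p]

theorem ttOrb_conj (hcl : ∀ g d : G, d ∈ D → g * d * g⁻¹ ∈ D) (g p y : G) :
    ttOrb D (g * p * g⁻¹) (g * y * g⁻¹) = (MulAut.conj g).toMonoidHom '' ttOrb D p y := by
  ext z
  constructor
  · rintro ⟨h, hh, rfl⟩
    rw [ttDc_closure_conj hcl g p] at hh
    obtain ⟨h₀, hh₀, rfl⟩ := hh
    refine ⟨h₀ * y * h₀⁻¹, ⟨h₀, hh₀, rfl⟩, ?_⟩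
    show g * (h₀ * y * h₀⁻¹) * g⁻¹ = (g * h₀ * g⁻¹) * (g * y * g⁻¹) * (g * h₀ * g⁻¹)⁻¹
    group
  · rintro ⟨z₀, ⟨h₀, hh₀, rfl⟩, rfl⟩
    refine ⟨g * h₀ * g⁻¹, ?_, ?_⟩
    · rw [ttDc_closure_conj hcl g p]
      exact ⟨h₀, hh₀, rfl⟩
    · show (g * h₀ * g⁻¹) * (g * y * g⁻¹) * (g * h₀ * g⁻¹)⁻¹ = g * (h₀ * y * h₀⁻¹) * g⁻¹
      group

theorem ttOrb_ncard_conj (hcl : ∀ g d : G, d ∈ D → g * d * g⁻¹ ∈ D) (g p y : G) :
    (ttOrb D (g * p * g⁻¹) (g * y * g⁻¹)).ncard = (ttOrb D p y).ncard := by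
  rw [ttOrb_conj hcl g p y]
  exact Set.ncard_image_of_injective _ (MulAut.conj g).injective

theorem ttF_conj (hcl : ∀ g d : G, d ∈ D → g * d * g⁻¹ ∈ D) (m : ℕ) (g p : G) :
    ttF D m (g * p * g⁻¹) = (MulAut.conj g).toMonoidHom '' ttF D m p := by
  ext y'
  constructor
  · rintro ⟨h1, h2⟩
    rw [ttDc_conj hcl g p] at h1
    obtain ⟨y, hy, rfl⟩ := h1
    refine ⟨y, ⟨hy, ?_⟩, rfl⟩
    rw [← h2]
    exact (ttOrb_ncard_conj hcl g p y).symm
  · rintro ⟨y, ⟨hy, h2⟩, rfl⟩
    refine ⟨?_, ?_⟩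
    · rw [ttDc_conj hcl g p]; exact ⟨y, hy, rfl⟩
    · rw [← h2]
      exact ttOrb_ncard_conj hcl g p y

theorem ttF_ncard_conj (hcl : ∀ g d : G, d ∈ D → g * d * g⁻¹ ∈ D) (m : ℕ) (g p : G) :
    (ttF D m (g * p * g⁻¹)).ncard = (ttF D m p).ncard := by
  rw [ttF_conj hcl m g p]
  exact Set.ncard_image_of_injective _ (MulAut.conj g).injective

theorem ttOrb_max_transfer [Finite G] (hs : Cfsg.IsThreeTranspositionSet D)
    (hcl : ∀ g d : G, d ∈ D → g * d * g⁻¹ ∈ D) {p q y : G} {m : ℕ}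
    (hy : y ∈ ttDc D p) (hm : (ttOrb D p y).ncard = m)
    (hmax : ∀ z ∈ ttDc D q, (ttOrb D q z).ncard ≤ m)
    (hcomm : ∀ z ∈ ttOrb D p y, Commute q z) (hnot : q ∉ ttOrb D p y) :
    ttOrb D q y = ttOrb D p y := by
  have hsub : ttOrb D p y ⊆ ttDc D q := by
    intro z hz
    refine ⟨(ttOrb_sub hcl hy hz).1, ?_, hcomm z hz⟩
    intro h
    apply hnot
    rw [← h]; exact hz
  have h1 := ttOrb_transfer hs hcl hy hsub
  have hyq : y ∈ ttDc D q := hsub (ttOrb_refl p y)
  have h2 : (ttOrb D q y).ncard ≤ (ttOrb D p y).ncard := by rw [hm]; exact hmax y hyq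
  exact (Set.eq_of_subset_of_ncard_le h1 h2 (Set.toFinite _)).symm

end FischerOrbits

section FischerTwins
variable {G : Type*} [Group G] [Finite G] {D : Set G}

theorem fischer_not_comm
    (hsol : ∀ N : Subgroup G, N.Normal → Group.IsSolvable ↥N → N = ⊥)
    (hD : Cfsg.IsThreeTranspositionClass D) : ¬ ∀ d ∈ D, ∀ e ∈ D, Commute d e := by
  intro hall
  obtain ⟨d₀, hd₀, -⟩ := hD.2.1
  have hcen : ∀ d ∈ D, ∀ g : G, g * d = d * g := by
    intro d hd g
    have hg : g ∈ Subgroup.closure D := by rw [hD.2.2]; exact Subgroup.mem_top g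
    have hle : Subgroup.closure D ≤ Subgroup.centralizer {d} := by
      rw [Subgroup.closure_le]
      intro e he
      exact Subgroup.mem_centralizer_singleton_iff.mpr (hall e he d hd).eq
    exact Subgroup.mem_centralizer_singleton_iff.mp (hle hg)
  have hcomm : ∀ a b : G, a * b = b * a := by
    intro a b
    have ha : a ∈ Subgroup.closure D := by rw [hD.2.2]; exact Subgroup.mem_top a
    have hle : Subgroup.closure D ≤ Subgroup.centralizer {b} := by
      rw [Subgroup.closure_le]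
      intro e he
      exact Subgroup.mem_centralizer_singleton_iff.mpr (hcen e he b).symm
    exact Subgroup.mem_centralizer_singleton_iff.mp (hle ha)
  have hsolv : Group.IsSolvable ↥(⊤ : Subgroup G) :=
    Group.isSolvable_of_comm (fun a b => Subtype.ext (hcomm a.1 b.1))
  have htop := hsol ⊤ inferInstance hsolv
  have h1 : d₀ ∈ (⊤ : Subgroup G) := Subgroup.mem_top d₀
  rw [htop, Subgroup.mem_bot] at h1
  exact tt_ne_one hD.1 hd₀ h1

theorem fischer_no_twins
    (hsol : ∀ N : Subgroup G, N.Normal → Group.IsSolvable ↥N → N = ⊥)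
    (hperf : ⁅commutator G, commutator G⁆ = commutator G)
    (hD : Cfsg.IsThreeTranspositionClass D) {p c : G} (hp : p ∈ D) (hc : c ∈ D)
    (hsub : ∀ d ∈ D, Commute d p → Commute d c) : p = c := by
  classical
  by_contra hne
  have hcl := tt_class_closed hD
  have hrTe : Equivalence (fun a b : G => ∀ d ∈ D, Commute d a ↔ Commute d b) :=
    ⟨fun a d hd => Iff.rfl, fun h d hd => (h d hd).symm,
      fun h1 h2 d hd => (h1 d hd).trans (h2 d hd)⟩
  have hrTi : ∀ g a b : G, (fun a b : G => ∀ d ∈ D, Commute d a ↔ Commute d b) a b →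
      (fun a b : G => ∀ d ∈ D, Commute d a ↔ Commute d b) (g * a * g⁻¹) (g * b * g⁻¹) := by
    intro g a b h d hd
    have hd' : g⁻¹ * d * g ∈ D := by
      have h4 := hcl g⁻¹ d hd
      rwa [inv_inv] at h4
    rw [tt_commute_conj d g a, tt_commute_conj d g b]
    exact h _ hd'
  have hpc : ∀ d ∈ D, Commute d p ↔ Commute d c := by
    have hsubset : {d | d ∈ D ∧ Commute d p} ⊆ {d | d ∈ D ∧ Commute d c} :=
      fun d hd => ⟨hd.1, hsub d hd.1 hd.2⟩
    obtain ⟨g, hg⟩ := tt_class_trans hD hp hc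
    have himg : {d | d ∈ D ∧ Commute d c}
        = (MulAut.conj g).toMonoidHom '' {d | d ∈ D ∧ Commute d p} := by
      ext d
      constructor
      · rintro ⟨h1, h2⟩
        have hd' : g⁻¹ * d * g ∈ D := by
          have h4 := hcl g⁻¹ d h1
          rwa [inv_inv] at h4
        refine ⟨g⁻¹ * d * g, ⟨hd', ?_⟩, ?_⟩
        · rw [← hg] at h2
          exact (tt_commute_conj d g p).mp h2
        · show g * (g⁻¹ * d * g) * g⁻¹ = d
          group
      · rintro ⟨d₁, ⟨h1, h2⟩, rfl⟩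
        show g * d₁ * g⁻¹ ∈ D ∧ Commute (g * d₁ * g⁻¹) c
        refine ⟨hcl g d₁ h1, ?_⟩
        rw [← hg]
        apply (tt_commute_conj (g * d₁ * g⁻¹) g p).mpr
        have e : g⁻¹ * (g * d₁ * g⁻¹) * g = d₁ := by group
        rw [e]; exact h2
    have hcard : ({d | d ∈ D ∧ Commute d c} : Set G).ncard
        = ({d | d ∈ D ∧ Commute d p} : Set G).ncard := by
      rw [himg]
      exact Set.ncard_image_of_injective _ (MulAut.conj g).injective
    have heq := Set.eq_of_subset_of_ncard_le hsubset (le_of_eq hcard) (Set.toFinite _)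
    intro d hd
    constructor
    · exact hsub d hd
    · intro h
      have h5 : d ∈ {d | d ∈ D ∧ Commute d c} := ⟨hd, h⟩
      rw [← heq] at h5
      exact h5.2
  have huniv := fischer_primitive hsol hperf hD hrTe hrTi hp hc hne hpc
  apply fischer_not_comm hsol hD
  intro d hd e he
  exact (huniv d hd e he d hd).mp (Commute.refl d)

end FischerTwins

end Cfsg.Agent.Lib.helper8
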