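import Mathlib
import Cfsg.Prelude.Def_SporadicB
import Cfsg.Agent.Lib.helper8.Fischer

set_option autoImplicit false

namespace Cfsg.Agent.Lib.helper8

theorem h8f_s3_noncomm : ∀ σ τ : Equiv.Perm (Fin 3), σ * σ = 1 → τ * τ = 1 → σ ≠ 1 → τ ≠ 1 →
    σ ≠ τ → σ * τ ≠ τ * σ := by decide

theorem h8f_s3_third : ∀ σ τ : Equiv.Perm (Fin 3), σ * σ = 1 → τ * τ = 1 → σ ≠ 1 →
    τ ≠ 1 → σ ≠ τ → ∀ υ : Equiv.Perm (Fin 3), υ * υ = 1 → υ ≠ 1 →
    υ = σ ∨ υ = τ ∨ υ = σ * τ * σ := by decide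

theorem h8f_s3_center : ∀ σ : Equiv.Perm (Fin 3), (∀ τ : Equiv.Perm (Fin 3), σ * τ = τ * σ) →
    σ = 1 := by decide

theorem h8f_s3_nc : ∃ σ τ : Equiv.Perm (Fin 3), σ * τ ≠ τ * σ := by decide

section F5365a
variable {G : Type*} [Group G] {D : Set G}

theorem h8f_symm {d y : G} (hd : d ∈ D) (hy : y ∈ ttDc D d) : d ∈ ttDc D y :=
  ⟨hd, fun h => hy.2.1 h.symm, hy.2.2.symm⟩

theorem h8f_inv (hs : Cfsg.IsThreeTranspositionSet D) {d : G}
    (ψ : ↥(Subgroup.closure (ttDc D d)) ≃* Equiv.Perm (Fin 3))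
    {y : G} (hy : y ∈ ttDc D d) :
    ψ ⟨y, Subgroup.subset_closure hy⟩ * ψ ⟨y, Subgroup.subset_closure hy⟩ = 1 ∧
    ψ ⟨y, Subgroup.subset_closure hy⟩ ≠ 1 := by
  constructor
  · rw [← map_mul, ← map_one ψ]
    congr 1
    exact Subtype.ext (tt_sq hs hy.1)
  · intro h
    rw [← map_one ψ] at h
    exact tt_ne_one hs hy.1 (congrArg Subtype.val (ψ.injective h))

theorem h8f_L1 (hs : Cfsg.IsThreeTranspositionSet D) {d : G}
    (ψ : ↥(Subgroup.closure (ttDc D d)) ≃* Equiv.Perm (Fin 3))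
    {y y' : G} (hy : y ∈ ttDc D d) (hy' : y' ∈ ttDc D d) (hne : y ≠ y') : ¬ Commute y y' := by
  intro hc
  have h1 := h8f_s3_noncomm _ _ (h8f_inv hs ψ hy).1 (h8f_inv hs ψ hy').1 (h8f_inv hs ψ hy).2
    (h8f_inv hs ψ hy').2 (fun h => hne (congrArg Subtype.val (ψ.injective h)))
  apply h1
  rw [← map_mul, ← map_mul]
  congr 1
  exact Subtype.ext hc.eq

theorem h8f_L2 (hs : Cfsg.IsThreeTranspositionSet D) {d : G}
    (ψ : ↥(Subgroup.closure (ttDc D d)) ≃* Equiv.Perm (Fin 3))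
    {y y' w : G} (hy : y ∈ ttDc D d) (hy' : y' ∈ ttDc D d) (hw : w ∈ ttDc D d) (hne : y ≠ y') :
    w = y ∨ w = y' ∨ w = y * y' * y := by
  have h1 := h8f_s3_third _ _ (h8f_inv hs ψ hy).1 (h8f_inv hs ψ hy').1 (h8f_inv hs ψ hy).2
    (h8f_inv hs ψ hy').2 (fun h => hne (congrArg Subtype.val (ψ.injective h)))
    _ (h8f_inv hs ψ hw).1 (h8f_inv hs ψ hw).2
  rcases h1 with h | h | h
  · left; exact congrArg Subtype.val (ψ.injective h)
  · right; left; exact congrArg Subtype.val (ψ.injective h)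
  · right; right
    rw [← map_mul, ← map_mul] at h
    exact congrArg Subtype.val (ψ.injective h)

theorem h8f_L3 {d : G}
    (ψ : ↥(Subgroup.closure (ttDc D d)) ≃* Equiv.Perm (Fin 3)) :
    ∃ y ∈ ttDc D d, ∃ y' ∈ ttDc D d, y ≠ y' := by
  by_contra h
  push Not at h
  have h1 : Subgroup.closure (ttDc D d) ≤ Subgroup.centralizer (ttDc D d) := by
    rw [Subgroup.closure_le]
    intro u hu
    exact Subgroup.mem_centralizer_iff.mpr (fun v hv => by rw [h u hu v hv])
  have h2 : Subgroup.closure (ttDc D d)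
      ≤ Subgroup.centralizer (Subgroup.closure (ttDc D d) : Set G) := by
    rw [Subgroup.closure_le]
    intro u hu
    exact Subgroup.mem_centralizer_iff.mpr
      (fun v hv => ((Subgroup.mem_centralizer_iff.mp (h1 hv)) u hu).symm)
  obtain ⟨σ, τ, hστ⟩ := h8f_s3_nc
  apply hστ
  have h3 := Subgroup.mem_centralizer_iff.mp (h2 (ψ.symm σ).2) (ψ.symm τ).1 (ψ.symm τ).2
  calc σ * τ = ψ (ψ.symm σ * ψ.symm τ) := by
        rw [map_mul, ψ.apply_symm_apply, ψ.apply_symm_apply]
    _ = ψ (ψ.symm τ * ψ.symm σ) := by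
        congr 1; exact Subtype.ext h3.symm
    _ = τ * σ := by rw [map_mul, ψ.apply_symm_apply, ψ.apply_symm_apply]

theorem h8f_L4 (hs : Cfsg.IsThreeTranspositionSet D)
    (hcl : ∀ g d : G, d ∈ D → g * d * g⁻¹ ∈ D) {d y y' : G}
    (hy : y ∈ ttDc D d) (hy' : y' ∈ ttDc D d) (hnc : ¬ Commute y y') :
    y * y' * y ∈ ttDc D d ∧ y * y' * y ≠ y ∧ y * y' * y ≠ y' := by
  have yy := tt_sq hs hy.1
  have hne : y ≠ y' := fun h => hnc (h ▸ Commute.refl y)
  refine ⟨⟨?_, ?_, ?_⟩, ?_, ?_⟩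
  · have h := hcl y y' hy'.1
    rwa [tt_inv hs hy.1] at h
  · intro h
    apply hy'.2.1
    have hc : d * y = y * d := hy.2.2.eq
    calc y' = (y * y) * y' * (y * y) := by rw [yy, one_mul, mul_one]
      _ = y * (y * y' * y) * y := by group
      _ = y * d * y := by rw [h]
      _ = d * y * y := by rw [hc]
      _ = d * (y * y) := by group
      _ = d := by rw [yy, mul_one]
  · exact (hy.2.2.mul_right hy'.2.2).mul_right hy.2.2
  · intro h
    apply hne
    have h2 : y * y' = 1 := by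
      calc y * y' = y * y' * (y * y) := by rw [yy, mul_one]
        _ = (y * y' * y) * y := by group
        _ = y * y := by rw [h]
        _ = 1 := yy
    calc y = y * (y' * y') := by rw [tt_sq hs hy'.1, mul_one]
      _ = (y * y') * y' := by group
      _ = y' := by rw [h2, one_mul]
  · intro h
    apply hnc
    show y * y' = y' * y
    calc y * y' = y * y' * (y * y) := by rw [yy, mul_one]
      _ = (y * y' * y) * y := by group
      _ = y' * y := by rw [h]

theorem h8f_triv (hs : Cfsg.IsThreeTranspositionSet D) {u a b : G} (hu : u ∈ D) (ha : a ∈ D)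
    (hb : b ∈ D) (nua : ¬ Commute u a) (nub : ¬ Commute u b) (hc : Commute u (a * b)) :
    a = b := by
  have uu := tt_sq hs hu
  have aa := tt_sq hs ha
  have bb := tt_sq hs hb
  have b1 : u * a * u = a * u * a := tt_braid hs hu ha nua
  have b2 : u * b * u = b * u * b := tt_braid hs hu hb nub
  have h1 : u * (a * b) = a * b * u := hc.eq
  have e1 : a * b = (u * a * u) * (u * b * u) := by
    calc a * b = a * b * (u * u) := by rw [uu, mul_one]
      _ = (a * b * u) * u := by group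
      _ = (u * (a * b)) * u := by rw [h1]
      _ = u * a * 1 * b * u := by group
      _ = u * a * (u * u) * b * u := by rw [uu]
      _ = (u * a * u) * (u * b * u) := by group
  have e2 : a * (a * b) * b = 1 := by
    calc a * (a * b) * b = (a * a) * (b * b) := by group
      _ = 1 := by rw [aa, bb, mul_one]
  have e3 : a * ((u * a * u) * (u * b * u)) * b = u * (a * b) * u := by
    rw [b1, b2]
    calc a * (a * u * a * (b * u * b)) * b = (a * a) * u * a * b * u * (b * b) := by group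
      _ = u * (a * b) * u := by rw [aa, bb]; group
  rw [← e1, e2] at e3
  have h2 : a * b = 1 := by
    calc a * b = (u * u) * (a * b) * (u * u) := by rw [uu, one_mul, mul_one]
      _ = u * (u * (a * b) * u) * u := by group
      _ = u * 1 * u := by rw [← e3]
      _ = 1 := by rw [mul_one, uu]
  calc a = a * (b * b) := by rw [bb, mul_one]
    _ = (a * b) * b := by group
    _ = b := by rw [h2, one_mul]

theorem h8f_J (hs : Cfsg.IsThreeTranspositionSet D)
    (hcl : ∀ g d : G, d ∈ D → g * d * g⁻¹ ∈ D) {e f x : G} (he : e ∈ D) (hf : f ∈ D)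
    (hx : x ∈ D) (hef : Commute e f) (hne : e ≠ f) (nxe : ¬ Commute x e)
    (nxf : ¬ Commute x f) : (e * f) * x * (e * f)⁻¹ ∈ ttDc D x := by
  refine ⟨hcl (e * f) x hx, ?_, ?_⟩
  · intro h
    apply hne
    apply h8f_triv hs hx he hf nxe nxf
    show x * (e * f) = e * f * x
    calc x * (e * f) = ((e * f) * x * (e * f)⁻¹) * (e * f) := by rw [h]
      _ = e * f * x := by group
  · have b1 : x * e * x = e * x * e := tt_braid hs hx he nxe
    have b2 : x * f * x = f * x * f := tt_braid hs hx hf nxf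
    have c : e * f = f * e := hef.eq
    have hw : (e * f) * x * (e * f)⁻¹ = e * f * x * f * e := by
      rw [mul_inv_rev, tt_inv hs he, tt_inv hs hf]; group
    rw [hw]
    show x * (e * f * x * f * e) = (e * f * x * f * e) * x
    calc x * (e * f * x * f * e) = x * e * (f * x * f) * e := by group
      _ = x * e * (x * f * x) * e := by rw [b2]
      _ = (x * e * x) * f * x * e := by group
      _ = (e * x * e) * f * x * e := by rw [b1]
      _ = e * x * (e * f) * x * e := by group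
      _ = e * x * (f * e) * x * e := by rw [c]
      _ = e * x * f * (e * x * e) := by group
      _ = e * x * f * (x * e * x) := by rw [b1]
      _ = e * (x * f * x) * e * x := by group
      _ = e * (f * x * f) * e * x := by rw [b2]
      _ = (e * f * x * f * e) * x := by group

def h8f_A (D : Set G) (d : G) : Prop :=
  ∀ y ∈ ttDc D d, ∀ y' ∈ ttDc D d, ∀ m ∈ ttDc D y, Commute y' m

def h8f_B (D : Set G) (d : G) : Prop :=
  ∀ y ∈ ttDc D d, ∀ y' ∈ ttDc D d, y ≠ y' → ∀ m ∈ ttDc D y, Commute y' m → m = d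

theorem h8f_dich
    (hL1 : ∀ d ∈ D, ∀ y ∈ ttDc D d, ∀ y' ∈ ttDc D d, y ≠ y' → ¬ Commute y y')
    (hL2 : ∀ d ∈ D, ∀ y ∈ ttDc D d, ∀ y' ∈ ttDc D d, ∀ w ∈ ttDc D d, y ≠ y' →
      w = y ∨ w = y' ∨ w = y * y' * y)
    {d : G} (hd : d ∈ D) : h8f_A D d ∨ h8f_B D d := by
  by_cases hB : h8f_B D d
  · right; exact hB
  left
  unfold h8f_B at hB
  push Not at hB
  obtain ⟨y, hy, y', hy', hne, m, hm, hcm, hmd⟩ := hB
  have hm_all : ∀ u ∈ ttDc D d, Commute u m := by
    intro u hu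
    rcases hL2 d hd y hy y' hy' u hu hne with h | h | h
    · rw [h]; exact hm.2.2
    · rw [h]; exact hcm
    · rw [h]; exact (hm.2.2.mul_left hcm).mul_left hm.2.2
  have hm_notin : m ∉ ttDc D d := by
    intro hmd'
    exact hL1 d hd y hy m hmd' (fun h => hm.2.1 h.symm) hm.2.2
  intro u hu u' hu' m' hm'
  have hmu : m ∈ ttDc D u := ⟨hm.1, fun h => hm_notin (h ▸ hu), hm_all u hu⟩
  have hdu : d ∈ ttDc D u := h8f_symm hd hu
  rcases hL2 u hu.1 d hdu m hmu m' hm' (fun h => hmd h.symm) with h | h | h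
  · rw [h]; exact hu'.2.2.symm
  · rw [h]; exact hm_all u' hu'
  · rw [h]; exact (hu'.2.2.symm.mul_right (hm_all u' hu')).mul_right hu'.2.2.symm

theorem h8f_TW
    (hL1 : ∀ d ∈ D, ∀ y ∈ ttDc D d, ∀ y' ∈ ttDc D d, y ≠ y' → ¬ Commute y y')
    {d : G} (hd : d ∈ D) (hA : h8f_A D d) {y y' : G} (hy : y ∈ ttDc D d)
    (hy' : y' ∈ ttDc D d) : ttDc D y = ttDc D y' := by
  have key : ∀ y ∈ ttDc D d, ∀ y' ∈ ttDc D d, ttDc D y ⊆ ttDc D y' := by
    intro y hy y' hy' m hm
    by_cases h : y = y'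
    · rw [← h]; exact hm
    · exact ⟨hm.1, fun h2 => hL1 d hd y hy y' hy' h (h2 ▸ hm.2.2), hA y hy y' hy' m hm⟩
  exact Set.Subset.antisymm (key y hy y' hy') (key y' hy' y hy)

theorem h8f_lineprod (hs : Cfsg.IsThreeTranspositionSet D)
    (hL1 : ∀ d ∈ D, ∀ y ∈ ttDc D d, ∀ y' ∈ ttDc D d, y ≠ y' → ¬ Commute y y')
    (hL2 : ∀ d ∈ D, ∀ y ∈ ttDc D d, ∀ y' ∈ ttDc D d, ∀ w ∈ ttDc D d, y ≠ y' →
      w = y ∨ w = y' ∨ w = y * y' * y)
    {g : G} (hg : g ∈ D) {u v u' v' : G} (hu : u ∈ ttDc D g) (hv : v ∈ ttDc D g)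
    (hu' : u' ∈ ttDc D g) (hv' : v' ∈ ttDc D g) (huv : u ≠ v) (huv' : u' ≠ v') :
    u' * v' = u * v ∨ u' * v' = v * u := by
  have br : u * v * u = v * u * v := tt_braid hs hu.1 hv.1 (hL1 g hg u hu v hv huv)
  have uu := tt_sq hs hu.1
  have vv := tt_sq hs hv.1
  rcases hL2 g hg u hu v hv u' hu' huv with h1 | h1 | h1 <;>
    rcases hL2 g hg u hu v hv v' hv' huv with h2 | h2 | h2
  · exact absurd (h1.trans h2.symm) huv'
  · left; rw [h1, h2]
  · right; rw [h1, h2]
    calc u * (u * v * u) = (u * u) * v * u := by group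
      _ = v * u := by rw [uu, one_mul]
  · right; rw [h1, h2]
  · exact absurd (h1.trans h2.symm) huv'
  · left; rw [h1, h2, br]
    calc v * (v * u * v) = (v * v) * u * v := by group
      _ = u * v := by rw [vv, one_mul]
  · left; rw [h1, h2]
    calc u * v * u * u = u * v * (u * u) := by group
      _ = u * v := by rw [uu, mul_one]
  · right; rw [h1, h2, br]
    calc v * u * v * v = v * u * (v * v) := by group
      _ = v * u := by rw [vv, mul_one]
  · exact absurd (h1.trans h2.symm) huv'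

end F5365a

end Cfsg.Agent.Lib.helper8
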