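import Mathlib
import Cfsg.Prelude.Def_SporadicB
import Cfsg.Agent.Lib.helper8.Fischer
import Cfsg.Agent.S1613

set_option autoImplicit false

namespace Cfsg.Agent.Lib.helper8

section FischerK
variable {G : Type*} [Group G] {D : Set G}

structure FKHyp (D : Set G) (K : G → Subgroup G) : Prop where
  conj : ∀ g p k, k ∈ K p → g * k * g⁻¹ ∈ K (g * p * g⁻¹)
  cent : ∀ p ∈ D, ∀ k ∈ K p, Commute k p
  odd : ∀ p ∈ D, ∀ k ∈ K p, k * k = 1 → k = 1
  move : ∀ p ∈ D, ∀ d ∈ ttDc D p, ∃ k ∈ K p, ¬ Commute k d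

theorem fk_norm {K : G → Subgroup G} (hK : FKHyp D K) {p c k : G} (hc : Commute p c)
    (hk : k ∈ K p) : c * k * c⁻¹ ∈ K p := by
  have h1 := hK.conj c p k hk
  have e : c * p * c⁻¹ = p := by rw [← hc.eq, mul_inv_cancel_right]
  rwa [e] at h1

theorem fk_exists (hs : Cfsg.IsThreeTranspositionSet D)
    (hcl : ∀ g d : G, d ∈ D → g * d * g⁻¹ ∈ D) {K : G → Subgroup G}
    (hK : FKHyp D K) {p d : G} (hp : p ∈ D) (hd : d ∈ ttDc D p) :
    ∃ d' ∈ ttDc D p, d' ≠ d ∧ d * d' ∈ K p := by
  obtain ⟨k, hk, hkd⟩ := hK.move p hp d hd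
  have hkp : Commute k p := hK.cent p hp k hk
  refine ⟨k * d * k⁻¹, ⟨hcl k d hd.1, ?_, ?_⟩, ?_, ?_⟩
  · intro h
    apply hd.2.1
    calc d = k⁻¹ * (k * d * k⁻¹) * k := by group
      _ = k⁻¹ * p * k := by rw [h]
      _ = k⁻¹ * (p * k) := by group
      _ = k⁻¹ * (k * p) := by rw [hkp.eq]
      _ = p := by group
  · have h1 : Commute p k := hkp.symm
    exact (h1.mul_right hd.2.2).mul_right h1.inv_right
  · intro h
    apply hkd
    show k * d = d * k
    calc k * d = k * d * k⁻¹ * k := by group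
      _ = d * k := by rw [h]
  · have h1 : d * k * d⁻¹ ∈ K p := fk_norm hK hd.2.2 hk
    have h2 : d * k * d⁻¹ * k⁻¹ ∈ K p := (K p).mul_mem h1 ((K p).inv_mem hk)
    have e : d * (k * d * k⁻¹) = d * k * d⁻¹ * k⁻¹ := by
      rw [tt_inv hs hd.1]; group
    rw [e]; exact h2

theorem fk_ncomm (hs : Cfsg.IsThreeTranspositionSet D) {K : G → Subgroup G}
    (hK : FKHyp D K) {p c d : G} (hp : p ∈ D) (hc : c ∈ D) (hd : d ∈ D) (hne : c ≠ d)
    (hcd : c * d ∈ K p) : ¬ Commute c d := by
  intro h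
  have h1 : c * d * (c * d) = 1 := by
    calc c * d * (c * d) = c * (d * c) * d := by group
      _ = c * (c * d) * d := by rw [h.eq]
      _ = (c * c) * (d * d) := by group
      _ = 1 := by rw [tt_sq hs hc, tt_sq hs hd, one_mul]
  have h2 := hK.odd p hp _ hcd h1
  apply hne
  have h3 : c = d⁻¹ := eq_inv_of_mul_eq_one_left h2
  rw [h3, tt_inv hs hd]

theorem fk_p1 (hs : Cfsg.IsThreeTranspositionSet D) {K : G → Subgroup G}
    (hK : FKHyp D K) {p c d d' : G} (hp : p ∈ D) (hc : c ∈ ttDc D p) (hd : d ∈ ttDc D p)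
    (hd' : d' ∈ ttDc D p) (hne : d ≠ d') (hdd' : d * d' ∈ K p) (hcne : c ≠ d)
    (hcd : Commute c d) : Commute c d' := by
  by_contra hn
  have b1 : c * d' * c = d' * c * d' := tt_braid hs hc.1 hd'.1 hn
  have hnc : ¬ Commute d d' := fk_ncomm hs hK hp hd.1 hd'.1 hne hdd'
  have b2 : d * d' * d = d' * d * d' := tt_braid hs hd.1 hd'.1 hnc
  have h1 : c * (d * d') * c⁻¹ ∈ K p := fk_norm hK hc.2.2 hdd'
  have h2 : d * d' * (c * (d * d') * c⁻¹) ∈ K p := (K p).mul_mem hdd' h1
  have e : d * d' * (c * (d * d') * c⁻¹) = d' * (d * c) * d' := by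
    rw [tt_inv hs hc.1]
    calc d * d' * (c * (d * d') * c) = d * d' * ((c * d) * d' * c) := by group
      _ = d * d' * ((d * c) * d' * c) := by rw [hcd.eq]
      _ = d * d' * d * (c * d' * c) := by group
      _ = d' * d * d' * (d' * c * d') := by rw [b1, b2]
      _ = d' * d * (d' * d') * c * d' := by group
      _ = d' * (d * c) * d' := by rw [tt_sq hs hd'.1]; group
  rw [e] at h2
  have h3 : d' * (d * c) * d' * (d' * (d * c) * d') = 1 := by
    calc d' * (d * c) * d' * (d' * (d * c) * d') = d' * (d * c) * (d' * d') * (d * c) * d' := by group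
      _ = d' * (d * (c * d) * c) * d' := by rw [tt_sq hs hd'.1]; group
      _ = d' * (d * (d * c) * c) * d' := by rw [hcd.eq]
      _ = d' * ((d * d) * (c * c)) * d' := by group
      _ = 1 := by rw [tt_sq hs hd.1, tt_sq hs hc.1, one_mul, mul_one, tt_sq hs hd'.1]
  have h4 := hK.odd p hp _ h2 h3
  apply hcne
  have h5 : d * c = 1 := by
    calc d * c = d' * (d' * (d * c) * d') * d' := by
          rw [show d' * (d' * (d * c) * d') * d' = (d' * d') * (d * c) * (d' * d') by group,
            tt_sq hs hd'.1, one_mul, mul_one]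
      _ = 1 := by rw [h4, mul_one, tt_sq hs hd'.1]
  have h6 : d = c⁻¹ := eq_inv_of_mul_eq_one_left h5
  rw [h6, tt_inv hs hc.1]

theorem fk_tf [Finite G]
    (hsol : ∀ N : Subgroup G, N.Normal → Group.IsSolvable ↥N → N = ⊥)
    (hperf : ⁅commutator G, commutator G⁆ = commutator G)
    (hD : Cfsg.IsThreeTranspositionClass D) {p q a c : G} (hp : p ∈ D) (hq : q ∈ D)
    (hpq : ¬ Commute p q) (hsub : ∀ e ∈ D, Commute p e → e ≠ p → Commute q e)
    (ha : a ∈ D) (hc : c ∈ ttDc D a) : False := by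
  have hs := hD.1
  have hcl := tt_class_closed hD
  have hpp := tt_sq hs hp
  have hqq := tt_sq hs hq
  have br : p * q * p = q * p * q := tt_braid hs hp hq hpq
  obtain ⟨t, ht⟩ : ∃ t, t = p * q * p := ⟨_, rfl⟩
  have htD : t ∈ D := by
    have := hcl p q hq
    rw [tt_inv hs hp] at this
    rw [ht]; exact this
  have hti : t⁻¹ = t := tt_inv hs htD
  have e1 : t * p * t⁻¹ = q := by
    rw [hti, ht]
    calc p * q * p * p * (p * q * p) = p * q * (p * p) * (p * q * p) := by group
      _ = p * q * p * q * p := by rw [hpp]; group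
      _ = q * p * q * q * p := by rw [br]
      _ = q * p * (q * q) * p := by group
      _ = q := by rw [hqq, mul_one, mul_assoc, hpp, mul_one]
  have e2 : t * q * t⁻¹ = p := by
    have : t * q * t⁻¹ = t * (t * p * t⁻¹) * t⁻¹ := by rw [e1]
    rw [this, hti]
    calc t * (t * p * t) * t = (t * t) * p * (t * t) := by group
      _ = p := by rw [tt_sq hs htD, one_mul, mul_one]
  have hsub' : ∀ e ∈ D, Commute q e → e ≠ q → Commute p e := by
    intro e he hqe hne
    have he' : t * e * t⁻¹ ∈ D := hcl t e he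
    have h1 : Commute p (t * e * t⁻¹) := by
      rw [← e2]
      show t * q * t⁻¹ * (t * e * t⁻¹) = t * e * t⁻¹ * (t * q * t⁻¹)
      calc t * q * t⁻¹ * (t * e * t⁻¹) = t * (q * e) * t⁻¹ := by group
        _ = t * (e * q) * t⁻¹ := by rw [hqe.eq]
        _ = t * e * t⁻¹ * (t * q * t⁻¹) := by group
    have h2 : t * e * t⁻¹ ≠ p := by
      intro h
      apply hne
      calc e = t⁻¹ * (t * e * t⁻¹) * t := by group
        _ = t⁻¹ * p * t := by rw [h]
        _ = t * p * t⁻¹ := by rw [hti]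
        _ = q := e1
    have h3 := hsub _ he' h1 h2
    show p * e = e * p
    have h4 : q * (t * e * t⁻¹) = t * e * t⁻¹ * q := h3.eq
    calc p * e = t⁻¹ * (t * p * t⁻¹ * (t * e * t⁻¹)) * t := by group
      _ = t⁻¹ * (q * (t * e * t⁻¹)) * t := by rw [e1]
      _ = t⁻¹ * (t * e * t⁻¹ * q) * t := by rw [h4]
      _ = t⁻¹ * (t * e * t⁻¹ * (t * p * t⁻¹)) * t := by rw [e1]
      _ = e * p := by group
  have hr : Equivalence (fun a b : G => ∀ e ∈ D, (Commute a e ∧ e ≠ a) ↔ (Commute b e ∧ e ≠ b)) :=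
    ⟨fun a e he => Iff.rfl, fun h e he => (h e he).symm,
      fun h1 h2 e he => (h1 e he).trans (h2 e he)⟩
  have hconjiff : ∀ g a e : G, (Commute (g * a * g⁻¹) e ∧ e ≠ g * a * g⁻¹) ↔
      (Commute a (g⁻¹ * e * g) ∧ g⁻¹ * e * g ≠ a) := by
    intro g a e
    constructor
    · rintro ⟨h1, h2⟩
      refine ⟨?_, ?_⟩
      · have h3 : g * a * g⁻¹ * e = e * (g * a * g⁻¹) := h1.eq
        show a * (g⁻¹ * e * g) = g⁻¹ * e * g * a
        calc a * (g⁻¹ * e * g) = g⁻¹ * (g * a * g⁻¹ * e) * g := by group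
          _ = g⁻¹ * (e * (g * a * g⁻¹)) * g := by rw [h3]
          _ = g⁻¹ * e * g * a := by group
      · intro h
        apply h2
        rw [← h]; group
    · rintro ⟨h1, h2⟩
      refine ⟨?_, ?_⟩
      · have h3 : a * (g⁻¹ * e * g) = g⁻¹ * e * g * a := h1.eq
        show g * a * g⁻¹ * e = e * (g * a * g⁻¹)
        calc g * a * g⁻¹ * e = g * (a * (g⁻¹ * e * g)) * g⁻¹ := by group
          _ = g * (g⁻¹ * e * g * a) * g⁻¹ := by rw [h3]
          _ = e * (g * a * g⁻¹) := by group
      · intro h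
        apply h2
        rw [h]; group
  have hri : ∀ g a b : G,
      (fun a b : G => ∀ e ∈ D, (Commute a e ∧ e ≠ a) ↔ (Commute b e ∧ e ≠ b)) a b →
      (fun a b : G => ∀ e ∈ D, (Commute a e ∧ e ≠ a) ↔ (Commute b e ∧ e ≠ b))
        (g * a * g⁻¹) (g * b * g⁻¹) := by
    intro g a b h e he
    have he' : g⁻¹ * e * g ∈ D := by
      have := hcl g⁻¹ e he
      rwa [inv_inv] at this
    rw [hconjiff g a e, hconjiff g b e]
    exact h _ he'
  have hne : p ≠ q := by
    intro h
    apply hpq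
    rw [h]
  have hrpq : (fun a b : G => ∀ e ∈ D, (Commute a e ∧ e ≠ a) ↔ (Commute b e ∧ e ≠ b)) p q := by
    intro e he
    constructor
    · rintro ⟨h1, h2⟩
      refine ⟨hsub e he h1 h2, ?_⟩
      intro h
      apply hpq
      rw [← h]; exact h1
    · rintro ⟨h1, h2⟩
      refine ⟨hsub' e he h1 h2, ?_⟩
      intro h
      apply hpq
      rw [← h]; exact h1.symm
  have hall := fischer_primitive hsol hperf hD hr hri hp hq hne hrpq a ha c hc.1
  have h1 := (hall c hc.1).mp ⟨hc.2.2, hc.2.1⟩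
  exact h1.2 rfl

theorem fk_star (hs : Cfsg.IsThreeTranspositionSet D)
    (hcl : ∀ g d : G, d ∈ D → g * d * g⁻¹ ∈ D) {K : G → Subgroup G}
    (hK : FKHyp D K) {x d d' y : G} (hx : x ∈ D) (hd : d ∈ ttDc D x) (hd' : d' ∈ ttDc D x)
    (hne : d ≠ d') (hdd' : d * d' ∈ K x) (hy : y ∈ D) (hyd : Commute y d) (hyne : y ≠ d)
    (hyd' : ¬ Commute y d') : ¬ Commute x y ∧ y * x ∈ K d := by
  have hxy : ¬ Commute x y := by
    intro h
    have hyx : y ≠ x := by
      intro h2; apply hyd'; rw [h2]; exact hd'.2.2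
    exact hyd' (fk_p1 hs hK hx ⟨hy, hyx, h⟩ hd hd' hne hdd' hyne hyd)
  refine ⟨hxy, ?_⟩
  have hxx := tt_sq hs hx
  have hdd := tt_sq hs hd.1
  have hd'd' := tt_sq hs hd'.1
  have hyy := tt_sq hs hy
  have hxi := tt_inv hs hx
  have hdi := tt_inv hs hd.1
  have hd'i := tt_inv hs hd'.1
  have hyi := tt_inv hs hy
  have cxd : x * d = d * x := hd.2.2.eq
  have cxd' : x * d' = d' * x := hd'.2.2.eq
  have cyd : y * d = d * y := hyd.eq
  have hnc : ¬ Commute d d' := fk_ncomm hs hK hx hd.1 hd'.1 hne hdd'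
  have b1 : d * d' * d = d' * d * d' := tt_braid hs hd.1 hd'.1 hnc
  have b2 : y * d' * y = d' * y * d' := tt_braid hs hy hd'.1 hyd'
  have b3 : x * y * x = y * x * y := tt_braid hs hx hy hxy
  obtain ⟨e₁, he₁⟩ : ∃ e₁, e₁ = d' * y * d' := ⟨_, rfl⟩
  have he₁' : e₁ = y * d' * y := by rw [he₁, b2]
  have he₁D : e₁ ∈ D := by
    have := hcl d' y hy
    rw [hd'i] at this
    rw [he₁]; exact this
  have hxe₁ : ¬ Commute x e₁ := by
    intro h
    apply hxy
    have h1 : x * e₁ = e₁ * x := h.eq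
    show x * y = y * x
    calc x * y = d' * (x * (d' * y * d')) * d' := by
          rw [show d' * (x * (d' * y * d')) * d' = (d' * x) * (d' * y) * (d' * d') by group,
            ← cxd', hd'd', mul_one,
            show x * d' * (d' * y) = x * (d' * d') * y by group, hd'd', mul_one]
      _ = d' * (d' * y * d' * x) * d' := by rw [← he₁, h1]
      _ = (d' * d') * y * (d' * x) * d' := by group
      _ = y * (x * d') * d' := by rw [hd'd', one_mul, cxd']
      _ = y * x * (d' * d') := by group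
      _ = y * x := by rw [hd'd', mul_one]
  have b4 : x * e₁ * x = e₁ * x * e₁ := tt_braid hs hx he₁D hxe₁
  obtain ⟨g, hg⟩ : ∃ g, g = d' * d * y * x * d' * y := ⟨_, rfl⟩
  have hgi : g⁻¹ = y * d' * x * y * d * d' := by
    rw [hg]
    simp only [mul_inv_rev, hxi, hdi, hd'i, hyi, mul_assoc]
  have hform : ∀ z : G, g * z * g⁻¹
      = d' * (d * (y * (x * (d' * (y * z * y) * d') * x) * y) * d) * d' := by
    intro z
    rw [hgi, hg]
    simp only [mul_assoc]
  have s1 : d' * (y * x * y) * d' = e₁ * x * e₁ := by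
    rw [he₁]
    calc d' * (y * x * y) * d' = d' * y * (x * (d' * d')) * y * d' := by rw [hd'd', mul_one]; group
      _ = d' * y * (x * d' * d') * y * d' := by group
      _ = d' * y * (d' * x * d') * y * d' := by rw [cxd']
      _ = d' * y * d' * x * (d' * y * d') := by group
  have s2 : x * (e₁ * x * e₁) * x = e₁ := by
    rw [← b4]
    calc x * (x * e₁ * x) * x = (x * x) * e₁ * (x * x) := by group
      _ = e₁ := by rw [hxx, one_mul, mul_one]
  have s3 : y * e₁ * y = d' := by
    rw [he₁']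
    calc y * (y * d' * y) * y = (y * y) * d' * (y * y) := by group
      _ = d' := by rw [hyy, one_mul, mul_one]
  have s4 : d' * (d * d' * d) * d' = d := by
    rw [b1]
    calc d' * (d' * d * d') * d' = (d' * d') * d * (d' * d') := by group
      _ = d := by rw [hd'd', one_mul, mul_one]
  have e1 : g * x * g⁻¹ = d := by
    rw [hform, s1, s2, s3, s4]
  have t1 : y * d * y = d := by rw [cyd, mul_assoc, hyy, mul_one]
  have t2 : x * (d' * d * d') * x = d' * d * d' := by
    calc x * (d' * d * d') * x = (x * d') * d * d' * x := by group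
      _ = d' * (x * d) * d' * x := by rw [cxd']; group
      _ = d' * d * (x * d') * x := by rw [cxd]; group
      _ = d' * d * d' * (x * x) := by rw [cxd']; group
      _ = d' * d * d' := by rw [hxx, mul_one]
  have t3 : y * (d' * d * d') * y = d * e₁ * d := by
    rw [← b1, he₁']
    calc y * (d * d' * d) * y = (y * d) * d' * (d * y) := by group
      _ = (d * y) * d' * (y * d) := by rw [cyd]
      _ = d * (y * d' * y) * d := by group
  have t4 : d * (d * e₁ * d) * d = e₁ := by
    calc d * (d * e₁ * d) * d = (d * d) * e₁ * (d * d) := by group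
      _ = e₁ := by rw [hdd, one_mul, mul_one]
  have t5 : d' * e₁ * d' = y := by
    rw [he₁]
    calc d' * (d' * y * d') * d' = (d' * d') * y * (d' * d') := by group
      _ = y := by rw [hd'd', one_mul, mul_one]
  have e2 : g * d * g⁻¹ = y := by
    rw [hform, t1, t2, t3, t4, t5]
  have u1 : d' * (y * d' * y) * d' = y := by
    rw [b2]
    calc d' * (d' * y * d') * d' = (d' * d') * y * (d' * d') := by group
      _ = y := by rw [hd'd', one_mul, mul_one]
  have u2 : y * (x * y * x) * y = x := by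
    rw [b3]
    calc y * (y * x * y) * y = (y * y) * x * (y * y) := by group
      _ = x := by rw [hyy, one_mul, mul_one]
  have u3 : d * x * d = x := by rw [← cxd, mul_assoc, hdd, mul_one]
  have u4 : d' * x * d' = x := by rw [← cxd', mul_assoc, hd'd', mul_one]
  have e3 : g * d' * g⁻¹ = x := by
    rw [hform, u1, u2, u3, u4]
  have h1 := hK.conj g x (d * d') hdd'
  rw [e1] at h1
  have e4 : g * (d * d') * g⁻¹ = y * x := by
    calc g * (d * d') * g⁻¹ = (g * d * g⁻¹) * (g * d' * g⁻¹) := by group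
      _ = y * x := by rw [e2, e3]
  rwa [e4] at h1

theorem fk_M (hs : Cfsg.IsThreeTranspositionSet D)
    (hcl : ∀ g d : G, d ∈ D → g * d * g⁻¹ ∈ D) {K : G → Subgroup G}
    (hK : FKHyp D K) {x d y z : G} (hx : x ∈ D) (hd : d ∈ ttDc D x) (hy : y ∈ ttDc D d)
    (hyx : y ≠ x) (hxy : x * y ∈ K d) (hz : z ∈ ttDc D x) (hzy : ¬ Commute z y) :
    z * d ∈ K x := by
  have hxd : x ∈ ttDc D d := ⟨hx, fun h => hd.2.1 h.symm, hd.2.2.symm⟩
  exact (fk_star hs hcl hK hd.1 hxd hy (fun h => hyx h.symm) hxy hz.1 hz.2.2.symm hz.2.1 hzy).2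

theorem fk_J [Finite G]
    (hsol : ∀ N : Subgroup G, N.Normal → Group.IsSolvable ↥N → N = ⊥)
    (hperf : ⁅commutator G, commutator G⁆ = commutator G)
    (hD : Cfsg.IsThreeTranspositionClass D) {K : G → Subgroup G} (hK : FKHyp D K)
    {x c d : G} (hx : x ∈ D) (hc : c ∈ ttDc D x) (hd : d ∈ ttDc D x) (hncd : ¬ Commute c d) :
    c * d ∈ K x := by
  have hs := hD.1
  have hcl := tt_class_closed hD
  by_contra hcd
  obtain ⟨d', hd', hne', hdd'⟩ := fk_exists hs hcl hK hx hd
  have hne : d ≠ d' := fun h => hne' h.symm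
  have hnc : ¬ Commute d d' := fk_ncomm hs hK hx hd.1 hd'.1 hne hdd'
  have hdi := tt_inv hs hd.1
  have hd'i := tt_inv hs hd'.1
  have hci := tt_inv hs hc.1
  have hxi := tt_inv hs hx
  have hex : ∃ a ∈ D, Commute d a ∧ a ≠ d ∧ ¬ Commute d' a := by
    by_contra hno
    push_neg at hno
    exact fk_tf hsol hperf hD hd.1 hd'.1 hnc (fun e he h1 h2 => hno e he h1 h2) hx hd
  obtain ⟨a, haD, hda, had, hna⟩ := hex
  have star := fk_star hs hcl hK hx hd hd' hne hdd' haD hda.symm had (fun h => hna h.symm)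
  have hai := tt_inv hs haD
  have hxa : x * a ∈ K d := by
    have h1 := (K d).inv_mem star.2
    rwa [mul_inv_rev, hxi, hai] at h1
  have haxne : a ≠ x := by
    intro h
    apply star.1
    rw [h]
  have hadc : a ∈ ttDc D d := ⟨haD, had, hda⟩
  have hM : ∀ z ∈ ttDc D x, ¬ Commute z a → z * d ∈ K x :=
    fun z hz h => fk_M hs hcl hK hx hd hadc haxne hxa hz h
  have hca : Commute c a := by
    by_contra h
    exact hcd (hM c hc h)
  obtain ⟨c', hc'def⟩ : ∃ c', c' = d' * c * d' := ⟨_, rfl⟩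
  have hc'D : c' ∈ D := by
    have := hcl d' c hc.1
    rw [hd'i] at this
    rw [hc'def]; exact this
  have hd'd' := tt_sq hs hd'.1
  have hc' : c' ∈ ttDc D x := by
    refine ⟨hc'D, ?_, ?_⟩
    · intro h
      apply hc.2.1
      have cxd' : x * d' = d' * x := hd'.2.2.eq
      calc c = d' * (d' * c * d') * d' := by
            rw [show d' * (d' * c * d') * d' = (d' * d') * c * (d' * d') by group, hd'd',
              one_mul, mul_one]
        _ = d' * x * d' := by rw [← hc'def, h]
        _ = x * (d' * d') := by rw [← cxd']; group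
        _ = x := by rw [hd'd', mul_one]
    · rw [hc'def]
      exact (hd'.2.2.mul_right hc.2.2).mul_right hd'.2.2
  have hdd'2 : d' * d ∈ K x := by
    have h1 := (K x).inv_mem hdd'
    rwa [mul_inv_rev, hdi, hd'i] at h1
  have hc'a : Commute c' a := by
    by_contra h
    have h1 : c' * d ∈ K x := hM c' hc' h
    have hc'i := tt_inv hs hc'D
    have h2 : d * c' ∈ K x := by
      have h3 := (K x).inv_mem h1
      rwa [mul_inv_rev, hdi, hc'i] at h3
    have h3 : d' * d * (d * c') ∈ K x := (K x).mul_mem hdd'2 h2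
    have e3 : d' * d * (d * c') = c * d' := by
      rw [hc'def]
      calc d' * d * (d * (d' * c * d')) = d' * (d * d) * d' * c * d' := by group
        _ = (d' * d') * c * d' := by rw [tt_sq hs hd.1]; group
        _ = c * d' := by rw [hd'd', one_mul]
    rw [e3] at h3
    have h4 : c * d' * (d' * d) ∈ K x := (K x).mul_mem h3 hdd'2
    have e4 : c * d' * (d' * d) = c * d := by
      calc c * d' * (d' * d) = c * (d' * d') * d := by group
        _ = c * d := by rw [hd'd', mul_one]
    rw [e4] at h4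
    exact hcd h4
  have hcd' : ¬ Commute c d' := by
    intro h
    apply hncd
    have hcne : c ≠ d' := by
      intro h2
      apply hcd
      rw [h2]; exact hdd'2
    exact fk_p1 hs hK hx hc hd' hd hne' hdd'2 hcne h
  have br : d' * c * d' = c * d' * c := tt_braid hs hd'.1 hc.1 (fun h => hcd' h.symm)
  have hcc := tt_sq hs hc.1
  have e5 : d' = c * c' * c := by
    rw [hc'def, br]
    calc d' = (c * c) * d' * (c * c) := by rw [hcc, one_mul, mul_one]
      _ = c * (c * d' * c) * c := by group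
  apply hna
  rw [e5]
  exact ((hca.mul_left hc'a).mul_left hca)

theorem fk_m1 [Finite G]
    (hsol : ∀ N : Subgroup G, N.Normal → Group.IsSolvable ↥N → N = ⊥)
    (hperf : ⁅commutator G, commutator G⁆ = commutator G)
    (hD : Cfsg.IsThreeTranspositionClass D) {K : G → Subgroup G} (hK : FKHyp D K)
    {x c d : G} (hx : x ∈ D) (hc : c ∈ ttDc D x) (hd : d ∈ ttDc D x) : c * d ∈ K x := by
  have hs := hD.1
  have hcl := tt_class_closed hD
  have hdd := tt_sq hs hd.1
  have hdi := tt_inv hs hd.1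
  have hJ : ∀ e ∈ ttDc D x, e * d * e⁻¹ * d ∈ K x := by
    intro e he
    rw [tt_inv hs he.1]
    by_cases hc2 : Commute e d
    · have : e * d * e * d = 1 := by
        calc e * d * e * d = e * (d * e) * d := by group
          _ = e * (e * d) * d := by rw [hc2.eq]
          _ = (e * e) * (d * d) := by group
          _ = 1 := by rw [tt_sq hs he.1, hdd, one_mul]
      rw [this]; exact (K x).one_mem
    · have h1 := fk_J hsol hperf hD hK hx he hd hc2
      have h2 := (K x).mul_mem h1 h1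
      have : e * d * e * d = e * d * (e * d) := by group
      rw [this]; exact h2
  have hcent : Subgroup.closure (ttDc D x) ≤ Subgroup.centralizer {x} := by
    rw [Subgroup.closure_le]
    intro e he
    exact Subgroup.mem_centralizer_singleton_iff.mpr he.2.2.eq.symm
  have key : ∀ h ∈ Subgroup.closure (ttDc D x), h * d * h⁻¹ * d ∈ K x := by
    intro h hh
    induction hh using Subgroup.closure_induction with
    | mem e he => exact hJ e he
    | one => simp only [one_mul, inv_one, mul_one]; rw [hdd]; exact (K x).one_mem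
    | mul a b ha hb iha ihb =>
      have hax : Commute x a :=
        (Subgroup.mem_centralizer_singleton_iff.mp (hcent ha)).symm
      have h1 : a * (b * d * b⁻¹ * d) * a⁻¹ ∈ K x := fk_norm hK hax ihb
      have h2 := (K x).mul_mem h1 iha
      have e : a * (b * d * b⁻¹ * d) * a⁻¹ * (a * d * a⁻¹ * d) = a * b * d * (a * b)⁻¹ * d := by
        calc a * (b * d * b⁻¹ * d) * a⁻¹ * (a * d * a⁻¹ * d)
            = a * b * d * b⁻¹ * (d * d) * a⁻¹ * d := by group
          _ = a * b * d * (a * b)⁻¹ * d := by rw [hdd]; group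
      rw [e] at h2; exact h2
    | inv a ha iha =>
      have hax : Commute x a⁻¹ :=
        (Subgroup.mem_centralizer_singleton_iff.mp (hcent ((Subgroup.closure _).inv_mem ha))).symm
      have h1 : a⁻¹ * (a * d * a⁻¹ * d)⁻¹ * a⁻¹⁻¹ ∈ K x := fk_norm hK hax ((K x).inv_mem iha)
      have e : a⁻¹ * (a * d * a⁻¹ * d)⁻¹ * a⁻¹⁻¹ = a⁻¹ * d * a⁻¹⁻¹ * d := by
        rw [mul_inv_rev, mul_inv_rev, mul_inv_rev, hdi]; group
      rw [e] at h1; exact h1
  obtain ⟨h, hh, hhd⟩ := Cfsg.Agent.S1613.result hsol hperf hD x hx d hd c hc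
  have := key h hh
  rwa [hhd] at this

end FischerK

end Cfsg.Agent.Lib.helper8
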