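import Mathlib
import Cfsg.Prelude.Def_SporadicB
import Cfsg.Prelude.Def_FischerSpaces
import Cfsg.Prelude.Def_Solvable
import Cfsg.Agent.Lib.helper8.Fischer
import Cfsg.Agent.Lib.helper8.FischerK
import Cfsg.Agent.Lib.helper9.PPrimeCore
import Cfsg.Agent.Lib.helper26.TTZ
import Cfsg.Agent.Lib.helper26.Centric
import Cfsg.Agent.S1613

set_option autoImplicit false

namespace Cfsg.Agent.Lib.helper8

section FischerO3
variable {G : Type*} [Group G] {D : Set G}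

theorem fo_closure_conj {S T : Set G} {g : G} (h : ∀ s ∈ S, g * s * g⁻¹ ∈ T) {r : G}
    (hr : r ∈ Subgroup.closure S) : g * r * g⁻¹ ∈ Subgroup.closure T := by
  induction hr using Subgroup.closure_induction with
  | mem s hs => exact Subgroup.subset_closure (h s hs)
  | one => rw [mul_one, mul_inv_cancel]; exact Subgroup.one_mem _
  | mul a b _ _ iha ihb =>
    have e : g * (a * b) * g⁻¹ = g * a * g⁻¹ * (g * b * g⁻¹) := by group
    rw [e]; exact Subgroup.mul_mem _ iha ihb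
  | inv a _ iha =>
    have e : g * a⁻¹ * g⁻¹ = (g * a * g⁻¹)⁻¹ := by group
    rw [e]; exact Subgroup.inv_mem _ iha

theorem fo_stab (hcl : ∀ g d : G, d ∈ D → g * d * g⁻¹ ∈ D) {p y g : G} (hg : Commute g p)
    (hy : y ∈ ttDc D p) : g * y * g⁻¹ ∈ ttDc D p := by
  refine ⟨hcl g y hy.1, ?_, ?_⟩
  · intro h
    apply hy.2.1
    calc y = g⁻¹ * (g * y * g⁻¹) * g := by group
      _ = g⁻¹ * p * g := by rw [h]
      _ = g⁻¹ * (p * g) := by group
      _ = g⁻¹ * (g * p) := by rw [hg.eq]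
      _ = p := by group
  · exact (hg.symm.mul_right hy.2.2).mul_right hg.symm.inv_right

theorem fo_Dc_conj (hcl : ∀ g d : G, d ∈ D → g * d * g⁻¹ ∈ D) (g : G) {p y : G}
    (hy : y ∈ ttDc D p) : g * y * g⁻¹ ∈ ttDc D (g * p * g⁻¹) := by
  rw [ttDc_conj hcl g p]
  exact ⟨y, hy, rfl⟩

theorem fo_Dc_back (hcl : ∀ g d : G, d ∈ D → g * d * g⁻¹ ∈ D) (g : G) {p y : G}
    (hy : y ∈ ttDc D (g * p * g⁻¹)) : g⁻¹ * y * g ∈ ttDc D p := by
  have h1 := fo_Dc_conj hcl g⁻¹ hy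
  have e : g⁻¹ * (g * p * g⁻¹) * g⁻¹⁻¹ = p := by group
  rw [e, inv_inv] at h1
  exact h1

theorem fo_H_comm {p g : G} (hg : g ∈ Subgroup.closure (ttDc D p)) : Commute g p := by
  have hle : Subgroup.closure (ttDc D p) ≤ Subgroup.centralizer {p} := by
    rw [Subgroup.closure_le]
    intro d hd
    exact Subgroup.mem_centralizer_singleton_iff.mpr hd.2.2.eq.symm
  exact Subgroup.mem_centralizer_singleton_iff.mp (hle hg)

theorem fo_move [Finite G]
    (hsol : ∀ N : Subgroup G, N.Normal → Group.IsSolvable ↥N → N = ⊥)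
    (hperf : ⁅commutator G, commutator G⁆ = commutator G)
    (hD : Cfsg.IsThreeTranspositionClass D) {K : G → Subgroup G}
    (hconj : ∀ g p k, k ∈ K p → g * k * g⁻¹ ∈ K (g * p * g⁻¹)) {x c k : G} (hx : x ∈ D)
    (hc : c ∈ ttDc D x) (hk : k ∈ K x) (hkc : ¬ Commute k c) :
    ∀ p ∈ D, ∀ d ∈ ttDc D p, ∃ k ∈ K p, ¬ Commute k d := by
  have hcl := tt_class_closed hD
  have hx' : ∀ d ∈ ttDc D x, ∃ k ∈ K x, ¬ Commute k d := by
    intro d hd
    obtain ⟨g, hg, hgc⟩ := Cfsg.Agent.S1613.result hsol hperf hD x hx c hc d hd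
    have hgx : Commute g x := fo_H_comm hg
    refine ⟨g * k * g⁻¹, ?_, ?_⟩
    · have h1 := hconj g x k hk
      have e : g * x * g⁻¹ = x := by rw [hgx.eq, mul_inv_cancel_right]
      rwa [e] at h1
    · intro h
      apply hkc
      rw [← hgc] at h
      have h2 : g * k * g⁻¹ * (g * c * g⁻¹) = g * c * g⁻¹ * (g * k * g⁻¹) := h.eq
      show k * c = c * k
      calc k * c = g⁻¹ * (g * k * g⁻¹ * (g * c * g⁻¹)) * g := by group
        _ = g⁻¹ * (g * c * g⁻¹ * (g * k * g⁻¹)) * g := by rw [h2]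
        _ = c * k := by group
  intro p hp d hd
  obtain ⟨g, rfl⟩ := tt_class_trans hD hx hp
  have hd0 : g⁻¹ * d * g ∈ ttDc D x := fo_Dc_back hcl g hd
  obtain ⟨k', hk', hk'd⟩ := hx' _ hd0
  refine ⟨g * k' * g⁻¹, hconj g x k' hk', ?_⟩
  intro h
  apply hk'd
  have h2 : g * k' * g⁻¹ * d = d * (g * k' * g⁻¹) := h.eq
  show k' * (g⁻¹ * d * g) = g⁻¹ * d * g * k'
  calc k' * (g⁻¹ * d * g) = g⁻¹ * (g * k' * g⁻¹ * d) * g := by group
    _ = g⁻¹ * (d * (g * k' * g⁻¹)) * g := by rw [h2]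
    _ = g⁻¹ * d * g * k' := by group

def foOC (A : Subgroup G) : Subgroup G := (Cfsg.pPrimeCore 2 ↥A).map A.subtype

theorem fo_ppc_map {A B : Type*} [Group A] [Group B] [Finite A] (e : A ≃* B) {a : A}
    (ha : a ∈ Cfsg.pPrimeCore 2 A) : e a ∈ Cfsg.pPrimeCore 2 B := by
  haveI := Cfsg.Agent.Lib.helper9.ppc_normal 2 A
  have hn : ((Cfsg.pPrimeCore 2 A).map e.toMonoidHom).Normal :=
    Subgroup.Normal.map inferInstance _ e.surjective
  have hc : (Nat.card ((Cfsg.pPrimeCore 2 A).map e.toMonoidHom)).Coprime 2 := by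
    rw [Subgroup.card_map_of_injective e.injective]
    exact Cfsg.Agent.Lib.helper9.pPrimeCore_coprime 2 A
  exact Cfsg.Agent.Lib.helper9.le_pPrimeCore hn hc ⟨a, ha, rfl⟩

theorem fo_oc_conj [Finite G] (A : Subgroup G) (g : G) {k : G} (hk : k ∈ foOC A) :
    g * k * g⁻¹ ∈ foOC (A.map (MulAut.conj g).toMonoidHom) := by
  obtain ⟨k0, hk0, rfl⟩ := hk
  exact ⟨(MulAut.conj g).subgroupMap A k0, fo_ppc_map ((MulAut.conj g).subgroupMap A) hk0, rfl⟩

theorem fo_K1 [Finite G]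
    (hsol : ∀ N : Subgroup G, N.Normal → Group.IsSolvable ↥N → N = ⊥)
    (hperf : ⁅commutator G, commutator G⁆ = commutator G)
    (hD : Cfsg.IsThreeTranspositionClass D) {x : G} (hx : x ∈ D)
    (h : ¬ Cfsg.oddCore ↥(Subgroup.closure {y : G | y ∈ D ∧ y ≠ x ∧ Commute x y}) ≤
      Subgroup.center ↥(Subgroup.closure {y : G | y ∈ D ∧ y ≠ x ∧ Commute x y})) :
    FKHyp D (fun p => foOC (Subgroup.closure (ttDc D p))) := by
  have hcl := tt_class_closed hD
  have hconj : ∀ g p k, k ∈ foOC (Subgroup.closure (ttDc D p)) →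
      g * k * g⁻¹ ∈ foOC (Subgroup.closure (ttDc D (g * p * g⁻¹))) := by
    intro g p k hk
    rw [ttDc_closure_conj hcl g p]
    exact fo_oc_conj _ g hk
  refine ⟨hconj, ?_, ?_, ?_⟩
  · intro p hp k hk
    obtain ⟨k0, -, rfl⟩ := hk
    exact fo_H_comm k0.2
  · intro p hp k hk hkk
    obtain ⟨k0, hk0, rfl⟩ := hk
    have h1 : k0 * k0 = 1 := Subtype.ext hkk
    have hc := Cfsg.Agent.Lib.helper9.pPrimeCore_coprime 2 ↥(Subgroup.closure (ttDc D p))
    have h2 : orderOf k0 ∣ 2 := orderOf_dvd_of_pow_eq_one (by rw [pow_two]; exact h1)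
    have h3 : orderOf k0 ∣ Nat.card (Cfsg.pPrimeCore 2 ↥(Subgroup.closure (ttDc D p))) :=
      Subgroup.orderOf_dvd_natCard _ hk0
    have h4 : orderOf k0 ∣ 1 := by
      have := Nat.dvd_gcd h3 h2
      rwa [hc.gcd_eq_one] at this
    have h5 : k0 = 1 := orderOf_eq_one_iff.mp (Nat.dvd_one.mp h4)
    rw [h5]; rfl
  · have hex : ∃ c ∈ ttDc D x, ∃ k ∈ foOC (Subgroup.closure (ttDc D x)), ¬ Commute k c := by
      by_contra hno
      push_neg at hno
      apply h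
      intro k0 hk0
      rw [Subgroup.mem_center_iff]
      intro g
      have hk : (k0 : G) ∈ foOC (Subgroup.closure (ttDc D x)) := ⟨k0, hk0, rfl⟩
      have hle : Subgroup.closure (ttDc D x) ≤ Subgroup.centralizer {(k0 : G)} := by
        rw [Subgroup.closure_le]
        intro c hc
        exact Subgroup.mem_centralizer_singleton_iff.mpr (hno c hc _ hk).eq.symm
      have := Subgroup.mem_centralizer_singleton_iff.mp (hle g.2)
      exact Subtype.ext this
    obtain ⟨c, hc, k, hk, hkc⟩ := hex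
    exact fo_move hsol hperf hD hconj hx hc hk hkc

def foR (D : Set G) (p : G) : Subgroup G :=
  Subgroup.closure {g : G | ∃ c ∈ ttDc D p, ∃ d ∈ ttDc D p, g = c * d}

theorem fo_R_le_H (p : G) : foR D p ≤ Subgroup.closure (ttDc D p) := by
  refine (Subgroup.closure_le _).mpr ?_
  rintro g ⟨c, hc, d, hd, rfl⟩
  exact Subgroup.mul_mem _ (Subgroup.subset_closure hc) (Subgroup.subset_closure hd)

theorem fo_R_conj (hcl : ∀ g d : G, d ∈ D → g * d * g⁻¹ ∈ D) (g p : G) {r : G}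
    (hr : r ∈ foR D p) : g * r * g⁻¹ ∈ foR D (g * p * g⁻¹) := by
  refine fo_closure_conj ?_ hr
  rintro s ⟨c, hc, d, hd, rfl⟩
  exact ⟨g * c * g⁻¹, fo_Dc_conj hcl g hc, g * d * g⁻¹, fo_Dc_conj hcl g hd, by group⟩

theorem fo_R_back (hcl : ∀ g d : G, d ∈ D → g * d * g⁻¹ ∈ D) (g p : G) {r : G}
    (hr : r ∈ foR D (g * p * g⁻¹)) : g⁻¹ * r * g ∈ foR D p := by
  have h1 := fo_R_conj hcl g⁻¹ _ hr
  have e : g⁻¹ * (g * p * g⁻¹) * g⁻¹⁻¹ = p := by group
  rw [e, inv_inv] at h1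
  exact h1

theorem fo_R3 [Finite G] (hs : Cfsg.IsThreeTranspositionSet D)
    (hcl : ∀ g d : G, d ∈ D → g * d * g⁻¹ ∈ D) {p : G}
    (hpair : ∀ c ∈ ttDc D p, ∀ d ∈ ttDc D p, c ≠ d → ¬ Commute c d)
    (hne : (ttDc D p).Nonempty) : IsPGroup 3 ↥(foR D p) := by
  classical
  haveI : Fact (Nat.Prime 3) := ⟨Nat.prime_three⟩
  obtain ⟨H, hH⟩ : ∃ H : Subgroup G, H = Subgroup.closure (ttDc D p) := ⟨_, rfl⟩
  obtain ⟨D', hD'def⟩ : ∃ D' : Set ↥H, D' = {h : ↥H | (h : G) ∈ ttDc D p} := ⟨_, rfl⟩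
  have hD' : Cfsg.IsThreeTranspositionGroup D' := by
    subst hD'def
    refine ⟨⟨?_, ?_⟩, ?_, ?_⟩
    · intro d hd
      rw [← hs.1 (d : G) hd.1]
      exact (Subgroup.orderOf_coe d).symm
    · intro d hd e he
      rcases hs.2 (d : G) hd.1 (e : G) he.1 with h2 | h3
      · left; exact Subtype.ext (by simpa using h2)
      · right; exact Subtype.ext (by simpa using h3)
    · intro g d hd
      have hg : (g : G) ∈ Subgroup.closure (ttDc D p) := by rw [← hH]; exact g.2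
      exact ttDc_conj_mem hcl hd hg
    · subst hH
      exact Subgroup.closure_closure_coe_preimage
  have hc3 : ∀ a ∈ D', ∀ b ∈ D', (a * b) ^ 3 = 1 := by
    subst hD'def
    intro a ha b hb
    apply Subtype.ext
    by_cases hab : (a : G) = b
    · have h1 : (a : G) * b = 1 := by rw [← hab]; exact tt_sq hs ha.1
      simp [h1]
    · have h1 := tt_cube hs ha.1 hb.1 (hpair _ ha _ hb hab)
      simpa using h1
  obtain ⟨d0, hd0⟩ := hne
  have hmemH : ∀ c ∈ ttDc D p, c ∈ H := by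
    intro c hc; rw [hH]; exact Subgroup.subset_closure hc
  have hd0' : (⟨d0, hmemH d0 hd0⟩ : ↥H) ∈ D' := by rw [hD'def]; exact hd0
  obtain ⟨P⟩ : Nonempty (Sylow 3 ↥H) := inferInstance
  have hle : foR D p ≤ (P : Subgroup ↥H).map H.subtype := by
    refine (Subgroup.closure_le _).mpr ?_
    rintro g ⟨c, hc, d, hd, rfl⟩
    have hc' : (⟨c, hmemH c hc⟩ : ↥H) ∈ D' := by rw [hD'def]; exact hc
    have hd' : (⟨d, hmemH d hd⟩ : ↥H) ∈ D' := by rw [hD'def]; exact hd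
    have h3 : ((⟨c, hmemH c hc⟩ : ↥H) * ⟨d, hmemH d hd⟩) ^ 3 ^ 1 = 1 := by
      rw [pow_one]; exact hc3 _ hc' _ hd'
    have hm := Cfsg.Agent.Lib.helper26.tt_odd_mem hD' hc3 hd0' h3
    exact ⟨(⟨c, hmemH c hc⟩ : ↥H) * ⟨d, hmemH d hd⟩,
      Cfsg.Agent.Lib.helper26.pCore_le_sylow P hm, rfl⟩
  exact IsPGroup.to_le (P.isPGroup'.map H.subtype) hle

def foZ (D : Set G) (p : G) : Subgroup G := foR D p ⊓ Subgroup.centralizer (ttDc D p)

theorem fo_Z_conj (hcl : ∀ g d : G, d ∈ D → g * d * g⁻¹ ∈ D) (g p : G) {z : G}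
    (hz : z ∈ foZ D p) : g * z * g⁻¹ ∈ foZ D (g * p * g⁻¹) := by
  refine ⟨fo_R_conj hcl g p hz.1, ?_⟩
  show g * z * g⁻¹ ∈ Subgroup.centralizer (ttDc D (g * p * g⁻¹))
  rw [Subgroup.mem_centralizer_iff]
  intro c hc
  have hc0 : g⁻¹ * c * g ∈ ttDc D p := fo_Dc_back hcl g hc
  have h2 := (Subgroup.mem_centralizer_iff.mp hz.2) _ hc0
  calc c * (g * z * g⁻¹) = g * (g⁻¹ * c * g * z) * g⁻¹ := by group
    _ = g * (z * (g⁻¹ * c * g)) * g⁻¹ := by rw [h2]
    _ = g * z * g⁻¹ * c := by group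

def foAct (Z : Subgroup G) (S : Set G) (h : ∀ z ∈ Z, ∀ s ∈ S, z * s * z⁻¹ ∈ S) :
    MulAction ↥Z ↥S where
  smul z s := ⟨z.1 * s.1 * z.1⁻¹, h z.1 z.2 s.1 s.2⟩
  one_smul s := Subtype.ext (by show (1 : G) * s.1 * (1 : G)⁻¹ = s.1; group)
  mul_smul a b s := Subtype.ext (by
    show (a.1 * b.1) * s.1 * (a.1 * b.1)⁻¹ = a.1 * (b.1 * s.1 * b.1⁻¹) * a.1⁻¹; group)

theorem fo_card3 [Finite G] (hcl : ∀ g d : G, d ∈ D → g * d * g⁻¹ ∈ D) {p : G}
    (hR3 : IsPGroup 3 ↥(foR D p))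
    (hpair : ∀ c ∈ ttDc D p, ∀ d ∈ ttDc D p, c ≠ d → ¬ Commute c d)
    (hex : ∀ d ∈ ttDc D p, ∃ d' ∈ ttDc D p, d' ≠ d) : 3 ∣ Nat.card ↥(ttDc D p) := by
  haveI : Fact (Nat.Prime 3) := ⟨Nat.prime_three⟩
  by_contra hnd
  have hstab : ∀ z ∈ foR D p, ∀ s ∈ ttDc D p, z * s * z⁻¹ ∈ ttDc D p :=
    fun z hz s hs' => fo_stab hcl (fo_H_comm (fo_R_le_H p hz)) hs'
  letI := foAct (foR D p) (ttDc D p) hstab
  obtain ⟨⟨y, hy⟩, hfix⟩ := hR3.nonempty_fixed_point_of_prime_not_dvd_card ↥(ttDc D p) hnd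
  obtain ⟨y', hy', hne⟩ := hex y hy
  have hr : y * y' ∈ foR D p := Subgroup.subset_closure ⟨y, hy, y', hy', rfl⟩
  have h1 := (MulAction.mem_fixedPoints.mp hfix) ⟨y * y', hr⟩
  have h2 : y * y' * y * (y * y')⁻¹ = y := congrArg Subtype.val h1
  apply hpair y' hy' y hy hne
  show y' * y = y * y'
  have h3 : y * y' * y = y * (y * y') := by
    calc y * y' * y = y * y' * y * (y * y')⁻¹ * (y * y') := by group
      _ = y * (y * y') := by rw [h2]
  have h4 : y * (y' * y) = y * (y * y') := by rw [← mul_assoc]; exact h3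
  exact mul_left_cancel h4

theorem fo_Z_bot [Finite G]
    (hsol : ∀ N : Subgroup G, N.Normal → Group.IsSolvable ↥N → N = ⊥)
    (hperf : ⁅commutator G, commutator G⁆ = commutator G)
    (hD : Cfsg.IsThreeTranspositionClass D)
    (hR3 : ∀ p ∈ D, IsPGroup 3 ↥(foR D p))
    (hpair : ∀ p ∈ D, ∀ c ∈ ttDc D p, ∀ d ∈ ttDc D p, c ≠ d → ¬ Commute c d)
    (hex : ∀ p ∈ D, ∀ d ∈ ttDc D p, ∃ d' ∈ ttDc D p, d' ≠ d)
    {x d : G} (hx : x ∈ D) (hd : d ∈ ttDc D x) : foZ D x = ⊥ := by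
  classical
  haveI : Fact (Nat.Prime 3) := ⟨Nat.prime_three⟩
  have hs := hD.1
  have hcl := tt_class_closed hD
  have hxd : x ∈ ttDc D d := ⟨hx, fun h => hd.2.1 h.symm, hd.2.2.symm⟩
  have hZ3 : IsPGroup 3 ↥(foZ D x) := (hR3 x hx).to_le inf_le_left
  have hZx : ∀ z ∈ foZ D x, Commute z x := fun z hz => fo_H_comm (fo_R_le_H x hz.1)
  have hZd : ∀ z ∈ foZ D x, Commute z d :=
    fun z hz => (Subgroup.mem_centralizer_iff.mp hz.2 d hd).symm
  have hstab : ∀ z ∈ foZ D x, ∀ s ∈ ttDc D d, z * s * z⁻¹ ∈ ttDc D d :=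
    fun z hz s hs' => fo_stab hcl (hZd z hz) hs'
  letI := foAct (foZ D x) (ttDc D d) hstab
  have h3 : 3 ∣ Nat.card ↥(ttDc D d) :=
    fo_card3 hcl (hR3 d hd.1) (hpair d hd.1) (hex d hd.1)
  have hxfix : (⟨x, hxd⟩ : ↥(ttDc D d)) ∈ MulAction.fixedPoints ↥(foZ D x) ↥(ttDc D d) := by
    rw [MulAction.mem_fixedPoints]
    intro z
    apply Subtype.ext
    show (z : G) * x * (z : G)⁻¹ = x
    rw [(hZx z z.2).eq, mul_inv_cancel_right]
  obtain ⟨⟨y, hy⟩, hyfix, hne⟩ :=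
    hZ3.exists_fixed_point_of_prime_dvd_card_of_fixed_point ↥(ttDc D d) h3 hxfix
  have hyx : y ≠ x := fun h => hne (Subtype.ext h.symm)
  have hZy : ∀ z ∈ foZ D x, Commute z y := by
    intro z hz
    have h1 := (MulAction.mem_fixedPoints.mp hyfix) ⟨z, hz⟩
    have h2 : z * y * z⁻¹ = y := congrArg Subtype.val h1
    show z * y = y * z
    calc z * y = z * y * z⁻¹ * z := by group
      _ = y * z := by rw [h2]
  have hnc : ¬ Commute x y := hpair d hd.1 x hxd y hy (fun h => hyx h.symm)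
  have hb1 : (x * y * x) * x * (x * y * x)⁻¹ = y := by
    have hbr := tt_braid hs hx hy.1 hnc
    have hbi : (x * y * x)⁻¹ = x * y * x := by
      rw [mul_inv_rev, mul_inv_rev, tt_inv hs hx, tt_inv hs hy.1, mul_assoc]
    rw [hbi]
    calc x * y * x * x * (x * y * x) = x * y * (x * x) * (x * y * x) := by group
      _ = x * (y * x * y) * x := by rw [tt_sq hs hx]; group
      _ = x * (x * y * x) * x := by rw [hbr]
      _ = (x * x) * y * (x * x) := by group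
      _ = y := by rw [tt_sq hs hx, one_mul, mul_one]
  have hiff : ∀ g p k, k ∈ foZ D (g * p * g⁻¹) ↔ g⁻¹ * k * g ∈ foZ D p := by
    intro g p k
    constructor
    · intro hk
      have h1 := fo_Z_conj hcl g⁻¹ _ hk
      have e : g⁻¹ * (g * p * g⁻¹) * g⁻¹⁻¹ = p := by group
      rw [e, inv_inv] at h1
      exact h1
    · intro hk
      have h1 := fo_Z_conj hcl g p hk
      have e : g * (g⁻¹ * k * g) * g⁻¹ = k := by group
      rwa [e] at h1
  have hbc : ∀ z ∈ foZ D x, Commute (x * y * x) z := fun z hz =>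
    ((hZx z hz).symm.mul_left (hZy z hz).symm).mul_left (hZx z hz).symm
  have hle : foZ D x ≤ foZ D y := by
    intro z hz
    have h1 := fo_Z_conj hcl (x * y * x) x hz
    rw [hb1] at h1
    have e : (x * y * x) * z * (x * y * x)⁻¹ = z := by
      rw [(hbc z hz).eq, mul_inv_cancel_right]
    rwa [e] at h1
  have hge : foZ D y ≤ foZ D x := by
    intro z' hz'
    have hz'' : z' ∈ foZ D ((x * y * x) * x * (x * y * x)⁻¹) := by rw [hb1]; exact hz'
    have h1 := (hiff _ _ _).mp hz''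
    have h2 := (hbc _ h1).eq
    have e : (x * y * x)⁻¹ * z' * (x * y * x) = z' := by
      calc (x * y * x)⁻¹ * z' * (x * y * x)
          = (x * y * x) * ((x * y * x)⁻¹ * z' * (x * y * x)) * (x * y * x)⁻¹ := by
            rw [h2, mul_inv_cancel_right]
        _ = z' := by group
    rwa [e] at h1
  have hxy : foZ D x = foZ D y := le_antisymm hle hge
  have hr : Equivalence (fun p q : G => foZ D p = foZ D q) :=
    ⟨fun _ => rfl, fun h => h.symm, fun h1 h2 => h1.trans h2⟩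
  have hri : ∀ g p q : G, (fun p q : G => foZ D p = foZ D q) p q →
      (fun p q : G => foZ D p = foZ D q) (g * p * g⁻¹) (g * q * g⁻¹) := by
    intro g p q hpq
    show foZ D (g * p * g⁻¹) = foZ D (g * q * g⁻¹)
    ext k
    rw [hiff, hiff, show foZ D p = foZ D q from hpq]
  have hall := fischer_primitive hsol hperf hD hr hri hx hy.1 (fun h => hyx h.symm) hxy
  have hn : (foZ D x).Normal := by
    refine ⟨fun n hn g => ?_⟩
    have h1 := fo_Z_conj hcl g x hn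
    have h2 : foZ D (g * x * g⁻¹) = foZ D x := hall _ (hcl g x hx) x hx
    rwa [h2] at h1
  haveI := hZ3.isNilpotent
  exact hsol _ hn inferInstance

theorem fo_R_ab [Finite G]
    (hsol : ∀ N : Subgroup G, N.Normal → Group.IsSolvable ↥N → N = ⊥)
    (hperf : ⁅commutator G, commutator G⁆ = commutator G)
    (hD : Cfsg.IsThreeTranspositionClass D)
    (hR3 : ∀ p ∈ D, IsPGroup 3 ↥(foR D p))
    (hex : ∀ p ∈ D, ∀ d ∈ ttDc D p, ∃ d' ∈ ttDc D p, d' ≠ d)
    (hZ : ∀ p ∈ D, ∀ d ∈ ttDc D p, foZ D p = ⊥)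
    {x c0 : G} (hx : x ∈ D) (hc0 : c0 ∈ ttDc D x) :
    ∀ a ∈ foR D x, ∀ b ∈ foR D x, a * b = b * a := by
  classical
  haveI : Fact (Nat.Prime 3) := ⟨Nat.prime_three⟩
  have hs := hD.1
  have hcl := tt_class_closed hD
  obtain ⟨K, hKdef⟩ : ∃ K : G → Subgroup G,
      K = fun p => foR D p ⊓ Subgroup.centralizer (foR D p : Set G) := ⟨_, rfl⟩
  have hKmem : ∀ p k, k ∈ K p ↔ k ∈ foR D p ∧ ∀ r ∈ foR D p, r * k = k * r := by
    intro p k
    rw [hKdef]
    show k ∈ foR D p ⊓ Subgroup.centralizer (foR D p : Set G) ↔ _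
    rw [Subgroup.mem_inf, Subgroup.mem_centralizer_iff]
    rfl
  have hconj : ∀ g p k, k ∈ K p → g * k * g⁻¹ ∈ K (g * p * g⁻¹) := by
    intro g p k hk
    rw [hKmem] at hk ⊢
    refine ⟨fo_R_conj hcl g p hk.1, ?_⟩
    intro r hr
    have hr0 : g⁻¹ * r * g ∈ foR D p := fo_R_back hcl g p hr
    have h2 := hk.2 _ hr0
    calc r * (g * k * g⁻¹) = g * (g⁻¹ * r * g * k) * g⁻¹ := by group
      _ = g * (k * (g⁻¹ * r * g)) * g⁻¹ := by rw [h2]
      _ = g * k * g⁻¹ * r := by group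
  obtain ⟨c1, hc1, hne1⟩ := hex x hx c0 hc0
  have hnt : Nontrivial ↥(foR D x) := by
    refine ⟨⟨⟨c0 * c1, Subgroup.subset_closure ⟨c0, hc0, c1, hc1, rfl⟩⟩, 1, ?_⟩⟩
    intro h
    have h1 : c0 * c1 = 1 := congrArg Subtype.val h
    apply hne1
    have h2 : c0 = c1⁻¹ := eq_inv_of_mul_eq_one_left h1
    rw [h2, tt_inv hs hc1.1]
  haveI := (hR3 x hx).center_nontrivial
  obtain ⟨z, hzne⟩ := exists_ne (1 : ↥(Subgroup.center ↥(foR D x)))
  have hzK : ((z : ↥(foR D x)) : G) ∈ K x := by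
    rw [hKmem]
    refine ⟨(z : ↥(foR D x)).2, ?_⟩
    intro r hr
    have h1 := Subgroup.mem_center_iff.mp z.2 ⟨r, hr⟩
    exact congrArg Subtype.val h1
  have hz1 : ((z : ↥(foR D x)) : G) ≠ 1 := by
    intro h
    apply hzne
    apply Subtype.ext; apply Subtype.ext; exact h
  have hmv : ∃ c ∈ ttDc D x, ¬ Commute ((z : ↥(foR D x)) : G) c := by
    by_contra hno
    push_neg at hno
    apply hz1
    have hzZ : ((z : ↥(foR D x)) : G) ∈ foZ D x := by
      refine ⟨(z : ↥(foR D x)).2, ?_⟩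
      show ((z : ↥(foR D x)) : G) ∈ Subgroup.centralizer (ttDc D x)
      rw [Subgroup.mem_centralizer_iff]
      intro c hc
      exact (hno c hc).eq.symm
    rw [hZ x hx c0 hc0] at hzZ
    exact Subgroup.mem_bot.mp hzZ
  obtain ⟨c, hc, hzc⟩ := hmv
  have hK : FKHyp D K := by
    refine ⟨hconj, ?_, ?_, fo_move hsol hperf hD hconj hx hc hzK hzc⟩
    · intro p hp k hk
      rw [hKmem] at hk
      exact fo_H_comm (fo_R_le_H p hk.1)
    · intro p hp k hk hkk
      rw [hKmem] at hk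
      obtain ⟨n, hn⟩ := (hR3 p hp) ⟨k, hk.1⟩
      have h1 : k ^ 3 ^ n = 1 := congrArg Subtype.val hn
      have h2 : k ^ 2 = 1 := by rw [pow_two]; exact hkk
      have h3 : orderOf k ∣ 3 ^ n := orderOf_dvd_of_pow_eq_one h1
      have h4 : orderOf k ∣ 2 := orderOf_dvd_of_pow_eq_one h2
      have hcop : Nat.Coprime (3 ^ n) 2 := Nat.Coprime.pow_left n (by norm_num)
      have h5 : orderOf k ∣ 1 := by
        have := Nat.dvd_gcd h3 h4
        rwa [hcop.gcd_eq_one] at this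
      exact orderOf_eq_one_iff.mp (Nat.dvd_one.mp h5)
  have hle : ∀ r ∈ foR D x, r ∈ K x := by
    intro r hr
    exact (Subgroup.closure_le (K x)).mpr (by
      rintro g ⟨c, hc, d, hd, rfl⟩
      exact fk_m1 hsol hperf hD hK hx hc hd) hr
  intro a ha b hb
  have h1 := (hKmem x a).mp (hle a ha)
  exact (h1.2 b hb).symm

theorem fo_cube (hs : Cfsg.IsThreeTranspositionSet D) {x : G}
    (hpair : ∀ c ∈ ttDc D x, ∀ d ∈ ttDc D x, c ≠ d → ¬ Commute c d)
    (hab : ∀ a ∈ foR D x, ∀ b ∈ foR D x, a * b = b * a) {r : G} (hr : r ∈ foR D x) :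
    r ^ 3 = 1 := by
  have hr' : r ∈ Subgroup.closure {g : G | ∃ c ∈ ttDc D x, ∃ d ∈ ttDc D x, g = c * d} := hr
  induction hr' using Subgroup.closure_induction with
  | mem s hs' =>
    obtain ⟨c, hc, d, hd, rfl⟩ := hs'
    by_cases hcd : c = d
    · rw [hcd, tt_sq hs hd.1, one_pow]
    · exact tt_cube hs hc.1 hd.1 (hpair c hc d hd hcd)
  | one => exact one_pow 3
  | mul a b ha hb iha ihb =>
    have hc : Commute a b := hab a ha b hb
    rw [hc.mul_pow, iha ha, ihb hb, one_mul]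
  | inv a ha iha => rw [inv_pow, iha ha, inv_one]

theorem fo_inv (hs : Cfsg.IsThreeTranspositionSet D) {x : G}
    (hab : ∀ a ∈ foR D x, ∀ b ∈ foR D x, a * b = b * a) {d : G} (hd : d ∈ ttDc D x) {r : G}
    (hr : r ∈ foR D x) : d * r * d = r⁻¹ := by
  have hdd := tt_sq hs hd.1
  have hr' : r ∈ Subgroup.closure {g : G | ∃ c ∈ ttDc D x, ∃ d ∈ ttDc D x, g = c * d} := hr
  induction hr' using Subgroup.closure_induction with
  | mem s hs' =>
    obtain ⟨c, hc, c', hc', rfl⟩ := hs'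
    have h1 := hab (d * c) (Subgroup.subset_closure ⟨d, hd, c, hc, rfl⟩) (c' * d)
      (Subgroup.subset_closure ⟨c', hc', d, hd, rfl⟩)
    calc d * (c * c') * d = (d * c) * (c' * d) := by group
      _ = (c' * d) * (d * c) := h1
      _ = c' * (d * d) * c := by group
      _ = c' * c := by rw [hdd, mul_one]
      _ = (c * c')⁻¹ := by rw [mul_inv_rev, tt_inv hs hc.1, tt_inv hs hc'.1]
  | one => rw [mul_one, hdd, inv_one]
  | mul a b ha hb iha ihb =>
    have hc : a * b = b * a := hab a ha b hb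
    calc d * (a * b) * d = d * a * (d * d) * b * d := by rw [hdd]; group
      _ = (d * a * d) * (d * b * d) := by group
      _ = a⁻¹ * b⁻¹ := by rw [iha ha, ihb hb]
      _ = (b * a)⁻¹ := by rw [mul_inv_rev]
      _ = (a * b)⁻¹ := by rw [hc]
  | inv a ha iha =>
    calc d * a⁻¹ * d = (d * a * d)⁻¹ := by
          rw [mul_inv_rev, mul_inv_rev, tt_inv hs hd.1, mul_assoc]
      _ = a⁻¹⁻¹ := by rw [iha ha]

theorem fo_tf [Finite G]
    (hsol : ∀ N : Subgroup G, N.Normal → Group.IsSolvable ↥N → N = ⊥)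
    (hperf : ⁅commutator G, commutator G⁆ = commutator G)
    (hD : Cfsg.IsThreeTranspositionClass D)
    (hpair : ∀ p ∈ D, ∀ c ∈ ttDc D p, ∀ d ∈ ttDc D p, c ≠ d → ¬ Commute c d)
    (hab : ∀ p ∈ D, ∀ a ∈ foR D p, ∀ b ∈ foR D p, a * b = b * a)
    {d f x y : G} (hd : d ∈ D) (hf : f ∈ D) (hdf : ¬ Commute d f) (hx : x ∈ ttDc D d)
    (hy : y ∈ ttDc D d) (hxf : Commute f x) (hyf : Commute f y) (hxy : x ≠ y) : False := by
  have hs := hD.1
  have hnc : ¬ Commute x y := hpair d hd x hx y hy hxy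
  have hinv : ∀ z ∈ ttDc D d, z * (x * y) * z = y * x := by
    intro z hz
    have h1 := hab d hd (z * x) (Subgroup.subset_closure ⟨z, hz, x, hx, rfl⟩) (y * z)
      (Subgroup.subset_closure ⟨y, hy, z, hz, rfl⟩)
    calc z * (x * y) * z = (z * x) * (y * z) := by group
      _ = (y * z) * (z * x) := h1
      _ = y * (z * z) * x := by group
      _ = y * x := by rw [tt_sq hs hz.1, mul_one]
  have hfc : f * (x * y) * f = x * y := by
    calc f * (x * y) * f = (f * x) * (y * f) := by group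
      _ = (x * f) * (f * y) := by rw [hxf.eq, hyf.eq]
      _ = x * (f * f) * y := by group
      _ = x * y := by rw [tt_sq hs hf, mul_one]
  have hfc' : f * (y * x) * f = y * x := by
    calc f * (y * x) * f = (f * y) * (x * f) := by group
      _ = (y * f) * (f * x) := by rw [hyf.eq, hxf.eq]
      _ = y * (f * f) * x := by group
      _ = y * x := by rw [tt_sq hs hf, mul_one]
  apply fk_tf hsol hperf hD hd hf hdf ?_ hd hx
  intro z hzD hdz hzd
  have hz : z ∈ ttDc D d := ⟨hzD, hzd, hdz⟩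
  by_contra hfz
  have hbr : f * z * f = z * f * z := tt_braid hs hf hzD hfz
  apply hnc
  have hinv' : z * (y * x) * z = x * y := by
    have h1 := hinv z hz
    calc z * (y * x) * z = z * (z * (x * y) * z) * z := by rw [h1]
      _ = (z * z) * (x * y) * (z * z) := by group
      _ = x * y := by rw [tt_sq hs hzD, one_mul, mul_one]
  have e1 : (z * f * z) * (x * y) * (z * f * z) = x * y := by
    calc (z * f * z) * (x * y) * (z * f * z) = z * (f * (z * (x * y) * z) * f) * z := by group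
      _ = z * (f * (y * x) * f) * z := by rw [hinv z hz]
      _ = z * (y * x) * z := by rw [hfc']
      _ = x * y := hinv'
  have e2 : (f * z * f) * (x * y) * (f * z * f) = y * x := by
    calc (f * z * f) * (x * y) * (f * z * f) = f * (z * (f * (x * y) * f) * z) * f := by group
      _ = f * (z * (x * y) * z) * f := by rw [hfc]
      _ = f * (y * x) * f := by rw [hinv z hz]
      _ = y * x := hfc'
  rw [hbr] at e2
  exact e1.symm.trans e2

theorem fo_V4 (hs : Cfsg.IsThreeTranspositionSet D) {d p y : G} (hd : d ∈ D) (hp : p ∈ D)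
    (hy : y ∈ D) (hdy : Commute d y) (hdp : ¬ Commute d p) (hpy : ¬ Commute p y) :
    (d * y) * (p * (d * y) * p) = (p * (d * y) * p) * (d * y) ∧
    (d * y) * (d * (p * (d * y) * p) * d) = p * (d * y) * p := by
  have c : d * y = y * d := hdy.eq
  have b1 : d * p * d = p * d * p := tt_braid hs hd hp hdp
  have b2 : p * y * p = y * p * y := tt_braid hs hp hy hpy
  have dd := tt_sq hs hd
  have pp := tt_sq hs hp
  constructor
  · calc d * y * (p * (d * y) * p)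
        = d * y * p * d * y * p := by group
      _ = y * d * p * d * y * p := by rw [c]
      _ = y * (d * p * d) * y * p := by group
      _ = y * (p * d * p) * y * p := by rw [b1]
      _ = y * p * d * (p * y * p) := by group
      _ = y * p * d * (y * p * y) := by rw [b2]
      _ = y * p * (d * y) * p * y := by group
      _ = y * p * (y * d) * p * y := by rw [c]
      _ = (y * p * y) * d * p * y := by group
      _ = (p * y * p) * d * p * y := by rw [← b2]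
      _ = p * y * (p * d * p) * y := by group
      _ = p * y * (d * p * d) * y := by rw [← b1]
      _ = p * (y * d) * p * (d * y) := by group
      _ = p * (d * y) * p * (d * y) := by rw [← c]
  · calc d * y * (d * (p * (d * y) * p) * d)
        = (d * y) * d * p * (d * y) * p * d := by group
      _ = (y * d) * d * p * (y * d) * p * d := by rw [c]
      _ = y * (d * d) * p * y * (d * p * d) := by group
      _ = y * p * y * (p * d * p) := by rw [dd, mul_one, b1]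
      _ = (y * p * y) * p * d * p := by group
      _ = (p * y * p) * p * d * p := by rw [← b2]
      _ = p * y * (p * p) * d * p := by group
      _ = p * (y * d) * p := by rw [pp]; group
      _ = p * (d * y) * p := by rw [← c]

theorem fo_V (hs : Cfsg.IsThreeTranspositionSet D) {d p y : G} (hd : d ∈ D) (hp : p ∈ D)
    (hy : y ∈ D) (hdy : Commute d y) (hdp : ¬ Commute d p) (hpy : ¬ Commute p y) :
    Commute (d * y) ((d * p) * (d * y) * (d * p)⁻¹) ∧
    (d * y) * ((d * p) * (d * y) * (d * p)⁻¹) = (d * p)⁻¹ * (d * y) * (d * p) := by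
  obtain ⟨h1, h2⟩ := fo_V4 hs hd hp hy hdy hdp hpy
  have hdd := tt_sq hs hd
  have hyy := tt_sq hs hy
  have e1 : (d * p) * (d * y) * (d * p)⁻¹ = d * (p * (d * y) * p) * d := by
    rw [mul_inv_rev, tt_inv hs hd, tt_inv hs hp]; group
  have e2 : (d * p)⁻¹ * (d * y) * (d * p) = p * (d * y) * p := by
    rw [mul_inv_rev, tt_inv hs hd, tt_inv hs hp]
    calc p * d * (d * y) * (d * p) = p * (d * d) * (y * d) * p := by group
      _ = p * (d * y) * p := by rw [hdd, mul_one, ← hdy.eq]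
  have htt : (d * y) * (d * y) = 1 := by
    calc (d * y) * (d * y) = d * (y * d) * y := by group
      _ = d * (d * y) * y := by rw [← hdy.eq]
      _ = (d * d) * (y * y) := by group
      _ = 1 := by rw [hdd, hyy, one_mul]
  have h3 : d * (p * (d * y) * p) * d = (d * y) * (p * (d * y) * p) := by
    calc d * (p * (d * y) * p) * d
        = ((d * y) * (d * y)) * (d * (p * (d * y) * p) * d) := by rw [htt, one_mul]
      _ = (d * y) * ((d * y) * (d * (p * (d * y) * p) * d)) := by rw [mul_assoc]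
      _ = (d * y) * (p * (d * y) * p) := by rw [h2]
  rw [e1, e2]
  refine ⟨?_, h2⟩
  show (d * y) * (d * (p * (d * y) * p) * d) = (d * (p * (d * y) * p) * d) * (d * y)
  rw [h2, h3, h1, mul_assoc (p * (d * y) * p), htt, mul_one]

theorem fo_Vr [Finite G]
    (hsol : ∀ N : Subgroup G, N.Normal → Group.IsSolvable ↥N → N = ⊥)
    (hperf : ⁅commutator G, commutator G⁆ = commutator G)
    (hD : Cfsg.IsThreeTranspositionClass D)
    (hpair : ∀ p ∈ D, ∀ c ∈ ttDc D p, ∀ d ∈ ttDc D p, c ≠ d → ¬ Commute c d)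
    (hab : ∀ p ∈ D, ∀ a ∈ foR D p, ∀ b ∈ foR D p, a * b = b * a)
    {x d y r : G} (hx : x ∈ D) (hd : d ∈ ttDc D x) (hy : y ∈ ttDc D d) (hyx : y ≠ x)
    (hr : r ∈ foR D x) (hr1 : r ≠ 1) :
    Commute (d * y) (r * (d * y) * r⁻¹) ∧
    (d * y) * (r * (d * y) * r⁻¹) = r⁻¹ * (d * y) * r := by
  have hs := hD.1
  have hcl := tt_class_closed hD
  have hr3 : r ^ 3 = 1 := fo_cube hs (hpair x hx) (hab x hx) hr
  have hinv : d * r * d = r⁻¹ := fo_inv hs (hab x hx) hd hr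
  have hrx : Commute r x := fo_H_comm (fo_R_le_H x hr)
  have hp : r * d * r⁻¹ ∈ ttDc D x := fo_stab hcl hrx hd
  have hrr : r⁻¹ * r⁻¹ = r := by
    calc r⁻¹ * r⁻¹ = r⁻¹ * r⁻¹ * r ^ 3 := by rw [hr3, mul_one]
      _ = r := by group
  have hrp : r = d * (r * d * r⁻¹) := by
    calc r = r⁻¹ * r⁻¹ := hrr.symm
      _ = (d * r * d) * r⁻¹ := by rw [hinv]
      _ = d * (r * d * r⁻¹) := by group
  have hpd : r * d * r⁻¹ ≠ d := by
    intro h
    apply hr1
    have h1 : r * d = d * r := by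
      calc r * d = r * d * r⁻¹ * r := by group
        _ = d * r := by rw [h]
    have h2 : r⁻¹ = r := by
      rw [← hinv]
      calc d * r * d = d * (r * d) := by group
        _ = d * (d * r) := by rw [h1]
        _ = (d * d) * r := by group
        _ = r := by rw [tt_sq hs hd.1, one_mul]
    rw [h2] at hrr
    have h3 : r ^ 3 = r := by rw [pow_succ, pow_two, hrr, hrr]
    rw [hr3] at h3
    exact h3.symm
  have hdp : ¬ Commute d (r * d * r⁻¹) := hpair x hx d hd _ hp (fun h => hpd h.symm)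
  have hxd : x ∈ ttDc D d := ⟨hx, fun h => hd.2.1 h.symm, hd.2.2.symm⟩
  have hpy : ¬ Commute (r * d * r⁻¹) y := by
    intro hc
    exact fo_tf hsol hperf hD hpair hab hd.1 hp.1 hdp hxd hy hp.2.2.symm hc
      (fun h => hyx h.symm)
  have hV := fo_V hs hd.1 hp.1 hy.1 hy.2.2 hdp hpy
  rw [← hrp] at hV
  exact hV

theorem fo_W [Finite G]
    (hsol : ∀ N : Subgroup G, N.Normal → Group.IsSolvable ↥N → N = ⊥)
    (hperf : ⁅commutator G, commutator G⁆ = commutator G)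
    (hD : Cfsg.IsThreeTranspositionClass D)
    (hpair : ∀ p ∈ D, ∀ c ∈ ttDc D p, ∀ d ∈ ttDc D p, c ≠ d → ¬ Commute c d)
    (hab : ∀ p ∈ D, ∀ a ∈ foR D p, ∀ b ∈ foR D p, a * b = b * a)
    {x d y u v : G} (hx : x ∈ D) (hd : d ∈ ttDc D x) (hy : y ∈ ttDc D d) (hyx : y ≠ x)
    (hu : u ∈ foR D x) (hv : v ∈ foR D x) (huv : u ≠ v) :
    Commute (u * (d * y) * u⁻¹) (v * (d * y) * v⁻¹) ∧
    (u * (d * y) * u⁻¹) * (v * (d * y) * v⁻¹) =
      (u⁻¹ * v⁻¹) * (d * y) * (u⁻¹ * v⁻¹)⁻¹ := by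
  have hs := hD.1
  have hr : u⁻¹ * v ∈ foR D x := Subgroup.mul_mem _ (Subgroup.inv_mem _ hu) hv
  have hr1 : u⁻¹ * v ≠ 1 := by
    intro h
    exact huv (inv_mul_eq_one.mp h)
  obtain ⟨h1, h2⟩ := fo_Vr hsol hperf hD hpair hab hx hd hy hyx hr hr1
  have hu3 : u ^ 3 = 1 := fo_cube hs (hpair x hx) (hab x hx) hu
  have huvc : u * v = v * u := hab x hx u hu v hv
  have e1 : v * (d * y) * v⁻¹ = u * ((u⁻¹ * v) * (d * y) * (u⁻¹ * v)⁻¹) * u⁻¹ := by group
  have e3 : u⁻¹ * v⁻¹ = u * (u⁻¹ * v)⁻¹ := by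
    have hui : u⁻¹ = u * u := by
      have h : u * u * u = 1 := by rw [← hu3, pow_succ, pow_two]
      exact inv_eq_of_mul_eq_one_right (by rw [← mul_assoc]; exact h)
    have hc : v⁻¹ * u = u * v⁻¹ := by
      calc v⁻¹ * u = v⁻¹ * (u * v) * v⁻¹ := by group
        _ = v⁻¹ * (v * u) * v⁻¹ := by rw [huvc]
        _ = u * v⁻¹ := by group
    calc u⁻¹ * v⁻¹ = u * u * v⁻¹ := by rw [hui]
      _ = u * (u * v⁻¹) := by group
      _ = u * (v⁻¹ * u) := by rw [hc]
      _ = u * (u⁻¹ * v)⁻¹ := by group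
  have e2 : (u⁻¹ * v⁻¹) * (d * y) * (u⁻¹ * v⁻¹)⁻¹ =
      u * ((u⁻¹ * v)⁻¹ * (d * y) * (u⁻¹ * v)) * u⁻¹ := by
    rw [e3]; group
  rw [e1, e2]
  have h1' := h1.eq
  constructor
  · show u * (d * y) * u⁻¹ * (u * (u⁻¹ * v * (d * y) * (u⁻¹ * v)⁻¹) * u⁻¹) =
      u * (u⁻¹ * v * (d * y) * (u⁻¹ * v)⁻¹) * u⁻¹ * (u * (d * y) * u⁻¹)
    calc u * (d * y) * u⁻¹ * (u * (u⁻¹ * v * (d * y) * (u⁻¹ * v)⁻¹) * u⁻¹)
        = u * ((d * y) * (u⁻¹ * v * (d * y) * (u⁻¹ * v)⁻¹)) * u⁻¹ := by group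
      _ = u * ((u⁻¹ * v * (d * y) * (u⁻¹ * v)⁻¹) * (d * y)) * u⁻¹ := by rw [h1']
      _ = u * (u⁻¹ * v * (d * y) * (u⁻¹ * v)⁻¹) * u⁻¹ * (u * (d * y) * u⁻¹) := by group
  · calc u * (d * y) * u⁻¹ * (u * (u⁻¹ * v * (d * y) * (u⁻¹ * v)⁻¹) * u⁻¹)
        = u * ((d * y) * (u⁻¹ * v * (d * y) * (u⁻¹ * v)⁻¹)) * u⁻¹ := by group
      _ = u * ((u⁻¹ * v)⁻¹ * (d * y) * (u⁻¹ * v)) * u⁻¹ := by rw [h2]

theorem fo_lines [Finite G]
    (hsol : ∀ N : Subgroup G, N.Normal → Group.IsSolvable ↥N → N = ⊥)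
    (hperf : ⁅commutator G, commutator G⁆ = commutator G)
    (hD : Cfsg.IsThreeTranspositionClass D)
    (hpair : ∀ p ∈ D, ∀ c ∈ ttDc D p, ∀ d ∈ ttDc D p, c ≠ d → ¬ Commute c d)
    (hex : ∀ p ∈ D, ∀ d ∈ ttDc D p, ∃ d' ∈ ttDc D p, d' ≠ d)
    (hab : ∀ p ∈ D, ∀ a ∈ foR D p, ∀ b ∈ foR D p, a * b = b * a)
    {x d e f : G} (hx : x ∈ D) (hd : d ∈ ttDc D x) (he : e ∈ ttDc D x) (hf : f ∈ ttDc D x)
    (hde : d ≠ e) : f = d ∨ f = e ∨ f = d * e * d := by
  have hs := hD.1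
  by_contra hcon
  push_neg at hcon
  obtain ⟨hfd, hfe, hfded⟩ := hcon
  have hxd : x ∈ ttDc D d := ⟨hx, fun h => hd.2.1 h.symm, hd.2.2.symm⟩
  obtain ⟨y, hy, hyx⟩ := hex d hd.1 x hxd
  have hdd := tt_sq hs hd.1
  have hee := tt_sq hs he.1
  have hyy := tt_sq hs hy.1
  have hr1 : d * e ∈ foR D x := Subgroup.subset_closure ⟨d, hd, e, he, rfl⟩
  have hr2 : d * f ∈ foR D x := Subgroup.subset_closure ⟨d, hd, f, hf, rfl⟩
  have h1R : (1 : G) ∈ foR D x := Subgroup.one_mem _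
  obtain ⟨T, hT⟩ : ∃ T : G → G, T = fun g => g * (d * y) * g⁻¹ := ⟨_, rfl⟩
  have hW : ∀ u ∈ foR D x, ∀ v ∈ foR D x, u ≠ v →
      Commute (T u) (T v) ∧ T u * T v = T (u⁻¹ * v⁻¹) := by
    intro u hu v hv huv
    rw [hT]
    exact fo_W hsol hperf hD hpair hab hx hd hy hyx hu hv huv
  have hT1 : T 1 = d * y := by rw [hT]; simp
  have hi1 : (d * e)⁻¹ = e * d := by rw [mul_inv_rev, tt_inv hs hd.1, tt_inv hs he.1]
  have hi2 : (d * f)⁻¹ = f * d := by rw [mul_inv_rev, tt_inv hs hd.1, tt_inv hs hf.1]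
  have n1 : (1 : G) ≠ d * e := by
    intro h
    apply hde
    have h2 : d = e⁻¹ := eq_inv_of_mul_eq_one_left h.symm
    rw [h2, tt_inv hs he.1]
  have n2 : (1 : G) ≠ d * f := by
    intro h
    apply hfd
    have h2 : d = f⁻¹ := eq_inv_of_mul_eq_one_left h.symm
    rw [h2, tt_inv hs hf.1]
  have n3 : d * e ≠ d * f := fun h => hfe (mul_left_cancel h).symm
  have n4 : (1 : G) ≠ (d * e)⁻¹ * (d * f)⁻¹ := by
    intro h
    apply hfded
    rw [hi1, hi2] at h
    calc f = d * (e * e) * d * f * (d * d) := by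
          rw [hee, hdd, mul_one, mul_one, hdd, one_mul]
      _ = d * e * (e * d * (f * d)) * d := by group
      _ = d * e * d := by rw [← h, mul_one]
  have n5 : (d * e)⁻¹ ≠ (d * f)⁻¹ := fun h => n3 (inv_injective h)
  have hcomm : (d * e) * (d * f) = (d * f) * (d * e) := hab x hx _ hr1 _ hr2
  have hR1i : (d * e)⁻¹ ∈ foR D x := Subgroup.inv_mem _ hr1
  have hR2i : (d * f)⁻¹ ∈ foR D x := Subgroup.inv_mem _ hr2
  obtain ⟨c1, p1⟩ := hW 1 h1R _ hr1 n1
  obtain ⟨c2, p2⟩ := hW 1 h1R _ hr2 n2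
  obtain ⟨c3, p3⟩ := hW _ hr1 _ hr2 n3
  obtain ⟨c4, p4⟩ := hW 1 h1R _ (Subgroup.mul_mem _ hR1i hR2i) n4
  obtain ⟨c5, p5⟩ := hW _ hR1i _ hR2i n5
  have a1 : (1 : G)⁻¹ * (d * e)⁻¹ = (d * e)⁻¹ := by rw [inv_one, one_mul]
  have a2 : (1 : G)⁻¹ * (d * f)⁻¹ = (d * f)⁻¹ := by rw [inv_one, one_mul]
  have a4 : (1 : G)⁻¹ * ((d * e)⁻¹ * (d * f)⁻¹)⁻¹ = (d * e) * (d * f) := by
    rw [inv_one, one_mul, mul_inv_rev, inv_inv, inv_inv, hcomm]
  have a5 : (d * e)⁻¹⁻¹ * (d * f)⁻¹⁻¹ = (d * e) * (d * f) := by rw [inv_inv, inv_inv]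
  rw [a1] at p1
  rw [a2] at p2
  rw [a4, ← p3] at p4
  rw [a5, ← p1, ← p2] at p5
  have htt : T 1 * T 1 = 1 := by
    rw [hT1]
    calc (d * y) * (d * y) = d * (y * d) * y := by group
      _ = d * (d * y) * y := by rw [← hy.2.2.eq]
      _ = (d * d) * (y * y) := by group
      _ = 1 := by rw [hdd, hyy, one_mul]
  have h6 : T 1 * (T (d * e) * T (d * f)) = T (d * e) * T (d * f) := by
    rw [p4, ← p5]
    calc T 1 * T (d * e) * (T 1 * T (d * f))
        = T 1 * (T (d * e) * T 1) * T (d * f) := by group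
      _ = T 1 * (T 1 * T (d * e)) * T (d * f) := by rw [c1.eq]
      _ = (T 1 * T 1) * T (d * e) * T (d * f) := by group
      _ = T (d * e) * T (d * f) := by rw [htt, one_mul]
  have h7 : T 1 = 1 :=
    mul_right_cancel (b := T (d * e) * T (d * f)) (a := T 1) (c := 1)
      (by rw [one_mul]; exact h6)
  rw [hT1] at h7
  apply hy.2.1
  have h8 : d = y⁻¹ := eq_inv_of_mul_eq_one_left h7
  rw [← tt_inv hs hy.1, ← h8]

theorem fo_nonempty {x : G}
    (h : ¬ Cfsg.oddCore ↥(Subgroup.closure {y : G | y ∈ D ∧ y ≠ x ∧ Commute x y}) ≤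
      Subgroup.center ↥(Subgroup.closure {y : G | y ∈ D ∧ y ≠ x ∧ Commute x y})) :
    ∃ c, c ∈ ttDc D x := by
  by_contra hno
  push_neg at hno
  apply h
  intro k0 hk0
  rw [Subgroup.mem_center_iff]
  intro g
  have hle : Subgroup.closure (ttDc D x) ≤ ⊥ := by
    rw [Subgroup.closure_le]
    intro c hc
    exact absurd hc (hno c)
  have hg : (g : G) = 1 := Subgroup.mem_bot.mp (hle g.2)
  apply Subtype.ext
  show (g : G) * k0 = k0 * g
  rw [hg, one_mul, mul_one]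

end FischerO3

end Cfsg.Agent.Lib.helper8
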