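import Mathlib
import Cfsg.Prelude.Def_SporadicB
import Cfsg.Agent.Lib.helper8.Fischer
import Cfsg.Agent.Lib.helper8.FischerK
import Cfsg.Agent.Lib.helper8.FischerO3
import Cfsg.Agent.S0144

set_option autoImplicit false

namespace Cfsg.Agent.Lib.helper8

section FischerS5
variable {G : Type*} [Group G] {D : Set G}

def foRel (D : Set G) (p q : G) : Prop :=
  ∀ S' : Set G, (∀ a ∈ S', ∀ b ∈ ttDc D a, b ∈ S') → (p ∈ S' ↔ q ∈ S')

theorem fo_gen [Finite G]
    (hsol : ∀ N : Subgroup G, N.Normal → Group.IsSolvable ↥N → N = ⊥)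
    (hperf : ⁅commutator G, commutator G⁆ = commutator G)
    (hD : Cfsg.IsThreeTranspositionClass D)
    (hlines : ∀ x ∈ D, ∀ d ∈ ttDc D x, ∀ e ∈ ttDc D x, ∀ f ∈ ttDc D x, d ≠ e →
      f = d ∨ f = e ∨ f = d * e * d)
    {x d e y : G} (hx : x ∈ D) (hd : d ∈ ttDc D x) (he : e ∈ ttDc D x) (hde : d ≠ e)
    (hy : y ∈ ttDc D d) (nde : ¬ Commute d e) (ney : ¬ Commute e y) (nyx : ¬ Commute y x) :
    Subgroup.closure ({d, e, y, x} : Set G) = ⊤ := by
  have hs := hD.1
  have hcl := tt_class_closed hD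
  have xx := tt_sq hs hx
  have yy := tt_sq hs hy.1
  have ee := tt_sq hs he.1
  have dd := tt_sq hs hd.1
  have b_xy : x * y * x = y * x * y := tt_braid hs hx hy.1 (fun h => nyx h.symm)
  have b_ye : y * e * y = e * y * e := tt_braid hs hy.1 he.1 (fun h => ney h.symm)
  have b_ed : e * d * e = d * e * d := tt_braid hs he.1 hd.1 (fun h => nde h.symm)
  have hxd : x ∈ ttDc D d := ⟨hx, fun h => hd.2.1 h.symm, hd.2.2.symm⟩
  obtain ⟨W, hWdef⟩ : ∃ W : Subgroup G, W = Subgroup.closure {d, e, y, x} := ⟨_, rfl⟩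
  have hdW : d ∈ W := by rw [hWdef]; exact Subgroup.subset_closure (by simp)
  have heW : e ∈ W := by rw [hWdef]; exact Subgroup.subset_closure (by simp)
  have hyW : y ∈ W := by rw [hWdef]; exact Subgroup.subset_closure (by simp)
  have hxW : x ∈ W := by rw [hWdef]; exact Subgroup.subset_closure (by simp)
  obtain ⟨S, hSdef⟩ : ∃ S : Set G, S = {q | ∃ w ∈ W, q = w * x * w⁻¹} := ⟨_, rfl⟩
  have hSconj : ∀ w ∈ W, ∀ q ∈ S, w * q * w⁻¹ ∈ S := by
    intro w hw q hq
    rw [hSdef] at hq ⊢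
    obtain ⟨w', hw', rfl⟩ := hq
    exact ⟨w * w', W.mul_mem hw hw', by group⟩
  have hxS : x ∈ S := by rw [hSdef]; exact ⟨1, W.one_mem, by group⟩
  have hbc : ∀ a b : G, a * a = 1 → b * b = 1 → a * b * a = b * a * b →
      (a * b) * a * (a * b)⁻¹ = b := by
    intro a b haa hbb hbr
    have hi : (a * b)⁻¹ = b * a := by
      rw [mul_inv_rev, inv_eq_of_mul_eq_one_left haa, inv_eq_of_mul_eq_one_left hbb]
    rw [hi]
    calc a * b * a * (b * a) = (a * b * a) * b * a := by group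
      _ = (b * a * b) * b * a := by rw [hbr]
      _ = b * a * (b * b) * a := by group
      _ = b * (a * a) := by rw [hbb]; group
      _ = b := by rw [haa, mul_one]
  have hyS : y ∈ S := by
    have h1 := hSconj (x * y) (W.mul_mem hxW hyW) x hxS
    rwa [hbc x y xx yy b_xy] at h1
  have heS : e ∈ S := by
    have h1 := hSconj (y * e) (W.mul_mem hyW heW) y hyS
    rwa [hbc y e yy ee b_ye] at h1
  have hdS : d ∈ S := by
    have h1 := hSconj (e * d) (W.mul_mem heW hdW) e heS
    rwa [hbc e d ee dd b_ed] at h1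
  have hdedS : d * e * d ∈ S := by
    have h1 := hSconj d hdW e heS
    rwa [tt_inv hs hd.1] at h1
  have hSW : ∀ q ∈ S, q ∈ W := by
    intro q hq
    rw [hSdef] at hq
    obtain ⟨w, hw, rfl⟩ := hq
    exact W.mul_mem (W.mul_mem hw hxW) (W.inv_mem hw)
  have hSclosed : ∀ a ∈ S, ∀ b ∈ ttDc D a, b ∈ S := by
    intro a ha b hb
    have ha' := ha
    rw [hSdef] at ha'
    obtain ⟨w, hw, rfl⟩ := ha'
    have hb' : w⁻¹ * b * w ∈ ttDc D x := fo_Dc_back hcl w hb
    have h3 : w * (w⁻¹ * b * w) * w⁻¹ = b := by group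
    rcases hlines x hx d hd e he _ hb' hde with h | h | h
    · rw [← h3, h]; exact hSconj w hw d hdS
    · rw [← h3, h]; exact hSconj w hw e heS
    · rw [← h3, h]; exact hSconj w hw _ hdedS
  have hr : Equivalence (foRel D) :=
    ⟨fun p S' _ => Iff.rfl, fun h S' hS' => (h S' hS').symm,
      fun h1 h2 S' hS' => (h1 S' hS').trans (h2 S' hS')⟩
  have hri : ∀ g p q : G, foRel D p q → foRel D (g * p * g⁻¹) (g * q * g⁻¹) := by
    intro g p q h S' hS'
    exact h {a | g * a * g⁻¹ ∈ S'} (fun a ha b hb => hS' _ ha _ (fo_Dc_conj hcl g hb))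
  have hrxd : foRel D x d := fun S' hS' => ⟨fun h => hS' x h d hd, fun h => hS' d h x hxd⟩
  have hall := fischer_primitive hsol hperf hD hr hri hx hd.1 (fun h => hd.2.1 h.symm) hrxd
  have hDW : ∀ q ∈ D, q ∈ W := fun q hq => hSW q ((hall x hx q hq S hSclosed).mp hxS)
  rw [← hWdef, eq_top_iff, ← hD.2.2]
  exact (Subgroup.closure_le W).mpr hDW

theorem fo_Mne [Finite G]
    (hsol : ∀ N : Subgroup G, N.Normal → Group.IsSolvable ↥N → N = ⊥)
    (hD : Cfsg.IsThreeTranspositionClass D) {d e y : G} (hd : d ∈ D) (he : e ∈ D) (hy : y ∈ D)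
    (hyd : y ≠ d) (cdy : Commute d y) (nde : ¬ Commute d e) (ney : ¬ Commute e y) :
    Subgroup.closure ({d, e, y} : Set G) ≠ ⊤ := by
  have hs := hD.1
  intro hM
  have dd := tt_sq hs hd
  have ee := tt_sq hs he
  have yy := tt_sq hs hy
  obtain ⟨h1, h2⟩ := fo_V4 hs hd he hy cdy nde ney
  obtain ⟨-, h2'⟩ := fo_V4 hs hy he hd cdy.symm (fun h => ney h.symm) (fun h => nde h.symm)
  rw [← cdy.eq] at h2'
  obtain ⟨t, ht⟩ : ∃ t : G, t = d * y := ⟨_, rfl⟩
  rw [← ht] at h1 h2 h2'
  obtain ⟨s, hsdef⟩ : ∃ s : G, s = e * t * e := ⟨_, rfl⟩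
  rw [← hsdef] at h1 h2 h2'
  have htt : t * t = 1 := by
    rw [ht]
    calc (d * y) * (d * y) = d * (y * d) * y := by group
      _ = d * (d * y) * y := by rw [← cdy.eq]
      _ = (d * d) * (y * y) := by group
      _ = 1 := by rw [dd, yy, one_mul]
  have hds : d * s * d = t * s := by
    calc d * s * d = (t * t) * (d * s * d) := by rw [htt, one_mul]
      _ = t * (t * (d * s * d)) := by rw [mul_assoc]
      _ = t * s := by rw [h2]
  have hys : y * s * y = t * s := by
    calc y * s * y = (t * t) * (y * s * y) := by rw [htt, one_mul]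
      _ = t * (t * (y * s * y)) := by rw [mul_assoc]
      _ = t * s := by rw [h2']
  have hdt : d * t * d = t := by
    rw [ht]
    calc d * (d * y) * d = (d * d) * (y * d) := by group
      _ = d * y := by rw [dd, one_mul, ← cdy.eq]
  have hyt : y * t * y = t := by
    rw [ht]
    calc y * (d * y) * y = (y * d) * (y * y) := by group
      _ = d * y := by rw [yy, mul_one, ← cdy.eq]
  have hes : e * s * e = t := by
    rw [hsdef]
    calc e * (e * t * e) * e = (e * e) * t * (e * e) := by group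
      _ = t := by rw [ee, one_mul, mul_one]
  obtain ⟨V, hV⟩ : ∃ V : Subgroup G, V = Subgroup.closure {t, s} := ⟨_, rfl⟩
  have htV : t ∈ V := by rw [hV]; exact Subgroup.subset_closure (by simp)
  have hsV : s ∈ V := by rw [hV]; exact Subgroup.subset_closure (by simp)
  have hgen : ∀ g : G, g * t * g ∈ V → g * s * g ∈ V → g⁻¹ = g →
      (∀ v ∈ V, g * v * g⁻¹ ∈ V) ∧ (∀ v ∈ V, g⁻¹ * v * g ∈ V) := by
    intro g h1 h2 hgi
    have key : ∀ v ∈ V, g * v * g ∈ V := by
      intro v hv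
      rw [hV] at hv
      have h3 := fo_closure_conj (T := (V : Set G)) (g := g) (by
        intro u hu
        simp only [Set.mem_insert_iff, Set.mem_singleton_iff] at hu
        rcases hu with hu | hu
        · rw [hu, hgi]; exact h1
        · rw [hu, hgi]; exact h2) hv
      rwa [Subgroup.closure_eq, hgi] at h3
    refine ⟨fun v hv => ?_, fun v hv => ?_⟩
    · rw [hgi]; exact key v hv
    · rw [hgi]; exact key v hv
  have hnorm : ∀ g : G, (∀ v ∈ V, g * v * g⁻¹ ∈ V) ∧ (∀ v ∈ V, g⁻¹ * v * g ∈ V) := by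
    intro g
    have hg : g ∈ Subgroup.closure ({d, e, y} : Set G) := by rw [hM]; trivial
    induction hg using Subgroup.closure_induction with
    | mem u hu =>
      simp only [Set.mem_insert_iff, Set.mem_singleton_iff] at hu
      rcases hu with h | h | h
      · rw [h]
        exact hgen d (by rw [hdt]; exact htV) (by rw [hds]; exact V.mul_mem htV hsV)
          (tt_inv hs hd)
      · rw [h]
        exact hgen e (by rw [← hsdef]; exact hsV) (by rw [hes]; exact htV) (tt_inv hs he)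
      · rw [h]
        exact hgen y (by rw [hyt]; exact htV) (by rw [hys]; exact V.mul_mem htV hsV)
          (tt_inv hs hy)
    | one =>
      refine ⟨fun v hv => ?_, fun v hv => ?_⟩
      · rw [one_mul, inv_one, mul_one]; exact hv
      · rw [inv_one, one_mul, mul_one]; exact hv
    | mul a b _ _ iha ihb =>
      refine ⟨fun v hv => ?_, fun v hv => ?_⟩
      · have h3 := iha.1 _ (ihb.1 v hv)
        have e3 : a * (b * v * b⁻¹) * a⁻¹ = a * b * v * (a * b)⁻¹ := by group
        rwa [e3] at h3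
      · have h3 := ihb.2 _ (iha.2 v hv)
        have e3 : b⁻¹ * (a⁻¹ * v * a) * b = (a * b)⁻¹ * v * (a * b) := by group
        rwa [e3] at h3
    | inv a _ iha =>
      refine ⟨fun v hv => ?_, fun v hv => ?_⟩
      · have h3 := iha.2 v hv
        rwa [inv_inv]
      · have h3 := iha.1 v hv
        rwa [inv_inv]
  have hVn : V.Normal := ⟨fun n hn g => (hnorm g).1 n hn⟩
  have hc1 : V ≤ Subgroup.centralizer ({t, s} : Set G) := by
    rw [hV]
    refine (Subgroup.closure_le _).mpr ?_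
    intro g hg
    simp only [Set.mem_insert_iff, Set.mem_singleton_iff] at hg
    show g ∈ Subgroup.centralizer ({t, s} : Set G)
    rw [Subgroup.mem_centralizer_iff]
    intro u hu
    simp only [Set.mem_insert_iff, Set.mem_singleton_iff] at hu
    rcases hg with hg | hg <;> rcases hu with hu | hu
    · rw [hg, hu]
    · rw [hg, hu]; exact h1.symm
    · rw [hg, hu]; exact h1
    · rw [hg, hu]
  have hc3 : V ≤ Subgroup.centralizer (V : Set G) := by
    conv_lhs => rw [hV]
    refine (Subgroup.closure_le _).mpr ?_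
    intro g hg
    show g ∈ Subgroup.centralizer (V : Set G)
    rw [Subgroup.mem_centralizer_iff]
    intro v hv
    exact (Subgroup.mem_centralizer_iff.mp (hc1 hv) g hg).symm
  have hc2 : ∀ a ∈ V, ∀ b ∈ V, a * b = b * a := by
    intro a ha b hb
    exact (Subgroup.mem_centralizer_iff.mp (hc3 ha) b hb).symm
  have hVsol : Group.IsSolvable ↥V :=
    Group.isSolvable_of_comm (fun a b => Subtype.ext (hc2 a.1 a.2 b.1 b.2))
  have hVbot := hsol V hVn hVsol
  rw [hVbot, Subgroup.mem_bot] at htV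
  apply hyd
  rw [ht] at htV
  have h8 : d = y⁻¹ := eq_inv_of_mul_eq_one_left htV
  rw [h8, tt_inv hs hy]

theorem fo_table (M : Subgroup G) {d e y x : G} (hdM : d ∈ M) (heM : e ∈ M) (hyM : y ∈ M)
    (dd : d * d = 1) (ee : e * e = 1) (yy : y * y = 1) (xx : x * x = 1)
    (cxd : x * d = d * x) (cxe : x * e = e * x) (cdy : d * y = y * d)
    (b_de : d * e * d = e * d * e) (b_ey : e * y * e = y * e * y)
    (b_yx : y * x * y = x * y * x)
    (f : Fin 5 → G ⧸ M)
    (hf : f = ![QuotientGroup.mk 1, QuotientGroup.mk x, QuotientGroup.mk (y * x),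
      QuotientGroup.mk (e * y * x), QuotientGroup.mk (d * e * y * x)]) :
    (x • f 0 = f 1 ∧ x • f 1 = f 0 ∧ x • f 2 = f 2 ∧ x • f 3 = f 3 ∧ x • f 4 = f 4) ∧
    (y • f 0 = f 0 ∧ y • f 1 = f 2 ∧ y • f 2 = f 1 ∧ y • f 3 = f 3 ∧ y • f 4 = f 4) ∧
    (e • f 0 = f 0 ∧ e • f 1 = f 1 ∧ e • f 2 = f 3 ∧ e • f 3 = f 2 ∧ e • f 4 = f 4) ∧
    (d • f 0 = f 0 ∧ d • f 1 = f 1 ∧ d • f 2 = f 2 ∧ d • f 3 = f 4 ∧ d • f 4 = f 3) := by
  subst hf
  have hmk : ∀ a b m : G, m ∈ M → a = b * m →
      (QuotientGroup.mk a : G ⧸ M) = QuotientGroup.mk b := by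
    intro a b m hm h
    rw [h]; exact QuotientGroup.mk_mul_of_mem b hm
  have hmk' : ∀ a b : G, a = b → (QuotientGroup.mk a : G ⧸ M) = QuotientGroup.mk b := by
    intro a b h; rw [h]
  refine ⟨⟨?_, ?_, ?_, ?_, ?_⟩, ⟨?_, ?_, ?_, ?_, ?_⟩, ⟨?_, ?_, ?_, ?_, ?_⟩,
    ⟨?_, ?_, ?_, ?_, ?_⟩⟩
  · exact hmk' (x * 1) x (mul_one x)
  · exact hmk' (x * x) 1 xx
  · refine hmk (x * (y * x)) (y * x) y hyM ?_
    calc x * (y * x) = x * y * x := by group
      _ = y * x * y := b_yx.symm
  · refine hmk (x * (e * y * x)) (e * y * x) y hyM ?_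
    calc x * (e * y * x) = (x * e) * (y * x) := by group
      _ = (e * x) * (y * x) := by rw [cxe]
      _ = e * (x * y * x) := by group
      _ = e * (y * x * y) := by rw [← b_yx]
      _ = e * y * x * y := by group
  · refine hmk (x * (d * e * y * x)) (d * e * y * x) y hyM ?_
    calc x * (d * e * y * x) = (x * d) * (e * y * x) := by group
      _ = (d * x) * (e * y * x) := by rw [cxd]
      _ = d * ((x * e) * (y * x)) := by group
      _ = d * ((e * x) * (y * x)) := by rw [cxe]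
      _ = d * e * (x * y * x) := by group
      _ = d * e * (y * x * y) := by rw [← b_yx]
      _ = d * e * y * x * y := by group
  · exact hmk (y * 1) 1 y hyM (by group)
  · exact hmk' (y * x) (y * x) rfl
  · exact hmk' (y * (y * x)) x (by rw [← mul_assoc, yy, one_mul])
  · refine hmk (y * (e * y * x)) (e * y * x) e heM ?_
    calc y * (e * y * x) = (y * e * y) * x := by group
      _ = (e * y * e) * x := by rw [← b_ey]
      _ = e * y * (e * x) := by group
      _ = e * y * (x * e) := by rw [← cxe]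
      _ = e * y * x * e := by group
  · refine hmk (y * (d * e * y * x)) (d * e * y * x) e heM ?_
    calc y * (d * e * y * x) = (y * d) * (e * y * x) := by group
      _ = (d * y) * (e * y * x) := by rw [← cdy]
      _ = d * ((y * e * y) * x) := by group
      _ = d * ((e * y * e) * x) := by rw [← b_ey]
      _ = d * e * y * (e * x) := by group
      _ = d * e * y * (x * e) := by rw [← cxe]
      _ = d * e * y * x * e := by group
  · exact hmk (e * 1) 1 e heM (by group)
  · exact hmk (e * x) x e heM cxe.symm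
  · exact hmk' (e * (y * x)) (e * y * x) (by group)
  · exact hmk' (e * (e * y * x)) (y * x) (by
      calc e * (e * y * x) = (e * e) * (y * x) := by group
        _ = y * x := by rw [ee, one_mul])
  · refine hmk (e * (d * e * y * x)) (d * e * y * x) d hdM ?_
    calc e * (d * e * y * x) = (e * d * e) * (y * x) := by group
      _ = (d * e * d) * (y * x) := by rw [← b_de]
      _ = d * e * ((d * y) * x) := by group
      _ = d * e * ((y * d) * x) := by rw [cdy]
      _ = d * e * y * (d * x) := by group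
      _ = d * e * y * (x * d) := by rw [← cxd]
      _ = d * e * y * x * d := by group
  · exact hmk (d * 1) 1 d hdM (by group)
  · exact hmk (d * x) x d hdM cxd.symm
  · refine hmk (d * (y * x)) (y * x) d hdM ?_
    calc d * (y * x) = (d * y) * x := by group
      _ = (y * d) * x := by rw [cdy]
      _ = y * (d * x) := by group
      _ = y * (x * d) := by rw [← cxd]
      _ = y * x * d := by group
  · exact hmk' (d * (e * y * x)) (d * e * y * x) (by group)
  · exact hmk' (d * (d * e * y * x)) (e * y * x) (by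
      calc d * (d * e * y * x) = (d * d) * (e * y * x) := by group
        _ = e * y * x := by rw [dd, one_mul])

theorem fo_S5 [Finite G]
    (hsol : ∀ N : Subgroup G, N.Normal → Group.IsSolvable ↥N → N = ⊥)
    (hperf : ⁅commutator G, commutator G⁆ = commutator G)
    (hD : Cfsg.IsThreeTranspositionClass D)
    (hpair : ∀ p ∈ D, ∀ c ∈ ttDc D p, ∀ d ∈ ttDc D p, c ≠ d → ¬ Commute c d)
    (hex : ∀ p ∈ D, ∀ d ∈ ttDc D p, ∃ d' ∈ ttDc D p, d' ≠ d)
    (htf : ∀ d ∈ D, ∀ f ∈ D, ¬ Commute d f → ∀ x ∈ ttDc D d, ∀ y ∈ ttDc D d,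
      Commute f x → Commute f y → x ≠ y → False)
    (hlines : ∀ x ∈ D, ∀ d ∈ ttDc D x, ∀ e ∈ ttDc D x, ∀ f ∈ ttDc D x, d ≠ e →
      f = d ∨ f = e ∨ f = d * e * d)
    {x d : G} (hx : x ∈ D) (hd : d ∈ ttDc D x) : Nonempty (G ≃* Equiv.Perm (Fin 5)) := by
  classical
  have hs := hD.1
  obtain ⟨e, he, hed⟩ := hex x hx d hd
  have hde : d ≠ e := fun h => hed h.symm
  have hxd : x ∈ ttDc D d := ⟨hx, fun h => hd.2.1 h.symm, hd.2.2.symm⟩
  obtain ⟨y, hy, hyx⟩ := hex d hd.1 x hxd
  have nde : ¬ Commute d e := hpair x hx d hd e he hde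
  have nyx : ¬ Commute y x := hpair d hd.1 y hy x hxd hyx
  have ney : ¬ Commute e y := by
    intro h
    exact htf d hd.1 e he.1 nde x hxd y hy he.2.2.symm h (fun h' => hyx h'.symm)
  have xx := tt_sq hs hx
  have yy := tt_sq hs hy.1
  have ee := tt_sq hs he.1
  have dd := tt_sq hs hd.1
  have cxd : x * d = d * x := hd.2.2.eq
  have cxe : x * e = e * x := he.2.2.eq
  have cdy : d * y = y * d := hy.2.2.eq
  have b_de : d * e * d = e * d * e := tt_braid hs hd.1 he.1 nde
  have b_ey : e * y * e = y * e * y := tt_braid hs he.1 hy.1 ney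
  have b_yx : y * x * y = x * y * x := tt_braid hs hy.1 hx nyx
  have hW := fo_gen hsol hperf hD hlines hx hd he hde hy nde ney nyx
  have hMne := fo_Mne hsol hD hd.1 he.1 hy.1 hy.2.1 hy.2.2 nde ney
  obtain ⟨M, hMdef⟩ : ∃ M : Subgroup G, M = Subgroup.closure {d, e, y} := ⟨_, rfl⟩
  rw [← hMdef] at hMne
  have hdM : d ∈ M := by rw [hMdef]; exact Subgroup.subset_closure (by simp)
  have heM : e ∈ M := by rw [hMdef]; exact Subgroup.subset_closure (by simp)
  have hyM : y ∈ M := by rw [hMdef]; exact Subgroup.subset_closure (by simp)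
  obtain ⟨f, hfdef⟩ : ∃ f : Fin 5 → G ⧸ M, f = ![QuotientGroup.mk 1, QuotientGroup.mk x,
      QuotientGroup.mk (y * x), QuotientGroup.mk (e * y * x),
      QuotientGroup.mk (d * e * y * x)] := ⟨_, rfl⟩
  obtain ⟨⟨x0, x1, x2, x3, x4⟩, ⟨y0, y1, y2, y3, y4⟩, ⟨e0, e1, e2, e3, e4⟩,
      ⟨d0, d1, d2, d3, d4⟩⟩ :=
    fo_table M hdM heM hyM dd ee yy xx cxd cxe cdy b_de b_ey b_yx f hfdef
  have hclos : ∀ g : G, (∀ i, ∃ j, g • f i = f j) ∧ (∀ i, ∃ j, g⁻¹ • f i = f j) := by
    intro g
    have hg : g ∈ Subgroup.closure ({d, e, y, x} : Set G) := by rw [hW]; trivial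
    induction hg using Subgroup.closure_induction with
    | mem u hu =>
      simp only [Set.mem_insert_iff, Set.mem_singleton_iff] at hu
      have hgen : (∀ i, ∃ j, u • f i = f j) ∧ u⁻¹ = u := by
        rcases hu with h | h | h | h
        · rw [h]
          refine ⟨fun i => ?_, tt_inv hs hd.1⟩
          fin_cases i
          exacts [⟨0, d0⟩, ⟨1, d1⟩, ⟨2, d2⟩, ⟨4, d3⟩, ⟨3, d4⟩]
        · rw [h]
          refine ⟨fun i => ?_, tt_inv hs he.1⟩
          fin_cases i
          exacts [⟨0, e0⟩, ⟨1, e1⟩, ⟨3, e2⟩, ⟨2, e3⟩, ⟨4, e4⟩]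
        · rw [h]
          refine ⟨fun i => ?_, tt_inv hs hy.1⟩
          fin_cases i
          exacts [⟨0, y0⟩, ⟨2, y1⟩, ⟨1, y2⟩, ⟨3, y3⟩, ⟨4, y4⟩]
        · rw [h]
          refine ⟨fun i => ?_, tt_inv hs hx⟩
          fin_cases i
          exacts [⟨1, x0⟩, ⟨0, x1⟩, ⟨2, x2⟩, ⟨3, x3⟩, ⟨4, x4⟩]
      exact ⟨hgen.1, by rw [hgen.2]; exact hgen.1⟩
    | one => exact ⟨fun i => ⟨i, one_smul _ _⟩, fun i => ⟨i, by rw [inv_one, one_smul]⟩⟩
    | mul a b _ _ iha ihb =>
      constructor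
      · intro i
        obtain ⟨j, hj⟩ := ihb.1 i
        obtain ⟨k, hk⟩ := iha.1 j
        exact ⟨k, by rw [mul_smul, hj, hk]⟩
      · intro i
        obtain ⟨j, hj⟩ := iha.2 i
        obtain ⟨k, hk⟩ := ihb.2 j
        exact ⟨k, by rw [mul_inv_rev, mul_smul, hj, hk]⟩
    | inv a _ iha => exact ⟨iha.2, by rw [inv_inv]; exact iha.1⟩
  have hf0 : f 0 = QuotientGroup.mk 1 := by rw [hfdef]; rfl
  have hfsurj : Function.Surjective f := by
    intro q
    obtain ⟨g, rfl⟩ := QuotientGroup.mk_surjective q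
    obtain ⟨j, hj⟩ := (hclos g).1 0
    refine ⟨j, ?_⟩
    rw [← hj, hf0]
    exact congrArg (QuotientGroup.mk : G → G ⧸ M) (mul_one g)
  obtain ⟨φ, hφ⟩ : ∃ φ : G →* Equiv.Perm (G ⧸ M), φ = MulAction.toPermHom G (G ⧸ M) :=
    ⟨_, rfl⟩
  have hφapp : ∀ (g : G) (q : G ⧸ M), φ g q = g • q := by
    intro g q; rw [hφ]; rfl
  have hcore : M.normalCore = ⊥ := by
    by_contra hK
    apply hMne
    have htr := fischer_normal_transitive hsol hperf hD M.normalCore inferInstance hK d hd.1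
    rw [eq_top_iff, ← hD.2.2]
    refine (Subgroup.closure_le M).mpr ?_
    intro q hq
    obtain ⟨k, hk, rfl⟩ := htr q hq
    have hkM := M.normalCore_le hk
    exact M.mul_mem (M.mul_mem hkM hdM) (M.inv_mem hkM)
  have hinj : Function.Injective φ := by
    rw [← MonoidHom.ker_eq_bot_iff, hφ, ← Subgroup.normalCore_eq_ker]
    exact hcore
  have hx1 : x ≠ 1 := tt_ne_one hs hx
  have hcard : Nat.card (G ⧸ M) = 5 := by
    have hle : Nat.card (G ⧸ M) ≤ 5 := by
      have h1 := Nat.card_le_card_of_surjective f hfsurj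
      rwa [Nat.card_fin] at h1
    by_contra hne
    have h4 : Nat.card (G ⧸ M) ≤ 4 := by omega
    have h1 : Nat.card G ∣ Nat.card (Equiv.Perm (G ⧸ M)) :=
      Subgroup.card_dvd_of_injective φ hinj
    rw [Nat.card_perm] at h1
    have h24 : (4 : ℕ).factorial = 2 ^ 3 * 3 ^ 1 := by decide
    have h2 : Nat.card G ∣ 2 ^ 3 * 3 ^ 1 := by
      rw [← h24]; exact h1.trans (Nat.factorial_dvd_factorial h4)
    obtain ⟨k1, k2, hk1, hk2, hk⟩ := Nat.dvd_mul.mp h2
    obtain ⟨a, -, rfl⟩ := (Nat.dvd_prime_pow Nat.prime_two).mp hk1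
    obtain ⟨b, -, rfl⟩ := (Nat.dvd_prime_pow Nat.prime_three).mp hk2
    haveI hsolG : Group.IsSolvable G :=
      Cfsg.Agent.S0144.result 2 3 a b Nat.prime_two Nat.prime_three hk.symm
    have htop := hsol ⊤ inferInstance inferInstance
    have hxt : x ∈ (⊤ : Subgroup G) := Subgroup.mem_top x
    rw [htop, Subgroup.mem_bot] at hxt
    exact hx1 hxt
  have hbij : Function.Bijective f :=
    hfsurj.bijective_of_nat_card_le (by rw [Nat.card_fin, hcard])
  have hfinj := hbij.1
  have n01 : f 0 ≠ f 1 := hfinj.ne (by decide)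
  have n20 : f 2 ≠ f 0 := hfinj.ne (by decide)
  have n21 : f 2 ≠ f 1 := hfinj.ne (by decide)
  have n30 : f 3 ≠ f 0 := hfinj.ne (by decide)
  have n31 : f 3 ≠ f 1 := hfinj.ne (by decide)
  have n40 : f 4 ≠ f 0 := hfinj.ne (by decide)
  have n41 : f 4 ≠ f 1 := hfinj.ne (by decide)
  have hsw : φ x = Equiv.swap (f 0) (f 1) := by
    ext q
    obtain ⟨i, rfl⟩ := hfsurj q
    rw [hφapp]
    fin_cases i
    · show x • f 0 = (Equiv.swap (f 0) (f 1)) (f 0)
      rw [Equiv.swap_apply_left]; exact x0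
    · show x • f 1 = (Equiv.swap (f 0) (f 1)) (f 1)
      rw [Equiv.swap_apply_right]; exact x1
    · show x • f 2 = (Equiv.swap (f 0) (f 1)) (f 2)
      rw [Equiv.swap_apply_of_ne_of_ne n20 n21]; exact x2
    · show x • f 3 = (Equiv.swap (f 0) (f 1)) (f 3)
      rw [Equiv.swap_apply_of_ne_of_ne n30 n31]; exact x3
    · show x • f 4 = (Equiv.swap (f 0) (f 1)) (f 4)
      rw [Equiv.swap_apply_of_ne_of_ne n40 n41]; exact x4
  haveI : Fintype (G ⧸ M) := Fintype.ofFinite _
  have hrange : φ.range = ⊤ := by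
    apply Equiv.Perm.subgroup_eq_top_of_swap_mem (τ := φ x)
    · rw [Fintype.card_eq_nat_card, hcard]; norm_num
    · rw [Fintype.card_eq_nat_card, Fintype.card_eq_nat_card, hcard]
      have h1 : Nat.card ↥φ.range = Nat.card G :=
        (Nat.card_congr (MonoidHom.ofInjective hinj).toEquiv).symm
      rw [h1, Subgroup.card_eq_card_quotient_mul_card_subgroup M, hcard]
      exact dvd_mul_right 5 _
    · exact ⟨x, rfl⟩
    · exact ⟨f 0, f 1, n01, hsw⟩
  have hsurj : Function.Surjective φ := MonoidHom.range_eq_top.mp hrange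
  exact ⟨(MulEquiv.ofBijective φ ⟨hinj, hsurj⟩).trans
    (Equiv.permCongrHom (Equiv.ofBijective f hbij).symm)⟩

end FischerS5

end Cfsg.Agent.Lib.helper8
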