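import Mathlib
import Cfsg.Agent.Lib.helper8.FischerS5

set_option autoImplicit false

namespace Cfsg.Agent.Lib.helper8

theorem h8f_M24 {Y : Type*} [Group Y] [Finite Y] {p q r : Y}
    (pp : p * p = 1) (qq : q * q = 1) (rr : r * r = 1) (cpr : p * r = r * p)
    (b_pq : p * q * p = q * p * q) (b_qr : q * r * q = r * q * r) :
    Nat.card ↥(Subgroup.closure ({p, q, r} : Set Y)) ≤ 24 := by
  obtain ⟨W, hW⟩ : ∃ W : Fin 4 → Y, W = ![1, r, q * r, p * q * r] := ⟨_, rfl⟩
  obtain ⟨V, hV⟩ : ∃ V : Fin 6 → Y, V = ![1, p, q, p * q, q * p, p * q * p] := ⟨_, rfl⟩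
  have hVstep : ∀ n : Y, (n = 1 ∨ n = p ∨ n = q) → ∀ j : Fin 6, ∃ j' : Fin 6,
      n * V j = V j' := by
    intro n hn j
    rcases hn with h | h | h
    · exact ⟨j, by rw [h, one_mul]⟩
    · rw [h, hV]
      fin_cases j
      · exact ⟨1, mul_one p⟩
      · exact ⟨0, pp⟩
      · exact ⟨3, rfl⟩
      · refine ⟨2, ?_⟩
        show p * (p * q) = q
        rw [← mul_assoc, pp, one_mul]
      · refine ⟨5, ?_⟩
        show p * (q * p) = p * q * p
        rw [mul_assoc]
      · refine ⟨4, ?_⟩
        show p * (p * q * p) = q * p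
        calc p * (p * q * p) = (p * p) * (q * p) := by group
          _ = q * p := by rw [pp, one_mul]
    · rw [h, hV]
      fin_cases j
      · exact ⟨2, mul_one q⟩
      · exact ⟨4, rfl⟩
      · exact ⟨0, qq⟩
      · refine ⟨5, ?_⟩
        show q * (p * q) = p * q * p
        rw [b_pq, mul_assoc]
      · refine ⟨1, ?_⟩
        show q * (q * p) = p
        rw [← mul_assoc, qq, one_mul]
      · refine ⟨3, ?_⟩
        show q * (p * q * p) = p * q
        rw [b_pq]
        calc q * (q * p * q) = (q * q) * (p * q) := by group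
          _ = p * q := by rw [qq, one_mul]
  have hWstep : ∀ g : Y, (g = p ∨ g = q ∨ g = r) → ∀ i : Fin 4, ∃ i' : Fin 4, ∃ n : Y,
      (n = 1 ∨ n = p ∨ n = q) ∧ g * W i = W i' * n := by
    intro g hg i
    rcases hg with h | h | h
    · rw [h, hW]
      fin_cases i
      · refine ⟨0, p, Or.inr (Or.inl rfl), ?_⟩
        show p * 1 = 1 * p
        rw [mul_one, one_mul]
      · exact ⟨1, p, Or.inr (Or.inl rfl), cpr⟩
      · refine ⟨3, 1, Or.inl rfl, ?_⟩
        show p * (q * r) = p * q * r * 1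
        rw [mul_one, mul_assoc]
      · refine ⟨2, 1, Or.inl rfl, ?_⟩
        show p * (p * q * r) = q * r * 1
        calc p * (p * q * r) = (p * p) * (q * r) := by group
          _ = q * r * 1 := by rw [pp, one_mul, mul_one]
    · rw [h, hW]
      fin_cases i
      · refine ⟨0, q, Or.inr (Or.inr rfl), ?_⟩
        show q * 1 = 1 * q
        rw [mul_one, one_mul]
      · refine ⟨2, 1, Or.inl rfl, ?_⟩
        show q * r = q * r * 1
        rw [mul_one]
      · refine ⟨1, 1, Or.inl rfl, ?_⟩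
        show q * (q * r) = r * 1
        rw [← mul_assoc, qq, one_mul, mul_one]
      · refine ⟨3, p, Or.inr (Or.inl rfl), ?_⟩
        show q * (p * q * r) = p * q * r * p
        calc q * (p * q * r) = (q * p * q) * r := by group
          _ = (p * q * p) * r := by rw [b_pq]
          _ = p * q * (p * r) := by group
          _ = p * q * (r * p) := by rw [cpr]
          _ = p * q * r * p := by group
    · rw [h, hW]
      fin_cases i
      · refine ⟨1, 1, Or.inl rfl, ?_⟩
        show r * 1 = r * 1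
        rfl
      · refine ⟨0, 1, Or.inl rfl, ?_⟩
        show r * r = 1 * 1
        rw [rr, mul_one]
      · refine ⟨2, q, Or.inr (Or.inr rfl), ?_⟩
        show r * (q * r) = q * r * q
        rw [b_qr, mul_assoc]
      · refine ⟨3, q, Or.inr (Or.inr rfl), ?_⟩
        show r * (p * q * r) = p * q * r * q
        calc r * (p * q * r) = (r * p) * (q * r) := by group
          _ = (p * r) * (q * r) := by rw [cpr]
          _ = p * (r * q * r) := by group
          _ = p * (q * r * q) := by rw [b_qr]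
          _ = p * q * r * q := by group
  have hstep : ∀ g : Y, (g = p ∨ g = q ∨ g = r) → ∀ (i : Fin 4) (j : Fin 6),
      ∃ (i' : Fin 4) (j' : Fin 6), g * (W i * V j) = W i' * V j' := by
    intro g hg i j
    obtain ⟨i', n, hn, h1⟩ := hWstep g hg i
    obtain ⟨j', h2⟩ := hVstep n hn j
    refine ⟨i', j', ?_⟩
    rw [← mul_assoc, h1, mul_assoc, h2]
  have hmem : ∀ m : Y, m ∈ Subgroup.closure ({p, q, r} : Set Y) →
      ∃ (i : Fin 4) (j : Fin 6), m = W i * V j := by
    intro m hm
    induction hm using Subgroup.closure_induction_left with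
    | one =>
      refine ⟨0, 0, ?_⟩
      rw [hW, hV]
      show (1 : Y) = 1 * 1
      rw [mul_one]
    | mul_left g hg m hm ih =>
      obtain ⟨i, j, rfl⟩ := ih
      have hg' : g = p ∨ g = q ∨ g = r := by simpa using hg
      exact hstep g hg' i j
    | inv_mul_cancel g hg m hm ih =>
      obtain ⟨i, j, rfl⟩ := ih
      have hg' : g = p ∨ g = q ∨ g = r := by simpa using hg
      have hinv : g⁻¹ = g := by
        rcases hg' with h | h | h
        · rw [h]; exact inv_eq_of_mul_eq_one_left pp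
        · rw [h]; exact inv_eq_of_mul_eq_one_left qq
        · rw [h]; exact inv_eq_of_mul_eq_one_left rr
      rw [hinv]
      exact hstep g hg' i j
  have hsub : ((Subgroup.closure ({p, q, r} : Set Y) : Subgroup Y) : Set Y)
      ⊆ Set.range (fun x : Fin 4 × Fin 6 => W x.1 * V x.2) := by
    intro m hm
    obtain ⟨i, j, h⟩ := hmem m hm
    exact ⟨(i, j), h.symm⟩
  have h1 : Nat.card ↥(Subgroup.closure ({p, q, r} : Set Y))
      = ((Subgroup.closure ({p, q, r} : Set Y) : Subgroup Y) : Set Y).ncard :=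
    Nat.card_coe_set_eq _
  rw [h1]
  refine (Set.ncard_le_ncard hsub (Set.toFinite _)).trans ?_
  rw [← Set.image_univ]
  refine (Set.ncard_image_le (Set.toFinite _)).trans ?_
  rw [Set.ncard_univ, Nat.card_prod, Nat.card_fin, Nat.card_fin]

theorem h8f_s5rec {Y : Type*} [Group Y] [Finite Y] {p q r s : Y}
    (pp : p * p = 1) (qq : q * q = 1) (rr : r * r = 1) (ss : s * s = 1)
    (csp : s * p = p * s) (csq : s * q = q * s) (cpr : p * r = r * p)
    (b_pq : p * q * p = q * p * q) (b_qr : q * r * q = r * q * r)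
    (b_rs : r * s * r = s * r * s)
    (hgen : Subgroup.closure ({p, q, r, s} : Set Y) = ⊤)
    (hsM : s ∉ Subgroup.closure ({p, q, r} : Set Y)) :
    Nonempty (Y ≃* Equiv.Perm (Fin 5)) := by
  classical
  have hM24 := h8f_M24 pp qq rr cpr b_pq b_qr
  obtain ⟨M, hMdef⟩ : ∃ M : Subgroup Y, M = Subgroup.closure {p, q, r} := ⟨_, rfl⟩
  rw [← hMdef] at hsM hM24
  have hpM : p ∈ M := by rw [hMdef]; exact Subgroup.subset_closure (by simp)
  have hqM : q ∈ M := by rw [hMdef]; exact Subgroup.subset_closure (by simp)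
  have hrM : r ∈ M := by rw [hMdef]; exact Subgroup.subset_closure (by simp)
  obtain ⟨f, hfdef⟩ : ∃ f : Fin 5 → Y ⧸ M, f = ![QuotientGroup.mk 1, QuotientGroup.mk s,
      QuotientGroup.mk (r * s), QuotientGroup.mk (q * r * s),
      QuotientGroup.mk (p * q * r * s)] := ⟨_, rfl⟩
  obtain ⟨⟨x0, x1, x2, x3, x4⟩, ⟨y0, y1, y2, y3, y4⟩, ⟨e0, e1, e2, e3, e4⟩,
      ⟨d0, d1, d2, d3, d4⟩⟩ :=
    fo_table M hpM hqM hrM pp qq rr ss csp csq cpr b_pq b_qr b_rs f hfdef
  have hclos : ∀ g : Y, (∀ i, ∃ j, g • f i = f j) ∧ (∀ i, ∃ j, g⁻¹ • f i = f j) := by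
    intro g
    have hg : g ∈ Subgroup.closure ({p, q, r, s} : Set Y) := by rw [hgen]; trivial
    induction hg using Subgroup.closure_induction with
    | mem u hu =>
      simp only [Set.mem_insert_iff, Set.mem_singleton_iff] at hu
      have hgen' : (∀ i, ∃ j, u • f i = f j) ∧ u⁻¹ = u := by
        rcases hu with h | h | h | h
        · rw [h]
          refine ⟨fun i => ?_, inv_eq_of_mul_eq_one_left pp⟩
          fin_cases i
          exacts [⟨0, d0⟩, ⟨1, d1⟩, ⟨2, d2⟩, ⟨4, d3⟩, ⟨3, d4⟩]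
        · rw [h]
          refine ⟨fun i => ?_, inv_eq_of_mul_eq_one_left qq⟩
          fin_cases i
          exacts [⟨0, e0⟩, ⟨1, e1⟩, ⟨3, e2⟩, ⟨2, e3⟩, ⟨4, e4⟩]
        · rw [h]
          refine ⟨fun i => ?_, inv_eq_of_mul_eq_one_left rr⟩
          fin_cases i
          exacts [⟨0, y0⟩, ⟨2, y1⟩, ⟨1, y2⟩, ⟨3, y3⟩, ⟨4, y4⟩]
        · rw [h]
          refine ⟨fun i => ?_, inv_eq_of_mul_eq_one_left ss⟩
          fin_cases i
          exacts [⟨1, x0⟩, ⟨0, x1⟩, ⟨2, x2⟩, ⟨3, x3⟩, ⟨4, x4⟩]
      exact ⟨hgen'.1, by rw [hgen'.2]; exact hgen'.1⟩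
    | one => exact ⟨fun i => ⟨i, one_smul _ _⟩, fun i => ⟨i, by rw [inv_one, one_smul]⟩⟩
    | mul a b _ _ iha ihb =>
      constructor
      · intro i
        obtain ⟨j, hj⟩ := ihb.1 i
        obtain ⟨k, hk⟩ := iha.1 j
        exact ⟨k, by rw [mul_smul, hj, hk]⟩
      · intro i
        obtain ⟨j, hj⟩ := iha.2 i
        obtain ⟨k, hk⟩ := ihb.2 j
        exact ⟨k, by rw [mul_inv_rev, mul_smul, hj, hk]⟩
    | inv a _ iha => exact ⟨iha.2, by rw [inv_inv]; exact iha.1⟩
  have hf0 : f 0 = QuotientGroup.mk 1 := by rw [hfdef]; rfl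
  have hf1 : f 1 = QuotientGroup.mk s := by rw [hfdef]; rfl
  have hfsurj : Function.Surjective f := by
    intro t
    obtain ⟨g, rfl⟩ := QuotientGroup.mk_surjective t
    obtain ⟨j, hj⟩ := (hclos g).1 0
    refine ⟨j, ?_⟩
    rw [← hj, hf0]
    exact congrArg (QuotientGroup.mk : Y → Y ⧸ M) (mul_one g)
  have n01 : f 0 ≠ f 1 := by
    intro h
    apply hsM
    rw [hf0, hf1] at h
    have h2 := QuotientGroup.eq.mp h
    simpa using h2
  have n02 : f 0 ≠ f 2 := by
    intro h
    apply n01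
    calc f 0 = r • f 0 := y0.symm
      _ = r • f 2 := by rw [h]
      _ = f 1 := y2
  have n12 : f 1 ≠ f 2 := by
    intro h
    apply n02
    calc f 0 = s • f 1 := x1.symm
      _ = s • f 2 := by rw [h]
      _ = f 2 := x2
  have n03 : f 0 ≠ f 3 := by
    intro h
    apply n02
    calc f 0 = q • f 0 := e0.symm
      _ = q • f 3 := by rw [h]
      _ = f 2 := e3
  have n13 : f 1 ≠ f 3 := by
    intro h
    apply n12
    calc f 1 = q • f 1 := e1.symm
      _ = q • f 3 := by rw [h]
      _ = f 2 := e3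
  have n23 : f 2 ≠ f 3 := by
    intro h
    apply n13
    calc f 1 = r • f 2 := y2.symm
      _ = r • f 3 := by rw [h]
      _ = f 3 := y3
  have n04 : f 0 ≠ f 4 := by
    intro h
    apply n03
    calc f 0 = p • f 0 := d0.symm
      _ = p • f 4 := by rw [h]
      _ = f 3 := d4
  have n14 : f 1 ≠ f 4 := by
    intro h
    apply n13
    calc f 1 = p • f 1 := d1.symm
      _ = p • f 4 := by rw [h]
      _ = f 3 := d4
  have n24 : f 2 ≠ f 4 := by
    intro h
    apply n23
    calc f 2 = p • f 2 := d2.symm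
      _ = p • f 4 := by rw [h]
      _ = f 3 := d4
  have n34 : f 3 ≠ f 4 := by
    intro h
    apply n24
    calc f 2 = q • f 3 := e3.symm
      _ = q • f 4 := by rw [h]
      _ = f 4 := e4
  have key : ∀ i j : Fin 5, i < j → f i ≠ f j := by
    intro i j hij
    fin_cases i <;> fin_cases j <;>
      first
        | exact n01 | exact n02 | exact n03 | exact n04 | exact n12 | exact n13
        | exact n14 | exact n23 | exact n24 | exact n34
        | exact absurd hij (by decide)
  have hfinj : Function.Injective f := by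
    intro i j h
    by_contra hne
    rcases lt_or_gt_of_ne hne with h1 | h1
    · exact key i j h1 h
    · exact key j i h1 h.symm
  have hbij : Function.Bijective f := ⟨hfinj, hfsurj⟩
  have hcard : Nat.card (Y ⧸ M) = 5 := by
    rw [← Nat.card_congr (Equiv.ofBijective f hbij), Nat.card_fin]
  obtain ⟨φ, hφ⟩ : ∃ φ : Y →* Equiv.Perm (Y ⧸ M), φ = MulAction.toPermHom Y (Y ⧸ M) :=
    ⟨_, rfl⟩
  have hφapp : ∀ (g : Y) (t : Y ⧸ M), φ g t = g • t := by
    intro g t; rw [hφ]; rfl
  have hsw : φ s = Equiv.swap (f 0) (f 1) := by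
    ext t
    obtain ⟨i, rfl⟩ := hfsurj t
    rw [hφapp]
    fin_cases i
    · show s • f 0 = (Equiv.swap (f 0) (f 1)) (f 0)
      rw [Equiv.swap_apply_left]; exact x0
    · show s • f 1 = (Equiv.swap (f 0) (f 1)) (f 1)
      rw [Equiv.swap_apply_right]; exact x1
    · show s • f 2 = (Equiv.swap (f 0) (f 1)) (f 2)
      rw [Equiv.swap_apply_of_ne_of_ne n02.symm n12.symm]; exact x2
    · show s • f 3 = (Equiv.swap (f 0) (f 1)) (f 3)
      rw [Equiv.swap_apply_of_ne_of_ne n03.symm n13.symm]; exact x3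
    · show s • f 4 = (Equiv.swap (f 0) (f 1)) (f 4)
      rw [Equiv.swap_apply_of_ne_of_ne n04.symm n14.symm]; exact x4
  haveI : Fintype (Y ⧸ M) := Fintype.ofFinite _
  have hrange : φ.range = ⊤ := by
    apply Equiv.Perm.subgroup_eq_top_of_swap_mem (τ := φ s)
    · rw [Fintype.card_eq_nat_card, hcard]; norm_num
    · rw [Fintype.card_eq_nat_card, Fintype.card_eq_nat_card, hcard]
      have h1 : φ.ker.index = Nat.card ↥φ.range := Subgroup.index_ker φ
      have hker : φ.ker ≤ M := by
        rw [hφ, ← Subgroup.normalCore_eq_ker]; exact Subgroup.normalCore_le M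
      have h2 := Subgroup.relIndex_mul_index hker
      have h3 : M.index = 5 := by rw [Subgroup.index_eq_card, hcard]
      rw [← h1, ← h2, h3]
      exact dvd_mul_left 5 _
    · exact ⟨s, rfl⟩
    · exact ⟨f 0, f 1, n01, hsw⟩
  have hsurj : Function.Surjective φ := MonoidHom.range_eq_top.mp hrange
  have hYcard : Nat.card Y ≤ Nat.card (Equiv.Perm (Y ⧸ M)) := by
    rw [Nat.card_perm, hcard, Subgroup.card_eq_card_quotient_mul_card_subgroup M, hcard]
    have h120 : (5 : ℕ).factorial = 5 * 24 := by decide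
    rw [h120]
    exact Nat.mul_le_mul_left 5 hM24
  have hφbij : Function.Bijective φ := hsurj.bijective_of_nat_card_le hYcard
  exact ⟨(MulEquiv.ofBijective φ hφbij).trans
    (Equiv.permCongrHom (Equiv.ofBijective f hbij).symm)⟩

end Cfsg.Agent.Lib.helper8
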