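import Mathlib
import Cfsg.Agent.Lib.helper8.F5365a
import Cfsg.Agent.Lib.helper8.F5365b

set_option autoImplicit false

namespace Cfsg.Agent.Lib.helper8

section F5365c
variable {G : Type*} [Group G] {D : Set G}

theorem h8f_CL (hs : Cfsg.IsThreeTranspositionSet D)
    (hcl : ∀ g d : G, d ∈ D → g * d * g⁻¹ ∈ D)
    (hL1 : ∀ d ∈ D, ∀ y ∈ ttDc D d, ∀ y' ∈ ttDc D d, y ≠ y' → ¬ Commute y y')
    (hL2 : ∀ d ∈ D, ∀ y ∈ ttDc D d, ∀ y' ∈ ttDc D d, ∀ w ∈ ttDc D d, y ≠ y' →
      w = y ∨ w = y' ∨ w = y * y' * y)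
    (hL3 : ∀ d ∈ D, ∃ y ∈ ttDc D d, ∃ y' ∈ ttDc D d, y ≠ y')
    {d : G} (hd : d ∈ D) (hB : h8f_B D d)
    {y f w : G} (hy : y ∈ ttDc D d) (hf : f ∈ ttDc D y) (hfd : f ≠ d) (hw : w ∈ ttDc D f) :
    w = y ∨ ∃ y' ∈ ttDc D d, w ∈ ttDc D y' := by
  obtain ⟨z, hz, hzy⟩ : ∃ z ∈ ttDc D d, z ≠ y := by
    obtain ⟨u, hu, v, hv, huv⟩ := hL3 d hd
    by_cases h : u = y
    · exact ⟨v, hv, fun h2 => huv (h.trans h2.symm)⟩
    · exact ⟨u, hu, h⟩
  have nzy : ¬ Commute z y := hL1 d hd z hz y hy hzy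
  obtain ⟨hz', hz'z, hz'y⟩ := h8f_L4 hs hcl hz hy nzy
  have nfd : ¬ Commute f d := hL1 y hy.1 f hf d (h8f_symm hd hy) hfd
  have nfz : ¬ Commute f z := fun h => hfd (hB y hy z hz (Ne.symm hzy) f hf h.symm)
  have hg1 := h8f_J hs hcl hd hz.1 hf.1 hz.2.2 (Ne.symm hz.2.1) nfd nfz
  obtain ⟨g1, hg1def⟩ : ∃ g1, g1 = (d * z) * f * (d * z)⁻¹ := ⟨_, rfl⟩
  rw [← hg1def] at hg1
  have dd := tt_sq hs hd
  have zz := tt_sq hs hz.1
  have yy := tt_sq hs hy.1
  have hconj : (d * z) * y * (d * z)⁻¹ = z * y * z := by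
    rw [mul_inv_rev, tt_inv hs hd, tt_inv hs hz.1]
    have c1 : d * z = z * d := hz.2.2.eq
    have c2 : d * y = y * d := hy.2.2.eq
    calc d * z * y * (z * d) = (d * z) * y * (z * d) := by group
      _ = (z * d) * y * (z * d) := by rw [c1]
      _ = z * (d * y) * z * d := by group
      _ = z * (y * d) * z * d := by rw [c2]
      _ = z * y * (d * z) * d := by group
      _ = z * y * (z * d) * d := by rw [c1]
      _ = z * y * z * (d * d) := by group
      _ = z * y * z := by rw [dd, mul_one]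
  have hg1' : g1 ∈ ttDc D (z * y * z) := by
    have h1 := ttDc_conj hcl (d * z) y
    rw [hconj] at h1
    rw [h1, hg1def]
    exact ⟨f, hf, rfl⟩
  have hyf : y ∈ ttDc D f := h8f_symm hy.1 hf
  have hyg1 : y ≠ g1 := by
    intro h
    have h3 : Commute (z * y * z) g1 := hg1'.2.2
    rw [← h] at h3
    exact hL1 d hd (z * y * z) hz' y hy hz'y h3
  rcases hL2 f hf.1 y hyf g1 hg1 w hw hyg1 with h | h | h
  · left; exact h
  · right; exact ⟨z * y * z, hz', h ▸ hg1'⟩
  · right
    refine ⟨z, hz, ?_⟩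
    have h2 := ttDc_conj hcl y (z * y * z)
    have br : z * y * z = y * z * y := tt_braid hs hz.1 hy.1 nzy
    have h3 : y * (z * y * z) * y⁻¹ = z := by
      rw [tt_inv hs hy.1, br]
      calc y * (y * z * y) * y = (y * y) * z * (y * y) := by group
        _ = z := by rw [yy, one_mul, mul_one]
    rw [h3] at h2
    rw [h2, h]
    refine ⟨g1, hg1', ?_⟩
    show y * g1 * y⁻¹ = y * g1 * y
    rw [tt_inv hs hy.1]

theorem h8f_pall (hs : Cfsg.IsThreeTranspositionSet D)
    (hcl : ∀ g d : G, d ∈ D → g * d * g⁻¹ ∈ D)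
    (hL1 : ∀ d ∈ D, ∀ y ∈ ttDc D d, ∀ y' ∈ ttDc D d, y ≠ y' → ¬ Commute y y')
    (hL2 : ∀ d ∈ D, ∀ y ∈ ttDc D d, ∀ y' ∈ ttDc D d, ∀ w ∈ ttDc D d, y ≠ y' →
      w = y ∨ w = y' ∨ w = y * y' * y)
    (hL3 : ∀ d ∈ D, ∃ y ∈ ttDc D d, ∃ y' ∈ ttDc D d, y ≠ y')
    {d : G} (hd : d ∈ D) (hB : h8f_B D d) {u : G} (hu : u ∈ D) :
    u = d ∨ u ∈ ttDc D d ∨ ∃ y ∈ ttDc D d, u ∈ ttDc D y := by
  by_contra hcon
  push Not at hcon
  obtain ⟨hud, hudd, hall⟩ := hcon
  have ndu : ¬ Commute d u := fun h => hudd ⟨hu, hud, h⟩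
  have nyu : ∀ y ∈ ttDc D d, ¬ Commute y u := by
    intro y hy h
    by_cases h2 : u = y
    · exact hudd (h2 ▸ hy)
    · exact hall y hy ⟨hu, h2, h⟩
  obtain ⟨f, hf, -⟩ := hL3 u hu
  have ndf : ¬ Commute d f := by
    intro h
    by_cases h2 : f = d
    · apply ndu
      have h3 : Commute u f := hf.2.2
      rw [h2] at h3
      exact h3.symm
    · exact nyu f ⟨hf.1, h2, h⟩ hf.2.2.symm
  by_cases hcase : ∃ y ∈ ttDc D d, Commute y f
  · obtain ⟨y, hy, hyf⟩ := hcase
    have hfy : f ∈ ttDc D y := by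
      refine ⟨hf.1, fun h => nyu y hy ?_, hyf⟩
      have h3 : Commute f u := hf.2.2.symm
      rw [h] at h3
      exact h3
    have hfd : f ≠ d := by
      intro h
      apply ndf
      rw [h]
    have huf : u ∈ ttDc D f := h8f_symm hu hf
    rcases h8f_CL hs hcl hL1 hL2 hL3 hd hB hy hfy hfd huf with h | ⟨y', hy', h⟩
    · exact hudd (h ▸ hy)
    · exact hall y' hy' h
  · push Not at hcase
    have hw := h8f_J hs hcl hu hf.1 hd hf.2.2 (Ne.symm hf.2.1) ndu ndf
    obtain ⟨w, hwdef⟩ : ∃ w, w = (u * f) * d * (u * f)⁻¹ := ⟨_, rfl⟩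
    rw [← hwdef] at hw
    have hz : ∀ z ∈ ttDc D d, z ≠ w → (u * f) * z * (u * f)⁻¹ = d := by
      intro z hz hzw
      have h1 := h8f_J hs hcl hu hf.1 hz.1 hf.2.2 (Ne.symm hf.2.1)
        (fun h => nyu z hz h) (fun h => hcase z hz h)
      have h2 : (u * f) * z * (u * f)⁻¹ ∈ ttDc D w := by
        have h3 := ttDc_conj hcl (u * f) d
        rw [← hwdef] at h3
        rw [h3]
        exact ⟨z, hz, rfl⟩
      exact hB z hz w hw hzw _ h1 h2.2.2
    obtain ⟨a, ha, b, hb, hab⟩ := hL3 d hd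
    have nab := hL1 d hd a ha b hb hab
    obtain ⟨hc, hca, hcb⟩ := h8f_L4 hs hcl ha hb nab
    have hinj : ∀ z z' : G, (u * f) * z * (u * f)⁻¹ = (u * f) * z' * (u * f)⁻¹ → z = z' := by
      intro z z' h
      simpa using h
    by_cases h1 : a = w
    · have hbw : b ≠ w := fun h => hab (h1.trans h.symm)
      have hcw : a * b * a ≠ w := fun h => hca (h.trans h1.symm)
      exact hcb (hinj _ _ ((hz _ hc hcw).trans (hz b hb hbw).symm))
    · by_cases h2 : b = w
      · have hcw : a * b * a ≠ w := fun h => hcb (h.trans h2.symm)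
        exact hca (hinj _ _ ((hz _ hc hcw).trans (hz a ha h1).symm))
      · exact hab (hinj _ _ ((hz a ha h1).trans (hz b hb h2).symm))

theorem h8f_conj_inv {d u v : G} (dd : d * d = 1) (h : d * u * d = v) : u = d * v * d := by
  rw [← h]
  calc u = (d * d) * u * (d * d) := by rw [dd, one_mul, mul_one]
    _ = d * (d * u * d) * d := by group

theorem h8f_caseB [Finite G] (hs : Cfsg.IsThreeTranspositionSet D)
    (hcl : ∀ g d : G, d ∈ D → g * d * g⁻¹ ∈ D)
    (hL1 : ∀ d ∈ D, ∀ y ∈ ttDc D d, ∀ y' ∈ ttDc D d, y ≠ y' → ¬ Commute y y')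
    (hL2 : ∀ d ∈ D, ∀ y ∈ ttDc D d, ∀ y' ∈ ttDc D d, ∀ w ∈ ttDc D d, y ≠ y' →
      w = y ∨ w = y' ∨ w = y * y' * y)
    (hL3 : ∀ d ∈ D, ∃ y ∈ ttDc D d, ∃ y' ∈ ttDc D d, y ≠ y')
    {d : G} (hd : d ∈ D) (hB : h8f_B D d) :
    Nonempty (↥(Subgroup.closure D) ≃* Equiv.Perm (Fin 5)) := by
  obtain ⟨a, ha, b, hb, hab⟩ := hL3 d hd
  have nab := hL1 d hd a ha b hb hab
  obtain ⟨hc, hca, hcb⟩ := h8f_L4 hs hcl ha hb nab
  have hda : d ∈ ttDc D a := h8f_symm hd ha
  obtain ⟨a1, ha1, ha1d⟩ : ∃ a1 ∈ ttDc D a, a1 ≠ d := by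
    obtain ⟨u, hu, v, hv, huv⟩ := hL3 a ha.1
    by_cases h : u = d
    · exact ⟨v, hv, fun h2 => huv (h.trans h2.symm)⟩
    · exact ⟨u, hu, h⟩
  have aa := tt_sq hs ha.1
  have bb := tt_sq hs hb.1
  have dd := tt_sq hs hd
  have a1a1 := tt_sq hs ha1.1
  have na1b : ¬ Commute a1 b := fun h => ha1d (hB a ha b hb hab a1 ha1 h.symm)
  have na1c : ¬ Commute a1 (a * b * a) :=
    fun h => ha1d (hB a ha (a * b * a) hc (Ne.symm hca) a1 ha1 h.symm)
  have na1d : ¬ Commute a1 d := hL1 a ha.1 a1 ha1 d hda ha1d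
  have b_ab : a * b * a = b * a * b := tt_braid hs ha.1 hb.1 nab
  have b_ba1 : b * a1 * b = a1 * b * a1 := tt_braid hs hb.1 ha1.1 (fun h => na1b h.symm)
  have b_a1d : a1 * d * a1 = d * a1 * d := tt_braid hs ha1.1 hd na1d
  have b_ca1 : (a * b * a) * a1 * (a * b * a) = a1 * (a * b * a) * a1 :=
    tt_braid hs hc.1 ha1.1 (fun h => na1c h.symm)
  have cda : d * a = a * d := ha.2.2.eq
  have cdb : d * b = b * d := hb.2.2.eq
  have cdc : d * (a * b * a) = (a * b * a) * d := hc.2.2.eq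
  have caa1 : a * a1 = a1 * a := ha1.2.2.eq
  obtain ⟨c, hcdef⟩ : ∃ c, c = a * b * a := ⟨_, rfl⟩
  rw [← hcdef] at hc hca hcb na1c b_ca1 cdc
  have cc := tt_sq hs hc.1
  obtain ⟨c1, hc1def⟩ : ∃ c1, c1 = b * a1 * b := ⟨_, rfl⟩
  obtain ⟨b1, hb1def⟩ : ∃ b1, b1 = c * a1 * c := ⟨_, rfl⟩
  have hcb' : c = b * a * b := by rw [hcdef, b_ab]
  have hstep : ∀ x : G, (x = a ∨ x = b ∨ x = a1) → ∀ u : G,
      (u = a ∨ u = b ∨ u = c ∨ u = a1 ∨ u = c1 ∨ u = b1) →
      (x * u * x = a ∨ x * u * x = b ∨ x * u * x = c ∨ x * u * x = a1 ∨ x * u * x = c1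
        ∨ x * u * x = b1) := by
    intro x hx u hu
    rcases hx with hx | hx | hx
    · rw [hx]
      rcases hu with h | h | h | h | h | h
      · left; rw [h, aa, one_mul]
      · right; right; left; rw [h, hcdef]
      · right; left; rw [h, hcdef]
        calc a * (a * b * a) * a = (a * a) * b * (a * a) := by group
          _ = b := by rw [aa, one_mul, mul_one]
      · right; right; right; left; rw [h, caa1, mul_assoc, aa, mul_one]
      · right; right; right; right; right; rw [h, hc1def, hb1def, hcdef]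
        calc a * (b * a1 * b) * a = a * b * (a1 * (a * a)) * b * a := by rw [aa]; group
          _ = a * b * ((a1 * a) * a) * b * a := by group
          _ = a * b * ((a * a1) * a) * b * a := by rw [caa1]
          _ = a * b * a * a1 * (a * b * a) := by group
      · right; right; right; right; left; rw [h, hb1def, hc1def, hcdef]
        calc a * (a * b * a * a1 * (a * b * a)) * a
            = (a * a) * b * ((a * a1) * a) * b * (a * a) := by group
          _ = (a * a) * b * ((a1 * a) * a) * b * (a * a) := by rw [caa1]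
          _ = (a * a) * b * (a1 * (a * a)) * b * (a * a) := by group
          _ = b * a1 * b := by rw [aa]; group
    · rw [hx]
      rcases hu with h | h | h | h | h | h
      · right; right; left; rw [h, hcb']
      · right; left; rw [h, bb, one_mul]
      · left; rw [h, hcb']
        calc b * (b * a * b) * b = (b * b) * a * (b * b) := by group
          _ = a := by rw [bb, one_mul, mul_one]
      · right; right; right; right; left; rw [h, hc1def]
      · right; right; right; left; rw [h, hc1def]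
        calc b * (b * a1 * b) * b = (b * b) * a1 * (b * b) := by group
          _ = a1 := by rw [bb, one_mul, mul_one]
      · right; right; right; right; right; rw [h, hb1def]
        have e1 : b * (c * a1 * c) * b = a * b * a1 * b * a := by
          rw [hcb']
          calc b * (b * a * b * a1 * (b * a * b)) * b
              = (b * b) * a * b * a1 * b * a * (b * b) := by group
            _ = a * b * a1 * b * a := by rw [bb]; group
        have e2 : c * a1 * c = a * b * a1 * b * a := by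
          rw [hcdef]
          calc a * b * a * a1 * (a * b * a) = a * b * ((a * a1) * a) * b * a := by group
            _ = a * b * ((a1 * a) * a) * b * a := by rw [caa1]
            _ = a * b * (a1 * (a * a)) * b * a := by group
            _ = a * b * a1 * b * a := by rw [aa]; group
        rw [e1, e2]
    · rw [hx]
      rcases hu with h | h | h | h | h | h
      · left; rw [h, ← caa1, mul_assoc, a1a1, mul_one]
      · right; right; right; right; left; rw [h, hc1def, b_ba1]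
      · right; right; right; right; right; rw [h, hb1def, b_ca1]
      · right; right; right; left; rw [h, a1a1, one_mul]
      · right; left; rw [h, hc1def, b_ba1]
        calc a1 * (a1 * b * a1) * a1 = (a1 * a1) * b * (a1 * a1) := by group
          _ = b := by rw [a1a1, one_mul, mul_one]
      · right; right; left; rw [h, hb1def, b_ca1]
        calc a1 * (a1 * c * a1) * a1 = (a1 * a1) * c * (a1 * a1) := by group
          _ = c := by rw [a1a1, one_mul, mul_one]
  have hSig : ∀ g : G, g ∈ Subgroup.closure ({a, b, a1} : Set G) → ∀ u : G,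
      (u = a ∨ u = b ∨ u = c ∨ u = a1 ∨ u = c1 ∨ u = b1) →
      (g * u * g⁻¹ = a ∨ g * u * g⁻¹ = b ∨ g * u * g⁻¹ = c ∨ g * u * g⁻¹ = a1
        ∨ g * u * g⁻¹ = c1 ∨ g * u * g⁻¹ = b1) := by
    intro g hg
    induction hg using Subgroup.closure_induction_left with
    | one =>
      intro u hu
      rw [one_mul, inv_one, mul_one]; exact hu
    | mul_left x hx y hy ih =>
      intro u hu
      have hx' : x = a ∨ x = b ∨ x = a1 := by simpa using hx
      have hinv : x⁻¹ = x := by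
        rcases hx' with h | h | h
        · rw [h]; exact tt_inv hs ha.1
        · rw [h]; exact tt_inv hs hb.1
        · rw [h]; exact tt_inv hs ha1.1
      have e : x * y * u * (x * y)⁻¹ = x * (y * u * y⁻¹) * x := by
        rw [mul_inv_rev, hinv]; group
      rw [e]
      exact hstep x hx' _ (ih u hu)
    | inv_mul_cancel x hx y hy ih =>
      intro u hu
      have hx' : x = a ∨ x = b ∨ x = a1 := by simpa using hx
      have hinv : x⁻¹ = x := by
        rcases hx' with h | h | h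
        · rw [h]; exact tt_inv hs ha.1
        · rw [h]; exact tt_inv hs hb.1
        · rw [h]; exact tt_inv hs ha1.1
      have e : x⁻¹ * y * u * (x⁻¹ * y)⁻¹ = x * (y * u * y⁻¹) * x := by
        rw [mul_inv_rev, inv_inv, hinv]; group
      rw [e]
      exact hstep x hx' _ (ih u hu)
  have hd_notin : d ∉ Subgroup.closure ({a, b, a1} : Set G) := by
    intro hdm
    have h1 := hSig d hdm a1 (Or.inr (Or.inr (Or.inr (Or.inl rfl))))
    rw [tt_inv hs hd] at h1
    rcases h1 with h | h | h | h | h | h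
    · apply ha1.2.1
      rw [h8f_conj_inv dd h, cda, mul_assoc, dd, mul_one]
    · apply na1b
      rw [h8f_conj_inv dd h, cdb, mul_assoc, dd, mul_one]
    · apply na1c
      rw [h8f_conj_inv dd h, cdc, mul_assoc, dd, mul_one]
    · apply na1d
      show a1 * d = d * a1
      calc a1 * d = (d * a1 * d) * d := by rw [h]
        _ = d * a1 * (d * d) := by group
        _ = d * a1 := by rw [dd, mul_one]
    · have h2 : Commute a1 (b * d) := by
        show a1 * (b * d) = b * d * a1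
        calc a1 * (b * d) = (b * b) * a1 * (b * d) := by rw [bb, one_mul]
          _ = b * (b * a1 * b) * d := by group
          _ = b * (d * a1 * d) * d := by rw [← hc1def, ← h]
          _ = b * d * a1 * (d * d) := by group
          _ = b * d * a1 := by rw [dd, mul_one]
      exact hb.2.1 (h8f_triv hs ha1.1 hb.1 hd na1b na1d h2)
    · have h2 : Commute a1 (c * d) := by
        show a1 * (c * d) = c * d * a1
        calc a1 * (c * d) = (c * c) * a1 * (c * d) := by rw [cc, one_mul]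
          _ = c * (c * a1 * c) * d := by group
          _ = c * (d * a1 * d) * d := by rw [← hb1def, ← h]
          _ = c * d * a1 * (d * d) := by group
          _ = c * d * a1 := by rw [dd, mul_one]
      exact hc.2.1 (h8f_triv hs ha1.1 hc.1 hd na1c na1d h2)
  obtain ⟨W, hWdef⟩ : ∃ W : Subgroup G, W = Subgroup.closure ({a, b, a1, d} : Set G) :=
    ⟨_, rfl⟩
  have haW : a ∈ W := by rw [hWdef]; exact Subgroup.subset_closure (by simp)
  have hbW : b ∈ W := by rw [hWdef]; exact Subgroup.subset_closure (by simp)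
  have ha1W : a1 ∈ W := by rw [hWdef]; exact Subgroup.subset_closure (by simp)
  have hdW : d ∈ W := by rw [hWdef]; exact Subgroup.subset_closure (by simp)
  have hcW : c ∈ W := by rw [hcdef]; exact W.mul_mem (W.mul_mem haW hbW) haW
  have hb1 : b1 ∈ ttDc D b := by
    have h1 := ttDc_conj hcl c a
    have h2 : c * a * c⁻¹ = b := by
      rw [tt_inv hs hc.1, hcdef]
      calc a * b * a * a * (a * b * a) = a * b * (a * a) * (a * b * a) := by group
        _ = a * (b * a * b) * a := by rw [aa]; group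
        _ = a * (a * b * a) * a := by rw [b_ab]
        _ = (a * a) * b * (a * a) := by group
        _ = b := by rw [aa, one_mul, mul_one]
    rw [h2] at h1
    rw [h1, hb1def]
    refine ⟨a1, ha1, ?_⟩
    show c * a1 * c⁻¹ = c * a1 * c
    rw [tt_inv hs hc.1]
  have hc1 : c1 ∈ ttDc D c := by
    have h1 := ttDc_conj hcl b a
    have h2 : b * a * b⁻¹ = c := by
      rw [tt_inv hs hb.1, hcb']
    rw [h2] at h1
    rw [h1, hc1def]
    refine ⟨a1, ha1, ?_⟩
    show b * a1 * b⁻¹ = b * a1 * b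
    rw [tt_inv hs hb.1]
  have hb1d : d ≠ b1 := by
    intro h
    apply ha1d
    rw [h8f_conj_inv cc hb1def.symm, ← h, ← cdc, mul_assoc, cc, mul_one]
  have hc1d : d ≠ c1 := by
    intro h
    apply ha1d
    rw [h8f_conj_inv bb hc1def.symm, ← h, ← cdb, mul_assoc, bb, mul_one]
  have hb1W : b1 ∈ W := by rw [hb1def]; exact W.mul_mem (W.mul_mem hcW ha1W) hcW
  have hc1W : c1 ∈ W := by rw [hc1def]; exact W.mul_mem (W.mul_mem hbW ha1W) hbW
  have hDW : Subgroup.closure D ≤ W := by
    rw [Subgroup.closure_le]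
    intro u hu
    rcases h8f_pall hs hcl hL1 hL2 hL3 hd hB hu with h | h | ⟨y, hy, h⟩
    · rw [h]; exact hdW
    · rcases hL2 d hd a ha b hb u h hab with h2 | h2 | h2
      · rw [h2]; exact haW
      · rw [h2]; exact hbW
      · rw [h2, ← hcdef]; exact hcW
    · rcases hL2 d hd a ha b hb y hy hab with h2 | h2 | h2
      · rw [h2] at h
        rcases hL2 a ha.1 d hda a1 ha1 u h (Ne.symm ha1d) with h3 | h3 | h3
        · rw [h3]; exact hdW
        · rw [h3]; exact ha1W
        · rw [h3]; exact W.mul_mem (W.mul_mem hdW ha1W) hdW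
      · rw [h2] at h
        rcases hL2 b hb.1 d (h8f_symm hd hb) b1 hb1 u h hb1d with h3 | h3 | h3
        · rw [h3]; exact hdW
        · rw [h3]; exact hb1W
        · rw [h3]; exact W.mul_mem (W.mul_mem hdW hb1W) hdW
      · rw [h2, ← hcdef] at h
        rcases hL2 c hc.1 d (h8f_symm hd hc) c1 hc1 u h hc1d with h3 | h3 | h3
        · rw [h3]; exact hdW
        · rw [h3]; exact hc1W
        · rw [h3]; exact W.mul_mem (W.mul_mem hdW hc1W) hdW
  obtain ⟨H, hHdef⟩ : ∃ H : Subgroup G, H = Subgroup.closure D := ⟨_, rfl⟩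
  rw [← hHdef] at hDW ⊢
  have haH : a ∈ H := by rw [hHdef]; exact Subgroup.subset_closure ha.1
  have hbH : b ∈ H := by rw [hHdef]; exact Subgroup.subset_closure hb.1
  have ha1H : a1 ∈ H := by rw [hHdef]; exact Subgroup.subset_closure ha1.1
  have hdH : d ∈ H := by rw [hHdef]; exact Subgroup.subset_closure hd
  have himg4 : (H.subtype : ↥H → G) '' ({⟨a, haH⟩, ⟨b, hbH⟩, ⟨a1, ha1H⟩, ⟨d, hdH⟩} : Set ↥H)
      = {a, b, a1, d} := by
    simp [Set.image_insert_eq]
  have himg3 : (H.subtype : ↥H → G) '' ({⟨a, haH⟩, ⟨b, hbH⟩, ⟨a1, ha1H⟩} : Set ↥H)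
      = {a, b, a1} := by
    simp [Set.image_insert_eq]
  have hgen : Subgroup.closure ({⟨a, haH⟩, ⟨b, hbH⟩, ⟨a1, ha1H⟩, ⟨d, hdH⟩} : Set ↥H) = ⊤ := by
    rw [eq_top_iff]
    intro x _
    have hx : x.1 ∈ W := hDW x.2
    rw [hWdef, ← himg4, ← MonoidHom.map_closure] at hx
    obtain ⟨y, hy, hyx⟩ := hx
    have hyx' : y = x := Subtype.ext hyx
    rw [← hyx']; exact hy
  have hsM : (⟨d, hdH⟩ : ↥H) ∉
      Subgroup.closure ({⟨a, haH⟩, ⟨b, hbH⟩, ⟨a1, ha1H⟩} : Set ↥H) := by
    intro h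
    apply hd_notin
    rw [← himg3, ← MonoidHom.map_closure]
    exact ⟨⟨d, hdH⟩, h, rfl⟩
  exact h8f_s5rec (p := (⟨a, haH⟩ : ↥H)) (q := ⟨b, hbH⟩) (r := ⟨a1, ha1H⟩) (s := ⟨d, hdH⟩)
    (Subtype.ext aa) (Subtype.ext bb) (Subtype.ext a1a1) (Subtype.ext dd)
    (Subtype.ext cda) (Subtype.ext cdb) (Subtype.ext caa1) (Subtype.ext b_ab)
    (Subtype.ext b_ba1) (Subtype.ext b_a1d) hgen hsM

end F5365c

end Cfsg.Agent.Lib.helper8
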