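import Mathlib
import Cfsg.Prelude.Def_Solvable
import Cfsg.Agent.Lib.helper8.F5365a
import Cfsg.Agent.Lib.helper1.Fitting

set_option autoImplicit false

namespace Cfsg.Agent.Lib.helper8

section F5365d
variable {G : Type*} [Group G] {D : Set G}

def h8f_T (D : Set G) : Subgroup G :=
  Subgroup.closure {t : G | ∃ x ∈ D, ∃ y ∈ D, x ≠ y ∧ ttDc D x = ttDc D y ∧ t = x * y}

theorem h8f_inv3 {t t' : G} (h1 : t' * t * t'⁻¹ = t⁻¹) (h2 : t' ^ 3 = 1) (h3 : t ^ 3 = 1) :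
    t = 1 := by
  have h2' : t' * t' * t' = 1 := by rw [← h2, pow_succ, pow_two]
  have h3' : t * t * t = 1 := by rw [← h3, pow_succ, pow_two]
  have e2 : t' * t⁻¹ * t'⁻¹ = t := by
    calc t' * t⁻¹ * t'⁻¹ = (t' * t * t'⁻¹)⁻¹ := by group
      _ = t := by rw [h1, inv_inv]
  have e1 : (t' * t' * t') * t * (t' * t' * t')⁻¹ = t⁻¹ := by
    have e0 : (t' * t' * t') * t * (t' * t' * t')⁻¹
        = t' * (t' * (t' * t * t'⁻¹) * t'⁻¹) * t'⁻¹ := by group
    rw [e0, h1, e2, h1]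
  rw [h2', one_mul, inv_one, mul_one] at e1
  have e3 : t * t = 1 := by
    nth_rewrite 2 [e1]
    exact mul_inv_cancel t
  calc t = (t * t * t) * (t * t)⁻¹ := by group
    _ = 1 := by rw [h3', e3, inv_one, mul_one]

theorem h8f_gencomm (hs : Cfsg.IsThreeTranspositionSet D)
    (hcl : ∀ g d : G, d ∈ D → g * d * g⁻¹ ∈ D)
    (hL1 : ∀ d ∈ D, ∀ y ∈ ttDc D d, ∀ y' ∈ ttDc D d, y ≠ y' → ¬ Commute y y')
    (hL2 : ∀ d ∈ D, ∀ y ∈ ttDc D d, ∀ y' ∈ ttDc D d, ∀ w ∈ ttDc D d, y ≠ y' →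
      w = y ∨ w = y' ∨ w = y * y' * y)
    (hL3 : ∀ d ∈ D, ∃ y ∈ ttDc D d, ∃ y' ∈ ttDc D d, y ≠ y')
    (hA : ∀ d ∈ D, h8f_A D d)
    {x y x' y' : G} (hx : x ∈ D) (hy : y ∈ D) (hxy : x ≠ y) (htw : ttDc D x = ttDc D y)
    (hx' : x' ∈ D) (hy' : y' ∈ D) (hxy' : x' ≠ y') (htw' : ttDc D x' = ttDc D y') :
    Commute (x * y) (x' * y') := by
  have xx := tt_sq hs hx
  have yy := tt_sq hs hy
  by_cases hI : ttDc D x = ttDc D x'
  · obtain ⟨g, hg, -⟩ := hL3 x hx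
    have hxg : x ∈ ttDc D g := h8f_symm hx hg
    have hyg : y ∈ ttDc D g := h8f_symm hy (htw ▸ hg)
    have hgx' : g ∈ ttDc D x' := hI ▸ hg
    have hx'g : x' ∈ ttDc D g := h8f_symm hx' hgx'
    have hy'g : y' ∈ ttDc D g := h8f_symm hy' (htw' ▸ hgx')
    rcases h8f_lineprod hs hL1 hL2 hg.1 hxg hyg hx'g hy'g hxy hxy' with h | h
    · rw [h]
    · rw [h]
      show x * y * (y * x) = y * x * (x * y)
      have e1 : x * y * (y * x) = 1 := by
        calc x * y * (y * x) = x * (y * y) * x := by group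
          _ = 1 := by rw [yy, mul_one, xx]
      have e2 : y * x * (x * y) = 1 := by
        calc y * x * (x * y) = y * (x * x) * y := by group
          _ = 1 := by rw [xx, mul_one, yy]
      rw [e1, e2]
  · by_cases hc : Commute x x'
    · have hxx' : x ≠ x' := fun h => hI (by rw [h])
      have h1 : x ∈ ttDc D x' := ⟨hx, hxx', hc.symm⟩
      have h2 : x ∈ ttDc D y' := htw' ▸ h1
      have h3 : x' ∈ ttDc D x := ⟨hx', Ne.symm hxx', hc⟩
      have h4 : x' ∈ ttDc D y := htw ▸ h3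
      have h5 : y ∈ ttDc D x' := h8f_symm hy h4
      have h6 : y ∈ ttDc D y' := htw' ▸ h5
      exact (hc.mul_right h2.2.2.symm).mul_left (h4.2.2.mul_right h6.2.2.symm)
    · obtain ⟨g, hg, -⟩ := hL3 x' hx'
      have hgy' : g ∈ ttDc D y' := htw' ▸ hg
      have hx'g : x' ∈ ttDc D g := h8f_symm hx' hg
      have hy'g : y' ∈ ttDc D g := h8f_symm hy' hgy'
      have nxg : ¬ Commute x g := by
        intro h
        have hxg : x ∈ ttDc D g := by
          refine ⟨hx, fun h2 => hc ?_, h.symm⟩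
          rw [h2]; exact hg.2.2.symm
        exact hI (h8f_TW hL1 hg.1 (hA g hg.1) hxg hx'g)
      have nxy' : ¬ Commute x y' := by
        intro h
        by_cases h2 : x = y'
        · exact hI (by rw [h2, htw'])
        · have h3 : x ∈ ttDc D y' := ⟨hx, h2, h.symm⟩
          rw [← htw'] at h3
          exact hc h3.2.2.symm
      have nyx' : ¬ Commute y x' := by
        intro h
        by_cases h2 : y = x'
        · exact hI (by rw [htw, h2])
        · have h3 : x' ∈ ttDc D y := ⟨hx', Ne.symm h2, h⟩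
          rw [← htw] at h3
          exact hc h3.2.2
      have nyy' : ¬ Commute y y' := by
        intro h
        by_cases h2 : y = y'
        · exact hI (by rw [htw, h2, htw'])
        · have h3 : y ∈ ttDc D y' := ⟨hy, h2, h.symm⟩
          rw [← htw'] at h3
          have h4 : x' ∈ ttDc D y := h8f_symm hx' h3
          rw [← htw] at h4
          exact hc h4.2.2
      have nyg : ¬ Commute y g := by
        intro h
        have hyg : y ∈ ttDc D g := by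
          refine ⟨hy, fun h2 => nyx' ?_, h.symm⟩
          rw [h2]; exact hg.2.2.symm
        exact hI (htw.trans (h8f_TW hL1 hg.1 (hA g hg.1) hyg hx'g))
      have h1 := h8f_J hs hcl hg.1 hx' hx hg.2.2.symm hg.2.1 nxg hc
      have h2 := h8f_J hs hcl hg.1 hx' hy hg.2.2.symm hg.2.1 nyg nyx'
      have h3 := h8f_J hs hcl hg.1 hy' hx hgy'.2.2.symm hgy'.2.1 nxg nxy'
      have h4 := h8f_J hs hcl hg.1 hy' hy hgy'.2.2.symm hgy'.2.1 nyg nyy'
      rw [← htw] at h2 h4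
      have hne1 : (g * x') * x * (g * x')⁻¹ ≠ (g * x') * y * (g * x')⁻¹ := by
        intro h; apply hxy; simpa using h
      have hne2 : (g * y') * x * (g * y')⁻¹ ≠ (g * y') * y * (g * y')⁻¹ := by
        intro h; apply hxy; simpa using h
      rcases h8f_lineprod hs hL1 hL2 hx h1 h2 h3 h4 hne1 hne2 with h | h
      · have h5 : (g * y') * (x * y) * (g * y')⁻¹ = (g * x') * (x * y) * (g * x')⁻¹ := by
          calc (g * y') * (x * y) * (g * y')⁻¹
              = ((g * y') * x * (g * y')⁻¹) * ((g * y') * y * (g * y')⁻¹) := by group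
            _ = ((g * x') * x * (g * x')⁻¹) * ((g * x') * y * (g * x')⁻¹) := h
            _ = (g * x') * (x * y) * (g * x')⁻¹ := by group
        have e0 : x' * y' = (g * x')⁻¹ * (g * y') := by
          rw [mul_inv_rev, tt_inv hs hx']; group
        show x * y * (x' * y') = x' * y' * (x * y)
        calc x * y * (x' * y') = x * y * ((g * x')⁻¹ * (g * y')) := by rw [e0]
          _ = (g * x')⁻¹ * ((g * x') * (x * y) * (g * x')⁻¹) * (g * y') := by group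
          _ = (g * x')⁻¹ * ((g * y') * (x * y) * (g * y')⁻¹) * (g * y') := by rw [h5]
          _ = (g * x')⁻¹ * (g * y') * (x * y) := by group
          _ = x' * y' * (x * y) := by rw [e0]
      · exfalso
        have h5 : (g * y') * (x * y) * (g * y')⁻¹ = (g * x') * (y * x) * (g * x')⁻¹ := by
          calc (g * y') * (x * y) * (g * y')⁻¹
              = ((g * y') * x * (g * y')⁻¹) * ((g * y') * y * (g * y')⁻¹) := by group
            _ = ((g * x') * y * (g * x')⁻¹) * ((g * x') * x * (g * x')⁻¹) := h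
            _ = (g * x') * (y * x) * (g * x')⁻¹ := by group
        have e0 : x' * y' = (g * x')⁻¹ * (g * y') := by
          rw [mul_inv_rev, tt_inv hs hx']; group
        have h6 : (x' * y') * (x * y) * (x' * y')⁻¹ = (x * y)⁻¹ := by
          calc (x' * y') * (x * y) * (x' * y')⁻¹
              = ((g * x')⁻¹ * (g * y')) * (x * y) * ((g * x')⁻¹ * (g * y'))⁻¹ := by rw [e0]
            _ = (g * x')⁻¹ * ((g * y') * (x * y) * (g * y')⁻¹) * (g * x') := by group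
            _ = (g * x')⁻¹ * ((g * x') * (y * x) * (g * x')⁻¹) * (g * x') := by rw [h5]
            _ = y * x := by group
            _ = (x * y)⁻¹ := by rw [mul_inv_rev, tt_inv hs hx, tt_inv hs hy]
        have nx'y' : ¬ Commute x' y' := hL1 g hg.1 x' hx'g y' hy'g hxy'
        have nxy : ¬ Commute x y := by
          obtain ⟨g0, hg0, -⟩ := hL3 x hx
          exact hL1 g0 hg0.1 x (h8f_symm hx hg0) y (h8f_symm hy (htw ▸ hg0)) hxy
        have h7 := h8f_inv3 h6 (tt_cube hs hx' hy' nx'y') (tt_cube hs hx hy nxy)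
        apply hxy
        calc x = x * (y * y) := by rw [yy, mul_one]
          _ = (x * y) * y := by group
          _ = y := by rw [h7, one_mul]

theorem h8f_T_comm (hs : Cfsg.IsThreeTranspositionSet D)
    (hcl : ∀ g d : G, d ∈ D → g * d * g⁻¹ ∈ D)
    (hL1 : ∀ d ∈ D, ∀ y ∈ ttDc D d, ∀ y' ∈ ttDc D d, y ≠ y' → ¬ Commute y y')
    (hL2 : ∀ d ∈ D, ∀ y ∈ ttDc D d, ∀ y' ∈ ttDc D d, ∀ w ∈ ttDc D d, y ≠ y' →
      w = y ∨ w = y' ∨ w = y * y' * y)
    (hL3 : ∀ d ∈ D, ∃ y ∈ ttDc D d, ∃ y' ∈ ttDc D d, y ≠ y')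
    (hA : ∀ d ∈ D, h8f_A D d) :
    ∀ u ∈ h8f_T D, ∀ v ∈ h8f_T D, u * v = v * u := by
  obtain ⟨S, hS⟩ : ∃ S : Set G,
      S = {t : G | ∃ x ∈ D, ∃ y ∈ D, x ≠ y ∧ ttDc D x = ttDc D y ∧ t = x * y} := ⟨_, rfl⟩
  have hT : h8f_T D = Subgroup.closure S := by rw [hS]; rfl
  have h1 : Subgroup.closure S ≤ Subgroup.centralizer S := by
    rw [Subgroup.closure_le]
    intro u hu
    refine Subgroup.mem_centralizer_iff.mpr (fun v hv => ?_)
    rw [hS] at hu hv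
    obtain ⟨x, hx, y, hy, hxy, htw, rfl⟩ := hu
    obtain ⟨x', hx', y', hy', hxy', htw', rfl⟩ := hv
    exact (h8f_gencomm hs hcl hL1 hL2 hL3 hA hx' hy' hxy' htw' hx hy hxy htw).eq
  have h2 : Subgroup.closure S ≤ Subgroup.centralizer (Subgroup.closure S : Set G) := by
    rw [Subgroup.closure_le]
    intro u hu
    exact Subgroup.mem_centralizer_iff.mpr
      (fun v hv => ((Subgroup.mem_centralizer_iff.mp (h1 hv)) u hu).symm)
  intro u hu v hv
  rw [hT] at hu hv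
  exact Subgroup.mem_centralizer_iff.mp (h2 hv) u hu

theorem h8f_T_cube (hs : Cfsg.IsThreeTranspositionSet D)
    (hcl : ∀ g d : G, d ∈ D → g * d * g⁻¹ ∈ D)
    (hL1 : ∀ d ∈ D, ∀ y ∈ ttDc D d, ∀ y' ∈ ttDc D d, y ≠ y' → ¬ Commute y y')
    (hL2 : ∀ d ∈ D, ∀ y ∈ ttDc D d, ∀ y' ∈ ttDc D d, ∀ w ∈ ttDc D d, y ≠ y' →
      w = y ∨ w = y' ∨ w = y * y' * y)
    (hL3 : ∀ d ∈ D, ∃ y ∈ ttDc D d, ∃ y' ∈ ttDc D d, y ≠ y')
    (hA : ∀ d ∈ D, h8f_A D d) :
    ∀ t ∈ h8f_T D, t ^ 3 = 1 := by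
  have hc := h8f_T_comm hs hcl hL1 hL2 hL3 hA
  intro t ht
  unfold h8f_T at ht
  induction ht using Subgroup.closure_induction with
  | mem u hu =>
    obtain ⟨x, hx, y, hy, hxy, htw, rfl⟩ := hu
    obtain ⟨g0, hg0, -⟩ := hL3 x hx
    exact tt_cube hs hx hy
      (hL1 g0 hg0.1 x (h8f_symm hx hg0) y (h8f_symm hy (htw ▸ hg0)) hxy)
  | one => exact one_pow 3
  | mul a b ha hb iha ihb =>
    have hab : Commute a b := hc a ha b hb
    rw [hab.mul_pow, iha, ihb, mul_one]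
  | inv a ha iha => rw [inv_pow, iha, inv_one]

theorem h8f_T_normal (hcl : ∀ g d : G, d ∈ D → g * d * g⁻¹ ∈ D) : (h8f_T D).Normal := by
  constructor
  intro n hn g
  have hle : (h8f_T D).map (MulAut.conj g).toMonoidHom ≤ h8f_T D := by
    unfold h8f_T
    rw [MonoidHom.map_closure]
    apply Subgroup.closure_mono
    rintro _ ⟨t, ⟨x, hx, y, hy, hxy, htw, rfl⟩, rfl⟩
    refine ⟨g * x * g⁻¹, hcl g x hx, g * y * g⁻¹, hcl g y hy, ?_, ?_, ?_⟩
    · intro h; apply hxy; simpa using h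
    · rw [ttDc_conj hcl g x, ttDc_conj hcl g y, htw]
    · show g * (x * y) * g⁻¹ = g * x * g⁻¹ * (g * y * g⁻¹)
      group
  exact hle ⟨n, hn, rfl⟩

theorem h8f_T4 [Finite G] (hs : Cfsg.IsThreeTranspositionSet D)
    (hcl : ∀ g d : G, d ∈ D → g * d * g⁻¹ ∈ D)
    (hL1 : ∀ d ∈ D, ∀ y ∈ ttDc D d, ∀ y' ∈ ttDc D d, y ≠ y' → ¬ Commute y y')
    (hL2 : ∀ d ∈ D, ∀ y ∈ ttDc D d, ∀ y' ∈ ttDc D d, ∀ w ∈ ttDc D d, y ≠ y' →
      w = y ∨ w = y' ∨ w = y * y' * y)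
    (hL3 : ∀ d ∈ D, ∃ y ∈ ttDc D d, ∃ y' ∈ ttDc D d, y ≠ y')
    (hA : ∀ d ∈ D, h8f_A D d)
    (h3 : ∀ d ∈ D, Nat.card (Cfsg.pCore 3 ↥(Subgroup.centralizer ({d} : Set G))) = 3)
    {e : G} (he : e ∈ D) {ρ ν : G} (hρ : ρ ∈ h8f_T D) (hν : ν ∈ h8f_T D)
    (hρe : Commute e ρ) (hνe : Commute e ν) (hρ1 : ρ ≠ 1) : ν = 1 ∨ ν = ρ ∨ ν = ρ⁻¹ := by
  have hcube := h8f_T_cube hs hcl hL1 hL2 hL3 hA
  have hcard := h3 e he
  obtain ⟨C, hC⟩ : ∃ C : Subgroup G, C = Subgroup.centralizer ({e} : Set G) := ⟨_, rfl⟩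
  rw [← hC] at hcard
  have hρC : ρ ∈ C := by
    rw [hC]; exact Subgroup.mem_centralizer_singleton_iff.mpr hρe.eq.symm
  have hνC : ν ∈ C := by
    rw [hC]; exact Subgroup.mem_centralizer_singleton_iff.mpr hνe.eq.symm
  have hN : ((h8f_T D).subgroupOf C).Normal := (h8f_T_normal hcl).subgroupOf C
  have hNp : IsPGroup 3 ↥((h8f_T D).subgroupOf C) := by
    intro n
    refine ⟨1, Subtype.ext (Subtype.ext ?_)⟩
    have h1 := hcube n.1.1 (Subgroup.mem_subgroupOf.mp n.2)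
    simpa using h1
  have hle := Cfsg.Agent.Lib.helper1.le_pCore hN hNp
  obtain ⟨ρ', hρ'⟩ : ∃ ρ' : ↥(Cfsg.pCore 3 ↥C), ρ'.1.1 = ρ :=
    ⟨⟨⟨ρ, hρC⟩, hle (Subgroup.mem_subgroupOf.mpr hρ)⟩, rfl⟩
  obtain ⟨ν', hν'⟩ : ∃ ν' : ↥(Cfsg.pCore 3 ↥C), ν'.1.1 = ν :=
    ⟨⟨⟨ν, hνC⟩, hle (Subgroup.mem_subgroupOf.mpr hν)⟩, rfl⟩
  haveI : Fact (Nat.Prime 3) := ⟨Nat.prime_three⟩
  have hρ'1 : ρ' ≠ 1 := by
    intro h
    apply hρ1
    rw [← hρ', h]; rfl
  have hmem : ν' ∈ Subgroup.zpowers ρ' := mem_zpowers_of_prime_card hcard hρ'1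
  obtain ⟨k, hk⟩ := Subgroup.mem_zpowers_iff.mp hmem
  have hk' : ρ ^ k = ν := by
    rw [← hρ', ← hν', ← hk]
    simp
  have hρ3 : ρ ^ 3 = 1 := hcube ρ hρ
  have hρ3' : ρ ^ (3 : ℤ) = 1 := by exact_mod_cast hρ3
  have h0 : ρ ^ k = ρ ^ (k % 3) := by
    conv_lhs => rw [← Int.emod_add_mul_ediv k 3]
    rw [zpow_add, zpow_mul, hρ3', one_zpow, mul_one]
  have h1 : 0 ≤ k % 3 := Int.emod_nonneg k (by norm_num)
  have h2 : k % 3 < 3 := Int.emod_lt_of_pos k (by norm_num)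
  obtain ⟨r, hr⟩ : ∃ r : ℤ, r = k % 3 := ⟨_, rfl⟩
  rw [← hr] at h0 h1 h2
  interval_cases r
  · left; rw [← hk', h0, zpow_zero]
  · right; left; rw [← hk', h0, zpow_one]
  · right; right
    rw [← hk', h0]
    apply eq_inv_of_mul_eq_one_left
    rw [← hρ3]
    group

end F5365d

end Cfsg.Agent.Lib.helper8
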