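import Mathlib
import Cfsg.Prelude.Def_Solvable
import Cfsg.Agent.Lib.helper8.F5365a
import Cfsg.Agent.Lib.helper8.F5365d

set_option autoImplicit false

namespace Cfsg.Agent.Lib.helper8

section F5365e
variable {G : Type*} [Group G] {D : Set G}

theorem h8f_noOut [Finite G] (hs : Cfsg.IsThreeTranspositionSet D)
    (hcl : ∀ g d : G, d ∈ D → g * d * g⁻¹ ∈ D)
    (hL1 : ∀ d ∈ D, ∀ y ∈ ttDc D d, ∀ y' ∈ ttDc D d, y ≠ y' → ¬ Commute y y')
    (hL2 : ∀ d ∈ D, ∀ y ∈ ttDc D d, ∀ y' ∈ ttDc D d, ∀ w ∈ ttDc D d, y ≠ y' →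
      w = y ∨ w = y' ∨ w = y * y' * y)
    (hL3 : ∀ d ∈ D, ∃ y ∈ ttDc D d, ∃ y' ∈ ttDc D d, y ≠ y')
    (hA : ∀ d ∈ D, h8f_A D d)
    (h3 : ∀ d ∈ D, Nat.card (Cfsg.pCore 3 ↥(Subgroup.centralizer ({d} : Set G))) = 3)
    {d a : G} (hd : d ∈ D) (ha : a ∈ ttDc D d) {e : G} (he : e ∈ D)
    (hed : e ∉ ttDc D d) (hea : e ∉ ttDc D a) : False := by
  have hTc := h8f_T_comm hs hcl hL1 hL2 hL3 hA
  have hTn : (h8f_T D).Normal := h8f_T_normal hcl
  have hda : d ∈ ttDc D a := h8f_symm hd ha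
  obtain ⟨b, hb, hba⟩ : ∃ b ∈ ttDc D d, b ≠ a := by
    obtain ⟨u, hu, v, hv, huv⟩ := hL3 d hd
    by_cases h : u = a
    · exact ⟨v, hv, fun h2 => huv (h.trans h2.symm)⟩
    · exact ⟨u, hu, h⟩
  obtain ⟨m, hm, hmd⟩ : ∃ m ∈ ttDc D a, m ≠ d := by
    obtain ⟨u, hu, v, hv, huv⟩ := hL3 a ha.1
    by_cases h : u = d
    · exact ⟨v, hv, fun h2 => huv (h.trans h2.symm)⟩
    · exact ⟨u, hu, h⟩
  have F1 : ∀ y ∈ ttDc D d, ttDc D y = ttDc D a :=
    fun y hy => h8f_TW hL1 hd (hA d hd) hy ha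
  have F2 : ∀ m' ∈ ttDc D a, ttDc D m' = ttDc D d :=
    fun m' hm' => h8f_TW hL1 ha.1 (hA a ha.1) hm' hda
  have hout : ∀ u ∈ D, u ∉ ttDc D d → u ∉ ttDc D a →
      (∀ v ∈ ttDc D d, ¬ Commute u v) ∧ (∀ v ∈ ttDc D a, ¬ Commute u v) := by
    intro u hu h1 h2
    constructor
    · intro v hv hc
      by_cases h : u = v
      · exact h1 (h ▸ hv)
      · have h4 : u ∈ ttDc D v := ⟨hu, h, hc.symm⟩
        rw [F1 v hv] at h4
        exact h2 h4
    · intro v hv hc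
      by_cases h : u = v
      · exact h2 (h ▸ hv)
      · have h4 : u ∈ ttDc D v := ⟨hu, h, hc.symm⟩
        rw [F2 v hv] at h4
        exact h1 h4
  have hout2 : ∀ u ∈ D, u ∉ ttDc D d → u ∉ ttDc D a → ∀ g ∈ ttDc D u,
      g ∉ ttDc D d ∧ g ∉ ttDc D a := by
    intro u hu h1 h2 g hg
    obtain ⟨o1, o2⟩ := hout u hu h1 h2
    exact ⟨fun h => o1 g h hg.2.2, fun h => o2 g h hg.2.2⟩
  obtain ⟨oe1, oe2⟩ := hout e he hed hea
  have hmb : m ∈ ttDc D b := by rw [F1 b hb]; exact hm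
  have nea : ¬ Commute e a := oe1 a ha
  have neb : ¬ Commute e b := oe1 b hb
  have ned : ¬ Commute e d := oe2 d hda
  have nem : ¬ Commute e m := oe2 m hm
  have aa := tt_sq hs ha.1
  have bb := tt_sq hs hb.1
  have dd := tt_sq hs hd
  have mm := tt_sq hs hm.1
  have ee := tt_sq hs he
  have einv := tt_inv hs he
  have nab : ¬ Commute a b := hL1 d hd a ha b hb (Ne.symm hba)
  have hx1 := h8f_J hs hcl ha.1 hm.1 he hm.2.2 (Ne.symm hm.2.1) nea nem
  have hx2 := h8f_J hs hcl hm.1 hb.1 he hmb.2.2.symm hmb.2.1 nem neb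
  obtain ⟨x1, hx1def⟩ : ∃ x1, x1 = (a * m) * e * (a * m)⁻¹ := ⟨_, rfl⟩
  obtain ⟨x2, hx2def⟩ : ∃ x2, x2 = (m * b) * e * (m * b)⁻¹ := ⟨_, rfl⟩
  rw [← hx1def] at hx1
  rw [← hx2def] at hx2
  obtain ⟨ox1d, ox1a⟩ := hout2 e he hed hea x1 hx1
  obtain ⟨ox2d, ox2a⟩ := hout2 e he hed hea x2 hx2
  obtain ⟨p1, p2⟩ := hout x1 hx1.1 ox1d ox1a
  obtain ⟨q1, q2⟩ := hout x2 hx2.1 ox2d ox2a
  have heτ := h8f_J hs hcl ha.1 hm.1 hx2.1 hm.2.2 (Ne.symm hm.2.1) (q1 a ha) (q2 m hm)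
  have heσ := h8f_J hs hcl hd ha.1 hx1.1 ha.2.2 (Ne.symm ha.2.1) (p2 d hda) (p1 a ha)
  obtain ⟨f, hf, -⟩ := hL3 e he
  rw [h8f_TW hL1 he (hA e he) hx2 hf] at heτ
  rw [h8f_TW hL1 he (hA e he) hx1 hf] at heσ
  obtain ⟨τ, hτdef⟩ : ∃ τ, τ = a * b := ⟨_, rfl⟩
  obtain ⟨σ, hσdef⟩ : ∃ σ, σ = d * m := ⟨_, rfl⟩
  have hτ1 : (a * m) * x2 * (a * m)⁻¹ = τ * e * τ⁻¹ := by
    have e1 : τ = (a * m) * (m * b) := by
      rw [hτdef]
      calc a * b = a * (m * m) * b := by rw [mm, mul_one]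
        _ = (a * m) * (m * b) := by group
    rw [e1, hx2def]; group
  have hσ1 : (d * a) * x1 * (d * a)⁻¹ = σ * e * σ⁻¹ := by
    have e1 : σ = (d * a) * (a * m) := by
      rw [hσdef]
      calc d * m = d * (a * a) * m := by rw [aa, mul_one]
        _ = (d * a) * (a * m) := by group
    rw [e1, hx1def]; group
  rw [hτ1] at heτ
  rw [hσ1] at heσ
  have hτT : τ ∈ h8f_T D := by
    rw [hτdef]
    exact Subgroup.subset_closure
      ⟨a, ha.1, b, hb.1, Ne.symm hba, (F1 b hb).symm, rfl⟩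
  have hσT : σ ∈ h8f_T D := by
    rw [hσdef]
    exact Subgroup.subset_closure
      ⟨d, hd, m, hm.1, Ne.symm hmd, (F2 m hm).symm, rfl⟩
  have hconjT : ∀ t ∈ h8f_T D, e * t * e ∈ h8f_T D := by
    intro t ht
    have h1 := hTn.conj_mem t ht e
    rwa [einv] at h1
  have hκτT : e * (τ * e * τ⁻¹) ∈ h8f_T D := by
    have h1 : e * (τ * e * τ⁻¹) = (e * τ * e) * τ⁻¹ := by group
    rw [h1]
    exact (h8f_T D).mul_mem (hconjT τ hτT) ((h8f_T D).inv_mem hτT)
  have hκσT : e * (σ * e * σ⁻¹) ∈ h8f_T D := by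
    have h1 : e * (σ * e * σ⁻¹) = (e * σ * e) * σ⁻¹ := by group
    rw [h1]
    exact (h8f_T D).mul_mem (hconjT σ hσT) ((h8f_T D).inv_mem hσT)
  have hfκτ : Commute f (e * (τ * e * τ⁻¹)) := hf.2.2.symm.mul_right heτ.2.2
  have hfκσ : Commute f (e * (σ * e * σ⁻¹)) := hf.2.2.symm.mul_right heσ.2.2
  have hκτ1 : e * (τ * e * τ⁻¹) ≠ 1 := by
    intro h
    apply hba
    symm
    apply h8f_triv hs he ha.1 hb.1 nea neb
    rw [← hτdef]
    show e * τ = τ * e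
    have h2 : τ * e * τ⁻¹ = e := by
      calc τ * e * τ⁻¹ = (e * e) * (τ * e * τ⁻¹) := by rw [ee, one_mul]
        _ = e * (e * (τ * e * τ⁻¹)) := by group
        _ = e := by rw [h, mul_one]
    calc e * τ = (τ * e * τ⁻¹) * τ := by rw [h2]
      _ = τ * e := by group
  have hκσ1 : e * (σ * e * σ⁻¹) ≠ 1 := by
    intro h
    apply hmd
    symm
    apply h8f_triv hs he hd hm.1 ned nem
    rw [← hσdef]
    show e * σ = σ * e
    have h2 : σ * e * σ⁻¹ = e := by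
      calc σ * e * σ⁻¹ = (e * e) * (σ * e * σ⁻¹) := by rw [ee, one_mul]
        _ = e * (e * (σ * e * σ⁻¹)) := by group
        _ = e := by rw [h, mul_one]
    calc e * σ = (σ * e * σ⁻¹) * σ := by rw [h2]
      _ = σ * e := by group
  have hT4 := h8f_T4 hs hcl hL1 hL2 hL3 hA h3 hf.1 hκτT hκσT hfκτ hfκσ hκτ1
  have cda : d * a = a * d := ha.2.2.eq
  have cdb : d * b = b * d := hb.2.2.eq
  have cam : a * m = m * a := hm.2.2.eq
  have hzτ : (a * d) * τ * (a * d)⁻¹ = τ⁻¹ := by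
    rw [hτdef, mul_inv_rev, mul_inv_rev, tt_inv hs ha.1, tt_inv hs hd, tt_inv hs hb.1]
    calc a * d * (a * b) * (d * a) = a * (d * a) * (b * d) * a := by group
      _ = a * (a * d) * (d * b) * a := by rw [cda, cdb]
      _ = (a * a) * (d * d) * b * a := by group
      _ = b * a := by rw [aa, dd, one_mul, one_mul]
  have hzσ : (a * d) * σ * (a * d)⁻¹ = σ⁻¹ := by
    rw [hσdef, mul_inv_rev, mul_inv_rev, tt_inv hs ha.1, tt_inv hs hd, tt_inv hs hm.1]
    calc a * d * (d * m) * (d * a) = a * (d * d) * m * (d * a) := by group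
      _ = (a * m) * (d * a) := by rw [dd, mul_one]
      _ = (m * a) * (a * d) := by rw [cam, cda]
      _ = m * (a * a) * d := by group
      _ = m * d := by rw [aa, mul_one]
  have hστ : σ * τ = τ * σ := hTc σ hσT τ hτT
  have hσa : a * σ = σ * a := by
    rw [hσdef]
    calc a * (d * m) = (a * d) * m := by group
      _ = (d * a) * m := by rw [cda]
      _ = d * (a * m) := by group
      _ = d * (m * a) := by rw [cam]
      _ = d * m * a := by group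
  obtain ⟨ν, hνT, hν1, hνe, hνz⟩ : ∃ ν ∈ h8f_T D, ν ≠ 1 ∧ Commute e ν ∧
      (a * d) * ν * (a * d)⁻¹ = ν⁻¹ := by
    rcases hT4 with h | h | h
    · exact absurd h hκσ1
    · refine ⟨τ⁻¹ * σ, (h8f_T D).mul_mem ((h8f_T D).inv_mem hτT) hσT, ?_, ?_, ?_⟩
      · intro h1
        apply nab
        have h2 : σ = τ := by
          calc σ = τ * (τ⁻¹ * σ) := by group
            _ = τ := by rw [h1, mul_one]
        rw [h2, hτdef] at hσa
        show a * b = b * a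
        calc a * b = (a * a) * (a * b) := by rw [aa, one_mul]
          _ = a * (a * (a * b)) := by group
          _ = a * (a * b * a) := by rw [hσa]
          _ = (a * a) * b * a := by group
          _ = b * a := by rw [aa, one_mul]
      · have h2 : σ * e * σ⁻¹ = τ * e * τ⁻¹ := mul_left_cancel h
        show e * (τ⁻¹ * σ) = τ⁻¹ * σ * e
        calc e * (τ⁻¹ * σ) = τ⁻¹ * (τ * e * τ⁻¹) * σ := by group
          _ = τ⁻¹ * (σ * e * σ⁻¹) * σ := by rw [h2]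
          _ = τ⁻¹ * σ * e := by group
      · calc (a * d) * (τ⁻¹ * σ) * (a * d)⁻¹
            = ((a * d) * τ * (a * d)⁻¹)⁻¹ * ((a * d) * σ * (a * d)⁻¹) := by group
          _ = τ * σ⁻¹ := by rw [hzτ, hzσ, inv_inv]
          _ = σ⁻¹ * (σ * τ) * σ⁻¹ := by group
          _ = σ⁻¹ * (τ * σ) * σ⁻¹ := by rw [hστ]
          _ = (τ⁻¹ * σ)⁻¹ := by group
    · refine ⟨σ * τ, (h8f_T D).mul_mem hσT hτT, ?_, ?_, ?_⟩
      · intro h1
        apply nab
        have h2 : σ = b * a := by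
          calc σ = (σ * τ) * τ⁻¹ := by group
            _ = b * a := by
              rw [h1, one_mul, hτdef, mul_inv_rev, tt_inv hs ha.1, tt_inv hs hb.1]
        rw [h2] at hσa
        show a * b = b * a
        calc a * b = a * (b * a) * a := by
              calc a * b = a * b * (a * a) := by rw [aa, mul_one]
                _ = a * (b * a) * a := by group
          _ = (b * a * a) * a := by rw [hσa]
          _ = b * (a * a) * a := by group
          _ = b * a := by rw [aa, mul_one]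
      · have ht'T : e * τ * e ∈ h8f_T D := hconjT τ hτT
        have hc1 : σ * (e * τ * e) = (e * τ * e) * σ := hTc σ hσT _ ht'T
        have h1 : (e * σ * e) * σ⁻¹ = τ * (e * τ * e)⁻¹ := by
          calc (e * σ * e) * σ⁻¹ = e * (σ * e * σ⁻¹) := by group
            _ = (e * (τ * e * τ⁻¹))⁻¹ := h
            _ = τ * e⁻¹ * τ⁻¹ * e⁻¹ := by group
            _ = τ * e * τ⁻¹ * e := by rw [einv]
            _ = τ * (e⁻¹ * τ * e⁻¹)⁻¹ := by group
            _ = τ * (e * τ * e)⁻¹ := by rw [einv]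
        have h2 : (e * σ * e) * (e * τ * e) = τ * σ := by
          calc (e * σ * e) * (e * τ * e) = ((e * σ * e) * σ⁻¹) * (σ * (e * τ * e)) := by group
            _ = (τ * (e * τ * e)⁻¹) * ((e * τ * e) * σ) := by rw [h1, hc1]
            _ = τ * σ := by group
        have h4 : e * (σ * τ) * e = σ * τ := by
          calc e * (σ * τ) * e = e * σ * (e * e) * τ * e := by rw [ee]; group
            _ = (e * σ * e) * (e * τ * e) := by group
            _ = τ * σ := h2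
            _ = σ * τ := hστ.symm
        show e * (σ * τ) = σ * τ * e
        calc e * (σ * τ) = e * (σ * τ) * (e * e) := by rw [ee, mul_one]
          _ = (e * (σ * τ) * e) * e := by group
          _ = σ * τ * e := by rw [h4]
      · calc (a * d) * (σ * τ) * (a * d)⁻¹
            = ((a * d) * σ * (a * d)⁻¹) * ((a * d) * τ * (a * d)⁻¹) := by group
          _ = σ⁻¹ * τ⁻¹ := by rw [hzτ, hzσ]
          _ = (τ * σ)⁻¹ := by group
          _ = (σ * τ)⁻¹ := by rw [hστ]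
  have hf' := h8f_J hs hcl ha.1 hd he ha.2.2.symm ha.2.1 nea ned
  obtain ⟨z, hzdef⟩ : ∃ z, z = a * d := ⟨_, rfl⟩
  rw [← hzdef] at hf' hνz
  obtain ⟨f', hf'def⟩ : ∃ f', f' = z * e * z⁻¹ := ⟨_, rfl⟩
  rw [← hf'def] at hf'
  have c2 : z * ν⁻¹ = ν * z := by
    calc z * ν⁻¹ = (z * ν * z⁻¹)⁻¹ * z := by group
      _ = ν * z := by rw [hνz, inv_inv]
  have c1 : z⁻¹ * ν = ν⁻¹ * z⁻¹ := by
    calc z⁻¹ * ν = z⁻¹ * (ν * z) * z⁻¹ := by group
      _ = z⁻¹ * (z * ν⁻¹) * z⁻¹ := by rw [c2]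
      _ = ν⁻¹ * z⁻¹ := by group
  have c3 : e * ν⁻¹ = ν⁻¹ * e := hνe.inv_right.eq
  have hf'ν : f' * ν = ν * f' := by
    rw [hf'def]
    calc z * e * z⁻¹ * ν = z * e * (z⁻¹ * ν) := by group
      _ = z * e * (ν⁻¹ * z⁻¹) := by rw [c1]
      _ = z * (e * ν⁻¹) * z⁻¹ := by group
      _ = z * (ν⁻¹ * e) * z⁻¹ := by rw [c3]
      _ = (z * ν⁻¹) * e * z⁻¹ := by group
      _ = (ν * z) * e * z⁻¹ := by rw [c2]
      _ = ν * (z * e * z⁻¹) := by group
  obtain ⟨f'', hf'', hne⟩ : ∃ f'' ∈ ttDc D e, f'' ≠ f' := by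
    obtain ⟨u, hu, v, hv, huv⟩ := hL3 e he
    by_cases h : u = f'
    · exact ⟨v, hv, fun h2 => huv (h.trans h2.symm)⟩
    · exact ⟨u, hu, h⟩
  have f'f' := tt_sq hs hf'.1
  have hρT : f' * f'' ∈ h8f_T D :=
    Subgroup.subset_closure
      ⟨f', hf'.1, f'', hf''.1, Ne.symm hne, h8f_TW hL1 he (hA e he) hf' hf'', rfl⟩
  have hρe : Commute e (f' * f'') := hf'.2.2.mul_right hf''.2.2
  have hρ1 : f' * f'' ≠ 1 := by
    intro h
    apply hne
    have h1 : f' = f''⁻¹ := eq_inv_of_mul_eq_one_left h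
    rw [h1, tt_inv hs hf''.1]
  have hcon : ¬ Commute f' (f' * f'') := by
    intro h
    apply hL1 e he f' hf' f'' hf'' (Ne.symm hne)
    have h1 : f' * (f' * f'') = f' * f'' * f' := h.eq
    show f' * f'' = f'' * f'
    calc f' * f'' = f' * f'' * (f' * f') := by rw [f'f', mul_one]
      _ = (f' * f'' * f') * f' := by group
      _ = (f' * (f' * f'')) * f' := by rw [h1]
      _ = (f' * f') * f'' * f' := by group
      _ = f'' * f' := by rw [f'f', one_mul]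
  rcases h8f_T4 hs hcl hL1 hL2 hL3 hA h3 he hρT hνT hρe hνe hρ1 with h | h | h
  · exact hν1 h
  · apply hcon
    rw [← h]
    exact hf'ν
  · apply hcon
    have h1 : Commute f' ν := hf'ν
    rw [h] at h1
    have h2 := h1.inv_right
    rwa [inv_inv] at h2

theorem h8f_caseA [Finite G] (hs : Cfsg.IsThreeTranspositionSet D)
    (hcl : ∀ g d : G, d ∈ D → g * d * g⁻¹ ∈ D)
    (hL1 : ∀ d ∈ D, ∀ y ∈ ttDc D d, ∀ y' ∈ ttDc D d, y ≠ y' → ¬ Commute y y')
    (hL2 : ∀ d ∈ D, ∀ y ∈ ttDc D d, ∀ y' ∈ ttDc D d, ∀ w ∈ ttDc D d, y ≠ y' →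
      w = y ∨ w = y' ∨ w = y * y' * y)
    (hL3 : ∀ d ∈ D, ∃ y ∈ ttDc D d, ∃ y' ∈ ttDc D d, y ≠ y')
    (hA : ∀ d ∈ D, h8f_A D d)
    (h3 : ∀ d ∈ D, Nat.card (Cfsg.pCore 3 ↥(Subgroup.centralizer ({d} : Set G))) = 3)
    (hloc : ∀ d ∈ D, Nonempty (↥(Subgroup.closure (ttDc D d)) ≃* Equiv.Perm (Fin 3)))
    {d : G} (hd : d ∈ D) :
    Nonempty (↥(Subgroup.closure D) ≃* Equiv.Perm (Fin 3) × Equiv.Perm (Fin 3)) := by
  obtain ⟨a, ha, -⟩ := hL3 d hd
  have hDall : ∀ e ∈ D, e ∈ ttDc D d ∨ e ∈ ttDc D a := by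
    intro e he
    by_contra h
    push Not at h
    exact h8f_noOut hs hcl hL1 hL2 hL3 hA h3 hd ha he h.1 h.2
  obtain ⟨ψ1⟩ := hloc d hd
  obtain ⟨ψ2⟩ := hloc a ha.1
  obtain ⟨H1, hH1⟩ : ∃ H1 : Subgroup G, H1 = Subgroup.closure (ttDc D d) := ⟨_, rfl⟩
  obtain ⟨H2, hH2⟩ : ∃ H2 : Subgroup G, H2 = Subgroup.closure (ttDc D a) := ⟨_, rfl⟩
  rw [← hH1] at ψ1
  rw [← hH2] at ψ2
  have F1 : ∀ y ∈ ttDc D d, ttDc D y = ttDc D a :=
    fun y hy => h8f_TW hL1 hd (hA d hd) hy ha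
  have h1 : H1 ≤ Subgroup.centralizer (ttDc D a) := by
    rw [hH1, Subgroup.closure_le]
    intro y hy
    refine Subgroup.mem_centralizer_iff.mpr (fun m hm => ?_)
    rw [← F1 y hy] at hm
    exact hm.2.2.eq.symm
  have h2 : H2 ≤ Subgroup.centralizer (H1 : Set G) := by
    rw [hH2, Subgroup.closure_le]
    intro m hm
    refine Subgroup.mem_centralizer_iff.mpr (fun u hu => ?_)
    exact ((Subgroup.mem_centralizer_iff.mp (h1 hu)) m hm).symm
  have hcomm : ∀ (u : ↥H1) (v : ↥H2), Commute (H1.subtype u) (H2.subtype v) := by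
    intro u v
    exact Subgroup.mem_centralizer_iff.mp (h2 v.2) u.1 u.2
  obtain ⟨φ, hφ⟩ : ∃ φ : ↥H1 × ↥H2 →* G,
      φ = MonoidHom.noncommCoprod H1.subtype H2.subtype hcomm := ⟨_, rfl⟩
  have hφapp : ∀ (u : ↥H1) (v : ↥H2), φ (u, v) = u.1 * v.1 := by
    intro u v
    rw [hφ, MonoidHom.noncommCoprod_apply]
    rfl
  have hinj : Function.Injective φ := by
    rw [injective_iff_map_eq_one]
    rintro ⟨u, v⟩ huv
    rw [hφapp] at huv
    have hu2 : u.1 ∈ H2 := by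
      have h5 : u.1 = v.1⁻¹ := eq_inv_of_mul_eq_one_left huv
      rw [h5]
      exact H2.inv_mem v.2
    have hcen : ∀ w : ↥H1, u * w = w * u := by
      intro w
      apply Subtype.ext
      exact ((Subgroup.mem_centralizer_iff.mp (h2 hu2)) w.1 w.2).symm
    have hu1 : u = 1 := by
      apply ψ1.injective
      rw [map_one]
      apply h8f_s3_center
      intro τ
      calc ψ1 u * τ = ψ1 (u * ψ1.symm τ) := by rw [map_mul, ψ1.apply_symm_apply]
        _ = ψ1 (ψ1.symm τ * u) := by rw [hcen]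
        _ = τ * ψ1 u := by rw [map_mul, ψ1.apply_symm_apply]
    have hv1 : v = 1 := by
      apply Subtype.ext
      rw [hu1] at huv
      simpa using huv
    rw [hu1, hv1]
    rfl
  have hrange : φ.range = Subgroup.closure D := by
    rw [hφ, MonoidHom.noncommCoprod_range, Subgroup.range_subtype, Subgroup.range_subtype,
      hH1, hH2, ← Subgroup.closure_union]
    congr 1
    ext e
    constructor
    · rintro (h | h)
      · exact h.1
      · exact h.1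
    · intro he
      exact hDall e he
  exact ⟨((MulEquiv.subgroupCongr hrange.symm).trans (MonoidHom.ofInjective hinj).symm).trans
    (MulEquiv.prodCongr ψ1 ψ2)⟩

end F5365e

end Cfsg.Agent.Lib.helper8
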