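import Cfsg.Agent.Lib.helper8.CN
import Cfsg.Agent.Lib.helper9.PPrimeCore
import Cfsg.Agent.Lib.helper1.Fitting
import Cfsg.Prelude.Def_OddOrderLocal

set_option autoImplicit false

namespace Cfsg.Agent.Lib.helper8

universe u

theorem fittingHall_le_fitting (G : Type*) [Group G] :
    Cfsg.fittingHall G ≤ Cfsg.fittingSubgroup G :=
  sSup_le_sSup (fun _ hN => ⟨hN.1, hN.2.1⟩)

theorem fittingHall_isNilpotent (G : Type*) [Group G] [Finite G] :
    Group.IsNilpotent (Cfsg.fittingHall G) :=
  isNilpotent_of_le' (fittingHall_le_fitting G) (Cfsg.Agent.Lib.helper1.fitting_isNilpotent G)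

theorem sylow_le_fittingHall {G : Type*} [Group G] [Finite G] {p : ℕ} [Fact p.Prime]
    (P : Sylow p G) (hP : (P : Subgroup G).Normal) : (P : Subgroup G) ≤ Cfsg.fittingHall G :=
  le_sSup ⟨hP, P.isPGroup'.isNilpotent, P.card_coprime_index⟩

theorem fittingHall_coprime (G : Type*) [Group G] [Finite G] :
    (Nat.card (Cfsg.fittingHall G)).Coprime (Cfsg.fittingHall G).index := by
  apply Nat.coprime_of_dvd
  intro r hr hdvd hidx
  have hex : ∃ N ∈ {N : Subgroup G | N.Normal ∧ Group.IsNilpotent N ∧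
      (Nat.card N).Coprime N.index}, r ∣ Nat.card N := by
    by_contra hcon
    push_neg at hcon
    have hle : Cfsg.fittingHall G ≤ Cfsg.pPrimeCore r G :=
      sSup_le (fun N hN => Cfsg.Agent.Lib.helper9.le_pPrimeCore hN.1
        ((Nat.Prime.coprime_iff_not_dvd hr).mpr (hcon N hN)).symm)
    have h1 := Cfsg.Agent.Lib.helper9.pPrimeCore_coprime r G
    have hd2 : r ∣ Nat.card (Cfsg.pPrimeCore r G) :=
      dvd_trans hdvd (Subgroup.card_dvd_of_le hle)
    exact (Nat.Prime.coprime_iff_not_dvd hr).mp h1.symm hd2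
  obtain ⟨N, hN, hrN⟩ := hex
  have h1 : r ∣ N.index := dvd_trans hidx (Subgroup.index_dvd_of_le (le_sSup hN))
  exact Nat.Prime.not_coprime_iff_dvd.mpr ⟨r, hr, hrN, h1⟩ hN.2.2

/-- A Sylow subgroup of `G` contained in a normal nilpotent subgroup is normal in `G`. -/
theorem sylow_normal_of_le_nilpotent_normal {G : Type u} [Group G] [Finite G] {q : ℕ}
    [Fact q.Prime] (Q : Sylow q G) (K : Subgroup G) [hK : K.Normal] (hKn : Group.IsNilpotent K)
    (hQK : (Q : Subgroup G) ≤ K) : (Q : Subgroup G).Normal := by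
  have h4 := ((isNilpotent_of_finite_tfae (G := K)).out 0 3).mp hKn
  have hn : ((Q.subtype hQK : Sylow q K) : Subgroup K).Normal := h4 q inferInstance _
  haveI : ((Q.subtype hQK : Sylow q K) : Subgroup K).Characteristic :=
    Sylow.characteristic_of_normal _ hn
  have h5 := ConjAct.normal_of_characteristic_of_normal (H := K)
    (K := ((Q.subtype hQK : Sylow q K) : Subgroup K))
  rw [Sylow.coe_subtype, Subgroup.map_subgroupOf_eq_of_le hQK] at h5
  exact h5

end Cfsg.Agent.Lib.helper8
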