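import Mathlib
import Cfsg.Agent.Lib.helper8.CoprimeAction
import Cfsg.Agent.Lib.helper8.PGroupEA
import Cfsg.Prelude.Def_OddOrderLocal

set_option autoImplicit false
open scoped commutatorElement

namespace Cfsg.Agent.Lib.helper8

universe u

theorem h8m_meta_surj {X : Type*} {Y : Type*} [Group X] [Group Y] (f : X →* Y)
    (hf : Function.Surjective f) (hX : Cfsg.IsMetacyclic X) : Cfsg.IsMetacyclic Y := by
  obtain ⟨N, hN, hNc, hQc⟩ := hX
  haveI := hN
  haveI : (N.map f).Normal := hN.map f hf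
  refine ⟨N.map f, inferInstance, ?_, ?_⟩
  · haveI := hNc
    exact isCyclic_of_surjective (f.subgroupMap N) (f.subgroupMap_surjective N)
  · haveI := hQc
    have hle : N ≤ (N.map f).comap f := Subgroup.le_comap_map f N
    apply isCyclic_of_surjective (QuotientGroup.map N (N.map f) f hle)
    intro q
    obtain ⟨y, rfl⟩ := QuotientGroup.mk_surjective q
    obtain ⟨x, rfl⟩ := hf y
    exact ⟨QuotientGroup.mk x, rfl⟩

theorem h8m_meta_sub {X : Type*} [Group X] (hX : Cfsg.IsMetacyclic X) (H : Subgroup X) :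
    Cfsg.IsMetacyclic H := by
  obtain ⟨N, hN, hNc, hQc⟩ := hX
  haveI := hN
  refine ⟨N.subgroupOf H, inferInstance, ?_, ?_⟩
  · haveI := hNc
    obtain ⟨g, hg⟩ : ∃ g : (N.subgroupOf H) →* N, ∀ x, ((g x : N) : X) = ((x : H) : X) :=
      ⟨{ toFun := fun x => ⟨((x : H) : X), Subgroup.mem_subgroupOf.mp x.2⟩
         map_one' := rfl
         map_mul' := fun _ _ => rfl }, fun _ => rfl⟩
    apply isCyclic_of_injective g
    intro x y hxy
    apply Subtype.ext
    apply Subtype.ext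
    rw [← hg x, ← hg y, hxy]
  · haveI := hQc
    have hle : N.subgroupOf H ≤ N.comap H.subtype := le_rfl
    apply isCyclic_of_injective (QuotientGroup.map (N.subgroupOf H) N H.subtype hle)
    rw [injective_iff_map_eq_one]
    intro q hq
    obtain ⟨x, rfl⟩ := QuotientGroup.mk_surjective q
    rw [QuotientGroup.map_mk, QuotientGroup.eq_one_iff] at hq
    rw [QuotientGroup.eq_one_iff]
    exact Subgroup.mem_subgroupOf.mpr hq

theorem h8m_meta_le {G : Type*} [Group G] {D R : Subgroup G} (h : D ≤ R)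
    (hR : Cfsg.IsMetacyclic R) : Cfsg.IsMetacyclic D :=
  h8m_meta_surj (Subgroup.subgroupOfEquivOfLe h).toMonoidHom
    (Subgroup.subgroupOfEquivOfLe h).surjective (h8m_meta_sub hR (D.subgroupOf R))

theorem h8m_card_le_of_cyclic_exp {N : Type*} [Group N] [IsCyclic N] (p : ℕ)
    (h : ∀ g : N, g ^ p = 1) (hp : 0 < p) : Nat.card N ≤ p := by
  obtain ⟨g, hg⟩ := IsCyclic.exists_generator (α := N)
  rw [← orderOf_eq_card_of_forall_mem_zpowers hg]
  exact Nat.le_of_dvd hp (orderOf_dvd_of_pow_eq_one (h g))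

theorem h8m_exp_card {X : Type*} [Group X] [Finite X] (hX : Cfsg.IsMetacyclic X) (p : ℕ)
    (hp : 0 < p) (h : ∀ g : X, g ^ p = 1) : Nat.card X ≤ p ^ 2 := by
  obtain ⟨N, hN, hNc, hQc⟩ := hX
  haveI := hN
  haveI := hNc
  haveI := hQc
  have h1 : Nat.card N ≤ p := h8m_card_le_of_cyclic_exp p (fun g => Subtype.ext (by
    rw [Subgroup.coe_pow, h, Subgroup.coe_one])) hp
  have h2 : Nat.card (X ⧸ N) ≤ p := h8m_card_le_of_cyclic_exp p (fun q => by
    obtain ⟨x, rfl⟩ := QuotientGroup.mk_surjective q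
    rw [← QuotientGroup.mk_pow, h, QuotientGroup.mk_one]) hp
  rw [Subgroup.card_eq_card_quotient_mul_card_subgroup N, pow_two]
  exact Nat.mul_le_mul h2 h1

theorem h8m_exp_card_sub {G : Type*} [Group G] [Finite G] (R P : Subgroup G)
    (hR : Cfsg.IsMetacyclic R) (hPR : P ≤ R) (p : ℕ) (hp : 0 < p) (h : ∀ g ∈ P, g ^ p = 1) :
    Nat.card P ≤ p ^ 2 :=
  h8m_exp_card (h8m_meta_le hPR hR) p hp (fun g => Subtype.ext (by
    rw [Subgroup.coe_pow, h g g.2, Subgroup.coe_one]))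

theorem h8m_lt_card {G : Type*} [Group G] [Finite G] {p : ℕ} (hp : p.Prime) {H K : Subgroup G}
    (hK : IsPGroup p K) (hlt : H < K) : p * Nat.card H ≤ Nat.card K := by
  haveI : Fact p.Prime := ⟨hp⟩
  obtain ⟨a, ha⟩ := (IsPGroup.iff_card).mp hK
  have hd : Nat.card H ∣ p ^ a := ha ▸ Subgroup.card_dvd_of_le hlt.le
  obtain ⟨b, hb, hb'⟩ := (Nat.dvd_prime_pow hp).mp hd
  have hne : b ≠ a := by
    intro e
    rw [e, ← ha] at hb'
    exact hlt.ne (Subgroup.eq_of_le_of_card_ge hlt.le hb'.ge)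
  rw [ha, hb', ← pow_succ']
  exact Nat.pow_le_pow_right hp.pos (by omega)

theorem h8m_noncyclic {P : Type*} [Group P] [Finite P] {p : ℕ} [Fact p.Prime]
    (hP : IsPGroup p P) (hnc : ¬ IsCyclic P) :
    ∃ M : Subgroup P, M.Normal ∧ (∀ c : P, c ^ p ∈ M) ∧ p ^ 2 * Nat.card M ≤ Nat.card P := by
  have hp : p.Prime := Fact.out
  obtain ⟨n, hn⟩ := (IsPGroup.iff_card).mp hP
  have hn1 : 1 ≤ n := by
    by_contra h
    have h0 : n = 0 := by omega
    rw [h0, pow_zero] at hn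
    haveI : Subsingleton P := (Nat.card_eq_one_iff_unique.mp hn).1
    exact hnc inferInstance
  have key : ∀ K : Subgroup P, Nat.card K = p ^ (n - 1) → K.Normal ∧ K.index = p := by
    intro K hK
    have hidx : K.index = p := by
      have h1 := K.card_mul_index
      rw [hK, hn] at h1
      have h2 : p ^ (n - 1) * p = p ^ n := by
        rw [← pow_succ]
        congr 1
        omega
      exact Nat.eq_of_mul_eq_mul_left (pow_pos hp.pos _) (h1.trans h2.symm)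
    refine ⟨Subgroup.normal_of_index_eq_minFac_card ?_, hidx⟩
    rw [hidx, hn, Nat.Prime.pow_minFac hp (by omega)]
  obtain ⟨M₁, hM₁⟩ := Sylow.exists_subgroup_card_pow_prime p (n := n - 1) (G := P)
    (by rw [hn]; exact pow_dvd_pow p (by omega))
  obtain ⟨hM₁n, hM₁i⟩ := key M₁ hM₁
  have hM₁top : M₁ ≠ ⊤ := by
    intro h
    rw [h, Subgroup.index_top] at hM₁i
    exact hp.one_lt.ne hM₁i
  obtain ⟨x, hx⟩ : ∃ x, x ∉ M₁ := by
    by_contra h
    push_neg at h
    exact hM₁top ((Subgroup.eq_top_iff' M₁).mpr h)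
  have hzx : Subgroup.zpowers x ≠ ⊤ := by
    intro h
    exact hnc (isCyclic_iff_exists_zpowers_eq_top.mpr ⟨x, h⟩)
  obtain ⟨m, hm⟩ := (IsPGroup.iff_card).mp (hP.to_subgroup (Subgroup.zpowers x))
  have hmn : m ≤ n - 1 := by
    by_contra h
    have h1 : p ^ n ≤ p ^ m := Nat.pow_le_pow_right hp.pos (by omega)
    rw [← hn, ← hm] at h1
    exact hzx (Subgroup.eq_top_of_le_card _ h1)
  obtain ⟨M₂, hM₂, hxM₂⟩ := Sylow.exists_subgroup_card_pow_prime_le p (m := n - 1)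
    (by rw [hn]; exact pow_dvd_pow p (by omega)) (Subgroup.zpowers x) hm hmn
  obtain ⟨hM₂n, hM₂i⟩ := key M₂ hM₂
  haveI := hM₁n
  haveI := hM₂n
  refine ⟨M₁ ⊓ M₂, inferInstance, ?_, ?_⟩
  · intro c
    have h1 := Subgroup.pow_index_mem M₁ c
    have h2 := Subgroup.pow_index_mem M₂ c
    rw [hM₁i] at h1
    rw [hM₂i] at h2
    exact ⟨h1, h2⟩
  · have hlt : M₁ ⊓ M₂ < M₁ := by
      refine lt_of_le_of_ne inf_le_left ?_
      intro h
      have h1 : M₁ ≤ M₂ := inf_eq_left.mp h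
      have h2 : M₁ = M₂ := Subgroup.eq_of_le_of_card_ge h1 (by rw [hM₁, hM₂])
      exact hx (h2 ▸ hxM₂ (Subgroup.mem_zpowers x))
    have h3 := h8m_lt_card hp (hP.to_subgroup M₁) hlt
    have h4 : p * Nat.card M₁ = Nat.card P := by
      rw [hM₁, hn, ← pow_succ']
      congr 1
      omega
    calc p ^ 2 * Nat.card (M₁ ⊓ M₂ : Subgroup P)
        = p * (p * Nat.card (M₁ ⊓ M₂ : Subgroup P)) := by ring
      _ ≤ p * Nat.card M₁ := Nat.mul_le_mul_left p h3
      _ = Nat.card P := h4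

theorem h8m_cm_mul_left {S : Type*} [Group S]
    (hc : ∀ x y g : S, g * (x * y * x⁻¹ * y⁻¹) = (x * y * x⁻¹ * y⁻¹) * g) (x x' y : S) :
    (x * x') * y * (x * x')⁻¹ * y⁻¹ = (x * y * x⁻¹ * y⁻¹) * (x' * y * x'⁻¹ * y⁻¹) := by
  calc (x * x') * y * (x * x')⁻¹ * y⁻¹
      = x * (x' * y * x'⁻¹ * y⁻¹) * (y * x⁻¹ * y⁻¹) := by group
    _ = (x' * y * x'⁻¹ * y⁻¹) * x * (y * x⁻¹ * y⁻¹) := by rw [hc x' y x]
    _ = (x' * y * x'⁻¹ * y⁻¹) * (x * y * x⁻¹ * y⁻¹) := by group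
    _ = (x * y * x⁻¹ * y⁻¹) * (x' * y * x'⁻¹ * y⁻¹) := (hc x' y _).symm

theorem h8m_cm_mul_right {S : Type*} [Group S]
    (hc : ∀ x y g : S, g * (x * y * x⁻¹ * y⁻¹) = (x * y * x⁻¹ * y⁻¹) * g) (x y y' : S) :
    x * (y * y') * x⁻¹ * (y * y')⁻¹ = (x * y * x⁻¹ * y⁻¹) * (x * y' * x⁻¹ * y'⁻¹) := by
  calc x * (y * y') * x⁻¹ * (y * y')⁻¹
      = (x * y * x⁻¹ * y⁻¹) * (y * (x * y' * x⁻¹ * y'⁻¹)) * y⁻¹ := by group
    _ = (x * y * x⁻¹ * y⁻¹) * ((x * y' * x⁻¹ * y'⁻¹) * y) * y⁻¹ := by rw [hc x y' y]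
    _ = (x * y * x⁻¹ * y⁻¹) * (x * y' * x⁻¹ * y'⁻¹) := by group

theorem h8m_cm_pow_left {S : Type*} [Group S]
    (hc : ∀ x y g : S, g * (x * y * x⁻¹ * y⁻¹) = (x * y * x⁻¹ * y⁻¹) * g) (x y : S) (n : ℕ) :
    x ^ n * y * (x ^ n)⁻¹ * y⁻¹ = (x * y * x⁻¹ * y⁻¹) ^ n := by
  induction n with
  | zero => simp
  | succ n ih => rw [pow_succ, h8m_cm_mul_left hc, ih, pow_succ]

theorem h8m_cm_pow_right {S : Type*} [Group S]
    (hc : ∀ x y g : S, g * (x * y * x⁻¹ * y⁻¹) = (x * y * x⁻¹ * y⁻¹) * g) (x y : S) (n : ℕ) :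
    x * y ^ n * x⁻¹ * (y ^ n)⁻¹ = (x * y * x⁻¹ * y⁻¹) ^ n := by
  induction n with
  | zero => simp
  | succ n ih => rw [pow_succ, h8m_cm_mul_right hc, ih, pow_succ]

theorem h8m_pow_mul_comm {S : Type*} [Group S] (x y c : S) (hx : Commute x c) (hy : Commute y c)
    (hyx : y * x = x * y * c) (n : ℕ) : y ^ n * x = x * y ^ n * c ^ n := by
  induction n with
  | zero => simp
  | succ n ih =>
    have h1 : Commute (y ^ n) c := hy.pow_left n
    calc y ^ (n + 1) * x = y * (y ^ n * x) := by rw [pow_succ', mul_assoc]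
      _ = y * (x * y ^ n * c ^ n) := by rw [ih]
      _ = (y * x) * y ^ n * c ^ n := by simp only [mul_assoc]
      _ = x * y * c * y ^ n * c ^ n := by rw [hyx]
      _ = x * y * (c * y ^ n) * c ^ n := by simp only [mul_assoc]
      _ = x * y * (y ^ n * c) * c ^ n := by rw [h1.eq]
      _ = x * (y * y ^ n) * (c * c ^ n) := by simp only [mul_assoc]
      _ = x * y ^ (n + 1) * c ^ (n + 1) := by rw [← pow_succ', ← pow_succ']

theorem h8m_mul_pow {S : Type*} [Group S] (x y c : S) (hx : Commute x c) (hy : Commute y c)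
    (hyx : y * x = x * y * c) (n : ℕ) : (x * y) ^ n = x ^ n * y ^ n * c ^ (n.choose 2) := by
  induction n with
  | zero => simp
  | succ n ih =>
    have h1 := h8m_pow_mul_comm x y c hx hy hyx n
    have hxy : Commute (x * y) (c ^ (n.choose 2)) := (hx.mul_left hy).pow_right _
    have hyc : Commute y (c ^ n) := hy.pow_right n
    have hch : (n + 1).choose 2 = n + n.choose 2 := by
      rw [show (2 : ℕ) = 1 + 1 from rfl, Nat.choose_succ_succ, Nat.choose_one_right]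
    calc (x * y) ^ (n + 1) = (x * y) ^ n * (x * y) := pow_succ _ _
      _ = x ^ n * y ^ n * c ^ (n.choose 2) * (x * y) := by rw [ih]
      _ = x ^ n * y ^ n * (c ^ (n.choose 2) * (x * y)) := by simp only [mul_assoc]
      _ = x ^ n * y ^ n * ((x * y) * c ^ (n.choose 2)) := by rw [hxy.eq]
      _ = x ^ n * (y ^ n * x) * y * c ^ (n.choose 2) := by simp only [mul_assoc]
      _ = x ^ n * (x * y ^ n * c ^ n) * y * c ^ (n.choose 2) := by rw [h1]
      _ = x ^ n * x * y ^ n * (c ^ n * y) * c ^ (n.choose 2) := by simp only [mul_assoc]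
      _ = x ^ n * x * y ^ n * (y * c ^ n) * c ^ (n.choose 2) := by rw [hyc.eq]
      _ = (x ^ n * x) * (y ^ n * y) * (c ^ n * c ^ (n.choose 2)) := by simp only [mul_assoc]
      _ = x ^ (n + 1) * y ^ (n + 1) * c ^ ((n + 1).choose 2) := by
          rw [← pow_succ, ← pow_succ, ← pow_add, hch]

theorem h8m_choose_pow {S : Type*} [Group S] {p : ℕ} (hp : p.Prime) (hp2 : p ≠ 2) (c : S)
    (hc : c ^ p = 1) : c ^ (p.choose 2) = 1 := by
  have h3 : 2 < p := lt_of_le_of_ne hp.two_le (Ne.symm hp2)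
  obtain ⟨k, hk⟩ := hp.dvd_choose_self (by norm_num) h3
  rw [hk, pow_mul, hc, one_pow]

theorem h8m_exp_p {G : Type u} [Group G] [Finite G] {p : ℕ} [Fact p.Prime] (hp2 : p ≠ 2)
    (W : Subgroup G) (hWp : IsPGroup p W)
    (hWab : ∀ u ∈ W, ∀ v ∈ W, u * v = v * u) (hWexp : ∀ v ∈ W, v ^ p = 1)
    (hWcard : Nat.card W = p ^ 2) (c : G) (hcp : c ^ p = 1)
    (hcW : c ∈ Subgroup.normalizer (W : Set G)) (v : G) (hv : v ∈ W) : (v * c) ^ p = 1 := by
  have hp : p.Prime := Fact.out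
  have hCp : IsPGroup p (Subgroup.zpowers c) := by
    rcases eq_or_ne c 1 with h1 | h1
    · apply IsPGroup.of_card (n := 0)
      rw [Nat.card_zpowers, h1, orderOf_one, pow_zero]
    · apply IsPGroup.of_card (n := 1)
      rw [Nat.card_zpowers, pow_one]
      exact orderOf_eq_prime hcp h1
  have hCW : Subgroup.zpowers c ≤ Subgroup.normalizer (W : Set G) := by
    rw [Subgroup.zpowers_le]
    exact hcW
  obtain ⟨U₁, hU₁⟩ : ∃ U₁ : Subgroup G, U₁ = ⁅W, Subgroup.zpowers c⁆ := ⟨_, rfl⟩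
  have hU₁W : U₁ ≤ W := by
    rw [hU₁]
    exact commutator_le_of_le_normalizer hCW
  have hU₁ne : U₁ ≠ W := by
    intro h
    have h1 := eq_bot_of_commutator_eq_self hWp hCp hCW (hU₁ ▸ h)
    rw [h1, Subgroup.card_bot] at hWcard
    have : 1 < p ^ 2 := Nat.one_lt_pow (by norm_num) hp.one_lt
    omega
  have hU₁card : Nat.card U₁ ≤ p := card_le_of_lt_of_card_sq hp (lt_of_le_of_ne hU₁W hU₁ne) hWcard
  have hCU₁ : Subgroup.zpowers c ≤ Subgroup.normalizer (U₁ : Set G) := by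
    rw [hU₁]
    exact le_normalizer_commutator_right hCW
  have hU₁p : IsPGroup p U₁ := hWp.to_le hU₁W
  have hU₂ : ⁅U₁, Subgroup.zpowers c⁆ = ⊥ := by
    by_contra hne
    have hle : ⁅U₁, Subgroup.zpowers c⁆ ≤ U₁ := commutator_le_of_le_normalizer hCU₁
    have hne' : ⁅U₁, Subgroup.zpowers c⁆ ≠ U₁ := by
      intro h
      have h1 := eq_bot_of_commutator_eq_self hU₁p hCp hCU₁ h
      rw [h1] at h
      exact hne (by rw [h1]; exact h)
    have h2 := h8m_lt_card hp hU₁p (lt_of_le_of_ne hle hne')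
    have h3 : 0 < Nat.card (⁅U₁, Subgroup.zpowers c⁆ : Subgroup G) := Nat.card_pos
    have h4 : p * 1 ≤ p * Nat.card (⁅U₁, Subgroup.zpowers c⁆ : Subgroup G) :=
      Nat.mul_le_mul_left p h3
    have h5 : Nat.card (⁅U₁, Subgroup.zpowers c⁆ : Subgroup G) = 1 := by
      have : p * Nat.card (⁅U₁, Subgroup.zpowers c⁆ : Subgroup G) ≤ p * 1 := by
        rw [mul_one]
        exact h2.trans hU₁card
      have := Nat.le_of_mul_le_mul_left this hp.pos
      omega
    exact hne (Subgroup.card_eq_one.mp h5)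
  obtain ⟨cc, hcc⟩ : ∃ cc, cc = c⁻¹ * v⁻¹ * c * v := ⟨_, rfl⟩
  have hccU : cc ∈ U₁ := by
    have h1 : ⁅v⁻¹, c⁻¹⁆ ∈ ⁅W, Subgroup.zpowers c⁆ :=
      Subgroup.commutator_mem_commutator (W.inv_mem hv)
        ((Subgroup.zpowers c).inv_mem (Subgroup.mem_zpowers c))
    have h2 := (⁅W, Subgroup.zpowers c⁆).inv_mem h1
    rw [commutatorElement_inv, commutatorElement_def, inv_inv, inv_inv] at h2
    rw [hU₁, hcc]
    exact h2
  have hccv : Commute v cc := hWab v hv cc (hU₁W hccU)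
  have hccc : Commute c cc := by
    have h1 : ⁅cc, c⁆ ∈ ⁅U₁, Subgroup.zpowers c⁆ :=
      Subgroup.commutator_mem_commutator hccU (Subgroup.mem_zpowers c)
    rw [hU₂, Subgroup.mem_bot, commutatorElement_eq_one_iff_commute] at h1
    exact h1.symm
  have hyx : c * v = v * c * cc := by rw [hcc]; group
  rw [h8m_mul_pow v c cc hccv hccc hyx p, hWexp v hv, hcp,
    h8m_choose_pow hp hp2 cc (hWexp cc (hU₁W hccU)), one_mul, one_mul]

end Cfsg.Agent.Lib.helper8
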