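import Cfsg.Agent.Lib.helper8.Meta1

set_option autoImplicit false
open scoped commutatorElement

namespace Cfsg.Agent.Lib.helper8

universe u

theorem h8m_pow_eq_of_card {S : Type*} [Group S] (Z : Subgroup S) {p : ℕ}
    (h : Nat.card Z = p) (z : S) (hz : z ∈ Z) : z ^ p = 1 := by
  have h1 := pow_card_eq_one' (G := Z) (x := ⟨z, hz⟩)
  rw [h] at h1
  have h2 := congrArg Subtype.val h1
  rw [Subgroup.coe_pow] at h2
  exact h2

theorem h8m_kc_class2 {S : Type u} [Group S] [Finite S] (p : ℕ) [Fact p.Prime] (hp2 : p ≠ 2)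
    (hS : IsPGroup p S) (hM : Cfsg.IsMetacyclic S) (𝒜 : Set (S ≃* S))
    (hH : ∀ M : Subgroup S, M.Normal → (∀ a ∈ 𝒜, ∀ m ∈ M, a m ∈ M) →
      (∀ x y : S, x * y * x⁻¹ * y⁻¹ ∈ M) → ∀ s : S, (∀ a ∈ 𝒜, s⁻¹ * a s ∈ M) → s ∈ M)
    (Z₀ : Subgroup S) (hZ₀n : Z₀.Normal) (hZ₀card : Nat.card Z₀ = p)
    (hZ₀A : ∀ a ∈ 𝒜, ∀ z ∈ Z₀, a z ∈ Z₀)
    (hcomm : ∀ x y : S, x * y * x⁻¹ * y⁻¹ ∈ Z₀)
    (x₀ y₀ : S) (hxy₀ : x₀ * y₀ ≠ y₀ * x₀) : False := by
  classical
  have hp : p.Prime := Fact.out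
  have hZ₀bot : Z₀ ≠ ⊥ := by
    intro h
    rw [h, Subgroup.card_bot] at hZ₀card
    exact hp.one_lt.ne hZ₀card
  obtain ⟨s₀, hs₀Z, hs₀1, hs₀c⟩ := exists_central_of_pgroup Z₀ ⊤ (hS.to_subgroup ⊤) le_top
    hZ₀bot (by rw [Subgroup.normalizer_eq_top])
  have hs₀c' : ∀ g : S, g * s₀ = s₀ * g := fun g => hs₀c g (Subgroup.mem_top g)
  have hZexp : ∀ z ∈ Z₀, z ^ p = 1 := fun z hz => h8m_pow_eq_of_card Z₀ hZ₀card z hz
  have hs₀ord : orderOf s₀ = p := orderOf_eq_prime (hZexp s₀ hs₀Z) hs₀1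
  have hgen : Subgroup.zpowers s₀ = Z₀ := by
    apply Subgroup.eq_of_le_of_card_ge
    · rw [Subgroup.zpowers_le]; exact hs₀Z
    · rw [Nat.card_zpowers, hs₀ord, hZ₀card]
  have hpows : ∀ z ∈ Z₀, ∃ k : ℕ, s₀ ^ k = z := by
    intro z hz
    rw [← hgen] at hz
    exact (Submonoid.mem_powers_iff _ _).mp (mem_powers_iff_mem_zpowers.mpr hz)
  have hZcen : ∀ z ∈ Z₀, ∀ g : S, g * z = z * g := by
    intro z hz g
    obtain ⟨k, rfl⟩ := hpows z hz
    exact ((show Commute g s₀ from hs₀c' g).pow_right k).eq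
  have hc : ∀ x y g : S, g * (x * y * x⁻¹ * y⁻¹) = (x * y * x⁻¹ * y⁻¹) * g :=
    fun x y g => hZcen _ (hcomm x y) g
  have hpowmul : ∀ x y : S, (x * y) ^ p = x ^ p * y ^ p := by
    intro x y
    obtain ⟨c, hcdef⟩ : ∃ c, c = y⁻¹ * x⁻¹ * y * x := ⟨_, rfl⟩
    have hcZ : c ∈ Z₀ := by
      have := hcomm y⁻¹ x⁻¹
      rw [inv_inv, inv_inv] at this
      rw [hcdef]
      exact this
    have hxc : Commute x c := hZcen c hcZ x
    have hyc : Commute y c := hZcen c hcZ y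
    have hyx : y * x = x * y * c := by rw [hcdef]; group
    rw [h8m_mul_pow x y c hxc hyc hyx p, h8m_choose_pow hp hp2 c (hZexp c hcZ), mul_one]
  have hpcen : ∀ x g : S, g * x ^ p = x ^ p * g := by
    intro x g
    have h1 := h8m_cm_pow_left hc x g p
    rw [hZexp _ (hcomm x g)] at h1
    have h2 : x ^ p * g = g * x ^ p := by
      calc x ^ p * g = (x ^ p * g * (x ^ p)⁻¹ * g⁻¹) * (g * x ^ p) := by group
        _ = g * x ^ p := by rw [h1, one_mul]
    exact h2.symm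
  obtain ⟨Ψ, hΨ⟩ : ∃ Ψ : ℕ → S →* S, ∀ i g, Ψ i g = g ^ (p ^ (i + 1)) := by
    refine ⟨fun i => MonoidHom.mk' (fun g => g ^ (p ^ (i + 1))) ?_, fun i g => rfl⟩
    intro x y
    have hcm : Commute (x ^ p) (y ^ p) := hpcen y (x ^ p)
    show (x * y) ^ (p ^ (i + 1)) = x ^ (p ^ (i + 1)) * y ^ (p ^ (i + 1))
    rw [pow_succ' p i, pow_mul, pow_mul, pow_mul, hpowmul, hcm.mul_pow]
  have hΨ0 : ∀ g, Ψ 0 g = g ^ p := by
    intro g
    rw [hΨ, zero_add, pow_one]
  have hΩ : Nat.card (Ψ 0).ker ≤ p ^ 2 := by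
    apply h8m_exp_card (h8m_meta_sub hM (Ψ 0).ker) p hp.pos
    intro g
    apply Subtype.ext
    rw [Subgroup.coe_pow, Subgroup.coe_one, ← hΨ0]
    exact MonoidHom.mem_ker.mp g.2
  have hrc : (Ψ 0).range ≤ Subgroup.center S := by
    rintro _ ⟨g, rfl⟩
    rw [Subgroup.mem_center_iff, hΨ0]
    exact fun h => hpcen g h
  have hcard1 : Nat.card (Ψ 0).ker * Nat.card (Ψ 0).range = Nat.card S := by
    rw [← Subgroup.index_ker]
    exact Subgroup.card_mul_index _
  have hcen2 : p ^ 2 * Nat.card (Subgroup.center S) ≤ Nat.card S := by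
    obtain ⟨m, hm⟩ := (IsPGroup.iff_card).mp hS
    obtain ⟨z, hz⟩ := (IsPGroup.iff_card).mp (hS.to_subgroup (Subgroup.center S))
    have hmul := (Subgroup.center S).card_mul_index
    have hidx : (Subgroup.center S).index = Nat.card (S ⧸ Subgroup.center S) := rfl
    have hz2 : z + 2 ≤ m := by
      by_contra hlt
      have hzm : z ≤ m := by
        have := Subgroup.card_le_card_group (Subgroup.center S)
        rw [hz, hm] at this
        exact (Nat.pow_le_pow_iff_right hp.one_lt).mp this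
      have hcyc : IsCyclic (S ⧸ Subgroup.center S) := by
        rcases (show z = m ∨ z + 1 = m by omega) with h | h
        · have h1 : (Subgroup.center S).index = 1 := by
            rw [hz, hm, h] at hmul
            exact Nat.eq_of_mul_eq_mul_left (pow_pos hp.pos _) (by rw [hmul, mul_one])
          haveI : Subsingleton (S ⧸ Subgroup.center S) := by
            rw [hidx] at h1
            exact (Nat.card_eq_one_iff_unique.mp h1).1
          infer_instance
        · have h1 : (Subgroup.center S).index = p := by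
            rw [hz, hm, ← h, pow_succ] at hmul
            exact Nat.eq_of_mul_eq_mul_left (pow_pos hp.pos _) hmul
          rw [hidx] at h1
          exact isCyclic_of_prime_card h1
      exact hxy₀ (commutative_of_cyclic_center_quotient
        (QuotientGroup.mk' (Subgroup.center S)) (by rw [QuotientGroup.ker_mk']) x₀ y₀)
    rw [hm, hz, ← pow_add]
    exact Nat.pow_le_pow_right hp.pos (by omega)
  obtain ⟨hrange, hcen3⟩ : (Ψ 0).range = Subgroup.center S ∧
      p ^ 2 * Nat.card (Subgroup.center S) = Nat.card S := by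
    have h1 : Nat.card (Ψ 0).range ≤ Nat.card (Subgroup.center S) := Subgroup.card_le_of_le hrc
    have h2 : Nat.card S ≤ p ^ 2 * Nat.card (Ψ 0).range := by
      rw [← hcard1]
      exact Nat.mul_le_mul_right _ hΩ
    have h3 : p ^ 2 * Nat.card (Ψ 0).range ≤ p ^ 2 * Nat.card (Subgroup.center S) :=
      Nat.mul_le_mul_left _ h1
    have h4 : p ^ 2 * Nat.card (Ψ 0).range = p ^ 2 * Nat.card (Subgroup.center S) :=
      le_antisymm h3 (hcen2.trans h2)
    have h5 : Nat.card (Ψ 0).range = Nat.card (Subgroup.center S) :=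
      Nat.eq_of_mul_eq_mul_left (pow_pos hp.pos 2) h4
    exact ⟨Subgroup.eq_of_le_of_card_ge hrc h5.ge, le_antisymm hcen2 (h2.trans h3)⟩
  have hs₀r : s₀ ∈ (Ψ 0).range := by
    rw [hrange, Subgroup.mem_center_iff]
    exact hs₀c'
  have hex : ∃ n, s₀ ∉ (Ψ n).range := by
    obtain ⟨m, hm⟩ := (IsPGroup.iff_card).mp hS
    refine ⟨m, ?_⟩
    rintro ⟨g, hg⟩
    rw [hΨ, pow_succ, pow_mul, ← hm, pow_card_eq_one', one_pow] at hg
    exact hs₀1 hg.symm
  obtain ⟨i, hi1, hi2⟩ : ∃ i, s₀ ∈ (Ψ i).range ∧ s₀ ∉ (Ψ (i + 1)).range := by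
    have hfind := Nat.find_spec hex
    have hn0 : Nat.find hex ≠ 0 := by
      intro h0
      rw [h0] at hfind
      exact hfind hs₀r
    refine ⟨Nat.find hex - 1, ?_, ?_⟩
    · have := Nat.find_min hex (show Nat.find hex - 1 < Nat.find hex by omega)
      exact not_not.mp this
    · have e : Nat.find hex - 1 + 1 = Nat.find hex := by omega
      rw [e]
      exact hfind
  obtain ⟨w, hw⟩ := hi1
  obtain ⟨K, hK⟩ : ∃ K : Subgroup S, K = (Ψ (i + 1)).range.comap (Ψ i) := ⟨_, rfl⟩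
  have hKmem : ∀ x, x ∈ K ↔ ∃ g, Ψ (i + 1) g = Ψ i x := by
    intro x
    rw [hK, Subgroup.mem_comap, MonoidHom.mem_range]
  have hΨΨ : ∀ g, Ψ i (g ^ p) = Ψ (i + 1) g := by
    intro g
    rw [hΨ, hΨ, ← pow_mul, ← pow_succ']
  have hZK : Subgroup.center S ≤ K := by
    intro ζ hζ
    rw [← hrange] at hζ
    obtain ⟨g, rfl⟩ := hζ
    rw [hKmem]
    exact ⟨g, by rw [hΨ0, hΨΨ]⟩
  have hwK : w ∉ K := by
    rw [hKmem]
    rintro ⟨g, hg⟩
    exact hi2 ⟨g, hg.trans hw⟩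
  have hKA : ∀ a ∈ 𝒜, ∀ x ∈ K, a x ∈ K := by
    intro a ha x hx
    rw [hKmem] at hx ⊢
    obtain ⟨g, hg⟩ := hx
    refine ⟨a g, ?_⟩
    have h1 := congrArg a hg
    rw [hΨ, hΨ, map_pow, map_pow] at h1
    rw [hΨ, hΨ]
    exact h1
  have hlam : ∀ a ∈ 𝒜, ∃ l : ℕ, ¬ p ∣ l ∧ (∀ z ∈ Z₀, a z = z ^ l) ∧ (w ^ l)⁻¹ * a w ∈ K := by
    intro a ha
    obtain ⟨l, hl⟩ := hpows (a s₀) (hZ₀A a ha s₀ hs₀Z)
    have hpl : ¬ p ∣ l := by
      rintro ⟨t, rfl⟩
      rw [pow_mul, hZexp s₀ hs₀Z, one_pow] at hl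
      exact hs₀1 (a.injective (by rw [← hl, map_one]))
    have hz : ∀ z ∈ Z₀, a z = z ^ l := by
      intro z hz
      obtain ⟨k, rfl⟩ := hpows z hz
      rw [map_pow, ← hl, ← pow_mul, ← pow_mul, mul_comm l k]
    refine ⟨l, hpl, hz, ?_⟩
    rw [hKmem]
    refine ⟨1, ?_⟩
    have h1 : Ψ i (a w) = a s₀ := by
      have h2 := congrArg a hw
      rw [hΨ, map_pow] at h2
      rw [hΨ]
      exact h2
    rw [map_one, map_mul, map_inv, map_pow, hw, h1, ← hl, inv_mul_cancel]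
  have hcm1 : ∀ g : S, ∀ ζ ∈ Subgroup.center S, ζ * g * ζ⁻¹ * g⁻¹ = 1 := by
    intro g ζ hζ
    have := Subgroup.mem_center_iff.mp hζ g
    rw [← this]
    group
  have hacm : ∀ (a : S ≃* S) (x y : S),
      a (x * y * x⁻¹ * y⁻¹) = a x * a y * (a x)⁻¹ * (a y)⁻¹ := by
    intro a x y
    rw [map_mul, map_mul, map_mul, map_inv, map_inv]
  have hcanc : ∀ (l : ℕ), ¬ p ∣ l → ∀ u ∈ Z₀, ∀ v ∈ Z₀, u ^ l = v ^ l → u = v := by
    intro l hl u hu v hv huv
    have hcomuv : Commute u v⁻¹ := (hZcen u hu v⁻¹).symm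
    have h1 : (u * v⁻¹) ^ l = 1 := by rw [hcomuv.mul_pow, inv_pow, huv, mul_inv_cancel]
    have h2 : (u * v⁻¹) ^ p = 1 := hZexp _ (Z₀.mul_mem hu (Z₀.inv_mem hv))
    have h3 : orderOf (u * v⁻¹) ∣ Nat.gcd l p :=
      Nat.dvd_gcd (orderOf_dvd_of_pow_eq_one h1) (orderOf_dvd_of_pow_eq_one h2)
    have h4 : Nat.gcd l p = 1 := by
      rw [Nat.gcd_comm]
      exact (Nat.Prime.coprime_iff_not_dvd hp).mpr hl
    rw [h4, Nat.dvd_one, orderOf_eq_one_iff] at h3
    exact mul_inv_eq_one.mp h3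
  have hcomiff : ∀ u g : S, u * g = g * u ↔ u * g * u⁻¹ * g⁻¹ = 1 := by
    intro u g
    constructor
    · intro h
      rw [h]
      group
    · intro h
      calc u * g = (u * g * u⁻¹ * g⁻¹) * (g * u) := by group
        _ = g * u := by rw [h, one_mul]
  have hcenA : ∀ a ∈ 𝒜, ∀ m ∈ Subgroup.center S, a m ∈ Subgroup.center S := by
    intro a ha m hm
    rw [Subgroup.mem_center_iff] at hm ⊢
    intro g
    obtain ⟨g', rfl⟩ := a.surjective g
    rw [← map_mul, ← map_mul, hm g']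
  have hcencomm : ∀ x y : S, x * y * x⁻¹ * y⁻¹ ∈ Subgroup.center S :=
    fun x y => Subgroup.mem_center_iff.mpr (fun g => hc x y g)
  by_cases hcase : K ≤ Subgroup.center S
  · have hinv : ∀ a ∈ 𝒜, ∀ x : S, w * a x * w⁻¹ * (a x)⁻¹ = w * x * w⁻¹ * x⁻¹ := by
      intro a ha x
      obtain ⟨l, hpl, hz, hκ⟩ := hlam a ha
      obtain ⟨κ, hκdef⟩ : ∃ κ, κ = (w ^ l)⁻¹ * a w := ⟨_, rfl⟩
      rw [← hκdef] at hκ
      have hκc : κ ∈ Subgroup.center S := hcase hκ
      have haw : a w = w ^ l * κ := by rw [hκdef]; group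
      apply hcanc l hpl _ (hcomm _ _) _ (hcomm _ _)
      have e1 : a (w * x * w⁻¹ * x⁻¹) = (w * x * w⁻¹ * x⁻¹) ^ l := hz _ (hcomm w x)
      rw [hacm, haw, h8m_cm_mul_left hc, hcm1 (a x) κ hκc, mul_one, h8m_cm_pow_left hc] at e1
      exact e1
    have hMmem : ∀ g, g ∈ Subgroup.centralizer ({w} : Set S) ↔ w * g * w⁻¹ * g⁻¹ = 1 := by
      intro g
      rw [Subgroup.mem_centralizer_iff]
      constructor
      · intro h
        exact (hcomiff w g).mp (h w rfl)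
      · intro h h' hh'
        rw [Set.mem_singleton_iff.mp hh']
        exact (hcomiff w g).mpr h
    have hcz : ∀ ζ ∈ Z₀, w * ζ * w⁻¹ * ζ⁻¹ = 1 := fun ζ hζ => (hcomiff w ζ).mp (hZcen ζ hζ w)
    have hMn : (Subgroup.centralizer ({w} : Set S)).Normal := by
      refine ⟨fun x hx g => ?_⟩
      rw [hMmem] at hx ⊢
      have e : g * x * g⁻¹ = (g * x * g⁻¹ * x⁻¹) * x := by group
      rw [e, h8m_cm_mul_right hc, hcz _ (hcomm g x), hx, one_mul]
    have hwall : ∀ s : S, s ∈ Subgroup.centralizer ({w} : Set S) := by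
      intro s
      apply hH _ hMn
      · intro a ha m hm
        rw [hMmem] at hm ⊢
        rw [hinv a ha m, hm]
      · intro x y
        rw [hMmem]
        exact hcz _ (hcomm x y)
      · intro a ha
        rw [hMmem, h8m_cm_mul_right hc, hinv a ha s, ← h8m_cm_mul_right hc, inv_mul_cancel]
        group
    apply hwK
    apply hZK
    rw [Subgroup.mem_center_iff]
    intro g
    have := (hMmem g).mp (hwall g)
    exact ((hcomiff w g).mpr this).symm
  · obtain ⟨k, hkK, hkc⟩ : ∃ k ∈ K, k ∉ Subgroup.center S := by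
      by_contra h
      push_neg at h
      exact hcase h
    have hKp : IsPGroup p K := hS.to_subgroup K
    have hZltK : Subgroup.center S < K := lt_of_le_of_ne hZK (fun h => hkc (h ▸ hkK))
    have hKtop : K < ⊤ := lt_of_le_of_ne le_top (fun h => hwK (h ▸ Subgroup.mem_top w))
    have hK1 : p * Nat.card (Subgroup.center S) ≤ Nat.card K := h8m_lt_card hp hKp hZltK
    have hK2 : p * Nat.card K ≤ Nat.card S := by
      have := h8m_lt_card hp (hS.to_subgroup ⊤) hKtop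
      rwa [Subgroup.card_top] at this
    have hK3 : Nat.card K = p * Nat.card (Subgroup.center S) := by
      have : p * Nat.card K ≤ p * (p * Nat.card (Subgroup.center S)) := by
        calc p * Nat.card K ≤ Nat.card S := hK2
          _ = p * (p * Nat.card (Subgroup.center S)) := by rw [← hcen3]; ring
      exact le_antisymm (Nat.le_of_mul_le_mul_left this hp.pos) hK1
    have hSK : Nat.card S = p * Nat.card K := by rw [hK3, ← hcen3]; ring
    have hLK : Subgroup.zpowers k ⊔ Subgroup.center S = K := by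
      have hle : Subgroup.zpowers k ⊔ Subgroup.center S ≤ K :=
        sup_le (by rw [Subgroup.zpowers_le]; exact hkK) hZK
      have hlt : Subgroup.center S < Subgroup.zpowers k ⊔ Subgroup.center S :=
        lt_of_le_of_ne le_sup_right
          (fun h => hkc (h ▸ Subgroup.mem_sup_left (Subgroup.mem_zpowers k)))
      have h1 := h8m_lt_card hp (hS.to_subgroup _) hlt
      exact Subgroup.eq_of_le_of_card_ge hle (by rw [hK3]; exact h1)
    have hKdec : ∀ x ∈ K, ∃ n : ℕ, ∃ ζ ∈ Subgroup.center S, x = k ^ n * ζ := by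
      intro x hx
      rw [← hLK, ← SetLike.mem_coe, Subgroup.mul_normal, Set.mem_mul] at hx
      obtain ⟨y, hy, ζ, hζ, rfl⟩ := hx
      obtain ⟨n, rfl⟩ := (Submonoid.mem_powers_iff _ _).mp (mem_powers_iff_mem_zpowers.mpr hy)
      exact ⟨n, ζ, hζ, rfl⟩
    have hKn : K.Normal := by
      refine ⟨fun x hx g => ?_⟩
      have e : g * x * g⁻¹ = (g * x * g⁻¹ * x⁻¹) * x := by group
      rw [e]
      exact K.mul_mem (hZK (hcencomm g x)) hx
    have hwKtop : Subgroup.zpowers w ⊔ K = ⊤ := by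
      have hlt : K < Subgroup.zpowers w ⊔ K :=
        lt_of_le_of_ne le_sup_right
          (fun h => hwK (h ▸ Subgroup.mem_sup_left (Subgroup.mem_zpowers w)))
      have h1 := h8m_lt_card hp (hS.to_subgroup _) hlt
      apply Subgroup.eq_top_of_le_card
      exact hSK.le.trans h1
    have hkw : k * w * k⁻¹ * w⁻¹ ≠ 1 := by
      intro h
      have hkwc : Commute k w := (hcomiff k w).mpr h
      apply hkc
      rw [Subgroup.mem_center_iff]
      intro g
      have hg : g ∈ Subgroup.zpowers w ⊔ K := by rw [hwKtop]; exact Subgroup.mem_top g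
      haveI := hKn
      rw [← SetLike.mem_coe, Subgroup.mul_normal, Set.mem_mul] at hg
      obtain ⟨y, hy, κ', hκ', rfl⟩ := hg
      obtain ⟨n, rfl⟩ := (Submonoid.mem_powers_iff _ _).mp (mem_powers_iff_mem_zpowers.mpr hy)
      obtain ⟨ν, ζ, hζ, rfl⟩ := hKdec κ' hκ'
      have c1 : Commute k (w ^ n) := hkwc.pow_right n
      have c2 : Commute k (k ^ ν) := (Commute.refl k).pow_right ν
      have c3 : Commute k ζ := Subgroup.mem_center_iff.mp hζ k
      exact (c1.mul_right (c2.mul_right c3)).eq.symm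
    have hfix : ∀ a ∈ 𝒜, k⁻¹ * a k ∈ Subgroup.center S := by
      intro a ha
      obtain ⟨l, hpl, hz, hκ⟩ := hlam a ha
      obtain ⟨κ, hκdef⟩ : ∃ κ, κ = (w ^ l)⁻¹ * a w := ⟨_, rfl⟩
      rw [← hκdef] at hκ
      have haw : a w = w ^ l * κ := by rw [hκdef]; group
      obtain ⟨μ, ζ₁, hζ₁, hak⟩ := hKdec (a k) (hKA a ha k hkK)
      obtain ⟨ν, ζ₂, hζ₂, hκ2⟩ := hKdec κ hκ
      have hcomk : k ^ μ * κ * (k ^ μ)⁻¹ * κ⁻¹ = 1 := by
        rw [← hcomiff, hκ2]
        have c2 : Commute (k ^ μ) (k ^ ν) := Commute.pow_pow_self k μ ν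
        have c3 : Commute (k ^ μ) ζ₂ := Subgroup.mem_center_iff.mp hζ₂ (k ^ μ)
        exact (c2.mul_right c3).eq
      have e1 : a (k * w * k⁻¹ * w⁻¹) = (k * w * k⁻¹ * w⁻¹) ^ l := hz _ (hcomm k w)
      rw [hacm, hak, haw, h8m_cm_mul_left hc, hcm1 _ ζ₁ hζ₁, mul_one, h8m_cm_mul_right hc,
        hcomk, mul_one, h8m_cm_pow_left hc, h8m_cm_pow_right hc, ← pow_mul] at e1
      have hord : orderOf (k * w * k⁻¹ * w⁻¹) = p :=
        orderOf_eq_prime (hZexp _ (hcomm k w)) hkw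
      rw [pow_eq_pow_iff_modEq, hord] at e1
      have e2 : l * μ ≡ l * 1 [MOD p] := by rw [mul_one]; exact e1
      have e3 : μ ≡ 1 [MOD p] := Nat.ModEq.cancel_left_of_coprime
        ((Nat.Prime.coprime_iff_not_dvd hp).mpr hpl) e2
      have e4 : μ % p = 1 := by
        have h1 : μ % p = 1 % p := e3
        rw [Nat.mod_eq_of_lt hp.one_lt] at h1
        exact h1
      have e5 : μ = p * (μ / p) + 1 := by
        have := Nat.div_add_mod μ p
        omega
      have hc1 : (k ^ p) ^ (μ / p) ∈ Subgroup.center S := by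
        apply Subgroup.pow_mem
        rw [Subgroup.mem_center_iff]
        exact fun g => hpcen k g
      have e6 : k⁻¹ * a k = (k ^ p) ^ (μ / p) * ζ₁ := by
        rw [hak]
        have h1 : k ^ μ = (k ^ p) ^ (μ / p) * k := by
          conv_lhs => rw [e5]
          rw [pow_succ, pow_mul]
        have h2 := Subgroup.mem_center_iff.mp hc1 k⁻¹
        rw [h1, ← mul_assoc, ← mul_assoc, h2]
        group
      rw [e6]
      exact Subgroup.mul_mem _ hc1 hζ₁
    exact hkc (hH (Subgroup.center S) inferInstance hcenA hcencomm k hfix)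

theorem h8m_comm_of_cyclic {C : Type*} [Group C] [IsCyclic C] (a b : C) : a * b = b * a := by
  obtain ⟨g, hg⟩ := IsCyclic.exists_generator (α := C)
  obtain ⟨i, rfl⟩ := Subgroup.mem_zpowers_iff.mp (hg a)
  obtain ⟨j, rfl⟩ := Subgroup.mem_zpowers_iff.mp (hg b)
  rw [← zpow_add, ← zpow_add, add_comm]

theorem h8m_kc_aux (p : ℕ) [Fact p.Prime] (hp2 : p ≠ 2) :
    ∀ n : ℕ, ∀ (S : Type u) [Group S] [Finite S],
    Nat.card S = n → IsPGroup p S → Cfsg.IsMetacyclic S →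
    ∀ (𝒜 : Set (S ≃* S)),
    (∀ M : Subgroup S, M.Normal → (∀ a ∈ 𝒜, ∀ m ∈ M, a m ∈ M) →
      (∀ x y : S, x * y * x⁻¹ * y⁻¹ ∈ M) → ∀ s : S, (∀ a ∈ 𝒜, s⁻¹ * a s ∈ M) → s ∈ M) →
    ∀ x y : S, x * y = y * x := by
  intro n
  induction n using Nat.strong_induction_on with
  | _ n ih =>
  intro S _ _ hn hS hM 𝒜 hH
  by_contra hna
  push_neg at hna
  obtain ⟨x₀, y₀, hxy₀⟩ := hna
  have hp : p.Prime := Fact.out
  obtain ⟨N, hNn, hNc, hQc⟩ := id hM
  haveI := hNn
  haveI := hNc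
  haveI := hQc
  have hcomN : ∀ x y : S, x * y * x⁻¹ * y⁻¹ ∈ N := by
    intro x y
    rw [← QuotientGroup.eq_one_iff]
    have h := h8m_comm_of_cyclic (QuotientGroup.mk x : S ⧸ N) (QuotientGroup.mk y)
    rw [QuotientGroup.mk_mul, QuotientGroup.mk_mul, QuotientGroup.mk_mul, QuotientGroup.mk_inv,
      QuotientGroup.mk_inv, h]
    group
  have hNab : ∀ u ∈ N, ∀ v ∈ N, u * v = v * u := by
    intro u hu v hv
    have := h8m_comm_of_cyclic (⟨u, hu⟩ : N) ⟨v, hv⟩
    exact congrArg Subtype.val this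
  have hcomle : commutator S ≤ N := by
    rw [commutator_eq_closure, Subgroup.closure_le]
    rintro _ ⟨g₁, g₂, rfl⟩
    rw [SetLike.mem_coe, commutatorElement_def]
    exact hcomN g₁ g₂
  obtain ⟨Z₀, hZ₀⟩ : ∃ Z₀ : Subgroup S, ∀ g, g ∈ Z₀ ↔ g ∈ commutator S ∧ g ^ p = 1 := by
    refine ⟨{ carrier := {g | g ∈ commutator S ∧ g ^ p = 1}
              mul_mem' := ?_
              one_mem' := ?_
              inv_mem' := ?_ }, fun g => Iff.rfl⟩
    · rintro a b ⟨ha, ha'⟩ ⟨hb, hb'⟩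
      refine ⟨(commutator S).mul_mem ha hb, ?_⟩
      have hc : Commute a b := hNab a (hcomle ha) b (hcomle hb)
      rw [hc.mul_pow, ha', hb', one_mul]
    · exact ⟨(commutator S).one_mem, one_pow p⟩
    · rintro a ⟨ha, ha'⟩
      exact ⟨(commutator S).inv_mem ha, by rw [inv_pow, ha', inv_one]⟩
  have hZ₀n : Z₀.Normal := by
    refine ⟨fun z hz g => ?_⟩
    rw [hZ₀] at hz ⊢
    have hcn : (commutator S).Normal := inferInstance
    exact ⟨hcn.conj_mem z hz.1 g, by rw [conj_pow, hz.2]; group⟩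
  have hZ₀A : ∀ a ∈ 𝒜, ∀ z ∈ Z₀, a z ∈ Z₀ := by
    intro a ha z hz
    rw [hZ₀] at hz ⊢
    refine ⟨?_, by rw [← map_pow, hz.2, map_one]⟩
    have hchar : (commutator S).Characteristic := inferInstance
    have := (Subgroup.characteristic_iff_map_eq.mp hchar) a
    rw [← this]
    exact Subgroup.mem_map_of_mem _ hz.1
  obtain ⟨z₁, hz₁Z, hz₁1⟩ : ∃ z ∈ Z₀, z ≠ 1 := by
    obtain ⟨c₀, hc₀⟩ : ∃ c₀, c₀ = x₀ * y₀ * x₀⁻¹ * y₀⁻¹ := ⟨_, rfl⟩
    have hc₀1 : c₀ ≠ 1 := by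
      intro h
      apply hxy₀
      rw [hc₀] at h
      calc x₀ * y₀ = (x₀ * y₀ * x₀⁻¹ * y₀⁻¹) * (y₀ * x₀) := by group
        _ = y₀ * x₀ := by rw [h, one_mul]
    have hc₀m : c₀ ∈ commutator S := by
      rw [commutator_eq_closure, hc₀]
      exact Subgroup.subset_closure ⟨x₀, y₀, rfl⟩
    obtain ⟨k, hk⟩ := (IsPGroup.iff_orderOf.mp hS) c₀
    have hk1 : 1 ≤ k := by
      by_contra h
      have h0 : k = 0 := by omega
      rw [h0, pow_zero, orderOf_eq_one_iff] at hk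
      exact hc₀1 hk
    refine ⟨c₀ ^ (p ^ (k - 1)), ?_, ?_⟩
    · rw [hZ₀]
      refine ⟨(commutator S).pow_mem hc₀m _, ?_⟩
      rw [← pow_mul, ← pow_succ, show k - 1 + 1 = k by omega, ← hk, pow_orderOf_eq_one]
    · intro h
      have hd := orderOf_dvd_of_pow_eq_one h
      rw [hk] at hd
      have h1 := Nat.le_of_dvd (pow_pos hp.pos _) hd
      have h2 : k ≤ k - 1 := (Nat.pow_le_pow_iff_right hp.one_lt).mp h1
      omega
  have hZ₀card : Nat.card Z₀ = p := by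
    have hle : Z₀ ≤ N := fun g hg => hcomle ((hZ₀ g).mp hg).1
    haveI : IsCyclic Z₀ :=
      isCyclic_of_injective (Subgroup.inclusion hle) (Subgroup.inclusion_injective hle)
    have h1 : Nat.card Z₀ ≤ p := h8m_card_le_of_cyclic_exp p (fun g => Subtype.ext (by
      rw [Subgroup.coe_pow, Subgroup.coe_one]
      exact ((hZ₀ g).mp g.2).2)) hp.pos
    obtain ⟨j, hj⟩ := (IsPGroup.iff_card).mp (hS.to_subgroup Z₀)
    have hj1 : j ≠ 0 := by
      intro h0
      rw [h0, pow_zero] at hj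
      have hbot := Subgroup.card_eq_one.mp hj
      rw [hbot, Subgroup.mem_bot] at hz₁Z
      exact hz₁1 hz₁Z
    rw [hj] at h1 ⊢
    have hj2 : j ≤ 1 := by
      have h2 : p ^ j ≤ p ^ 1 := by rwa [pow_one]
      exact (Nat.pow_le_pow_iff_right hp.one_lt).mp h2
    rw [show j = 1 by omega, pow_one]
  haveI := hZ₀n
  have hQcard : Nat.card (S ⧸ Z₀) < n := by
    have h1 := Subgroup.card_eq_card_quotient_mul_card_subgroup Z₀
    rw [hZ₀card, hn] at h1
    have h2 : 0 < Nat.card (S ⧸ Z₀) := Nat.card_pos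
    have h3 := hp.two_le
    rw [h1]
    nlinarith
  have hmapeq : ∀ a ∈ 𝒜, Z₀.map (a : S ≃* S).toMonoidHom = Z₀ := by
    intro a ha
    apply Subgroup.eq_of_le_of_card_ge
    · rintro _ ⟨z, hz, rfl⟩
      exact hZ₀A a ha z hz
    · rw [Subgroup.card_map_of_injective a.injective]
  have hab := ih (Nat.card (S ⧸ Z₀)) hQcard (S ⧸ Z₀) rfl (hS.to_quotient Z₀)
    (h8m_meta_surj (QuotientGroup.mk' Z₀) (QuotientGroup.mk'_surjective Z₀) hM)
    {b | ∃ a ∈ 𝒜, ∀ s : S, b (QuotientGroup.mk s) = QuotientGroup.mk (a s)} ?_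
  · apply h8m_kc_class2 p hp2 hS hM 𝒜 hH Z₀ hZ₀n hZ₀card hZ₀A ?_ x₀ y₀ hxy₀
    intro x y
    rw [← QuotientGroup.eq_one_iff]
    have h := hab (QuotientGroup.mk x) (QuotientGroup.mk y)
    rw [QuotientGroup.mk_mul, QuotientGroup.mk_mul, QuotientGroup.mk_mul, QuotientGroup.mk_inv,
      QuotientGroup.mk_inv, h]
    group
  · intro Mb hMbn hMbA hMbc q hq
    obtain ⟨s, rfl⟩ := QuotientGroup.mk_surjective q
    have hb : ∀ a ∈ 𝒜, ∃ b : (S ⧸ Z₀) ≃* (S ⧸ Z₀),
        ∀ s : S, b (QuotientGroup.mk s) = QuotientGroup.mk (a s) := by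
      intro a ha
      exact ⟨QuotientGroup.congr Z₀ Z₀ a (hmapeq a ha), fun s => rfl⟩
    have hmem := hH (Mb.comap (QuotientGroup.mk' Z₀)) (hMbn.comap _) ?_ ?_ s ?_
    · exact hmem
    · intro a ha m hm
      obtain ⟨b, hb'⟩ := hb a ha
      rw [Subgroup.mem_comap] at hm ⊢
      have h1 := hMbA b ⟨a, ha, hb'⟩ _ hm
      rw [QuotientGroup.mk'_apply, hb'] at h1
      exact h1
    · intro x y
      rw [Subgroup.mem_comap]
      exact hMbc (QuotientGroup.mk x) (QuotientGroup.mk y)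
    · intro a ha
      obtain ⟨b, hb'⟩ := hb a ha
      rw [Subgroup.mem_comap]
      have h1 := hq b ⟨a, ha, hb'⟩
      rw [hb'] at h1
      exact h1

end Cfsg.Agent.Lib.helper8
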