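import Cfsg.Agent.Lib.helper8.Meta2

set_option autoImplicit false
open scoped commutatorElement

namespace Cfsg.Agent.Lib.helper8

universe u

theorem h8m_conjEquiv {G : Type*} [Group G] (D : Subgroup G) (a : G)
    (ha : a ∈ Subgroup.normalizer (D : Set G)) :
    ∃ e : D ≃* D, ∀ d : D, ((e d : D) : G) = a * d * a⁻¹ := by
  refine ⟨{ toFun := fun d => ⟨a * d * a⁻¹, conj_mem_of_mem_normalizer ha d.2⟩
            invFun := fun d => ⟨a⁻¹ * d * a, conj_mem_of_mem_normalizer' ha d.2⟩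
            left_inv := fun d => Subtype.ext ?_
            right_inv := fun d => Subtype.ext ?_
            map_mul' := fun d d' => Subtype.ext ?_ }, fun d => rfl⟩
  · show a⁻¹ * (a * (d : G) * a⁻¹) * a = (d : G)
    group
  · show a * (a⁻¹ * (d : G) * a) * a⁻¹ = (d : G)
    group
  · show a * ((d : G) * (d' : G)) * a⁻¹ = (a * (d : G) * a⁻¹) * (a * (d' : G) * a⁻¹)
    group

theorem h8m_kc {G : Type u} [Group G] [Finite G] (p : ℕ) [Fact p.Prime] (hp2 : p ≠ 2)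
    (D A : Subgroup G) (hD : IsPGroup p D) (hDm : Cfsg.IsMetacyclic D)
    (hA : A ≤ Subgroup.normalizer (D : Set G)) (hcop : (Nat.card A).Coprime p)
    (hDA : ⁅D, A⁆ = D) : ∀ x ∈ D, ∀ y ∈ D, x * y = y * x := by
  classical
  have hp : p.Prime := Fact.out
  obtain ⟨𝒜, h𝒜⟩ : ∃ 𝒜 : Set (D ≃* D),
      𝒜 = {e | ∃ a ∈ A, ∀ d : D, ((e d : D) : G) = a * d * a⁻¹} := ⟨_, rfl⟩
  have hcopD : (Nat.card A).Coprime (Nat.card D) := by
    obtain ⟨k, hk⟩ := (IsPGroup.iff_card).mp hD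
    rw [hk]
    exact Nat.Coprime.pow_right k hcop
  haveI : Group.IsNilpotent D := hD.isNilpotent
  have hsolv : Group.IsSolvable A ∨ Group.IsSolvable D := Or.inr inferInstance
  choose e he using fun a : A => h8m_conjEquiv D (a : G) (hA a.2)
  haveI : Fintype A := Fintype.ofFinite A
  obtain ⟨τ, hτ⟩ : ∃ τ : D →* Abelianization D,
      ∀ d, τ d = ∏ a : A, Abelianization.of (e a d) :=
    ⟨∏ a : A, (Abelianization.of).comp (e a).toMonoidHom, fun d => by
      rw [MonoidHom.finset_prod_apply]; rfl⟩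
  have hτinv : ∀ (b : A) (d : D), τ (e b d) = τ d := by
    intro b d
    rw [hτ, hτ]
    apply Fintype.prod_equiv (Equiv.mulRight b)
    intro a
    congr 1
    apply Subtype.ext
    rw [he, he, he]
    show (a : G) * ((b : G) * d * (b : G)⁻¹) * (a : G)⁻¹
      = ((a * b : A) : G) * d * ((a * b : A) : G)⁻¹
    rw [Subgroup.coe_mul]
    group
  have hker : ∀ d : D, τ d = 1 := by
    have hle : ⁅D, A⁆ ≤ (τ.ker).map D.subtype := by
      rw [Subgroup.commutator_le]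
      intro d hd a ha
      refine ⟨⟨d, hd⟩ * (e ⟨a, ha⟩ ⟨d, hd⟩)⁻¹, ?_, ?_⟩
      · rw [SetLike.mem_coe, MonoidHom.mem_ker, map_mul, map_inv, hτinv, mul_inv_cancel]
      · rw [commutatorElement_def]
        show (d : G) * (((e ⟨a, ha⟩ ⟨d, hd⟩ : D) : G))⁻¹ = d * a * d⁻¹ * a⁻¹
        rw [he]
        group
    intro d
    have hd : (d : G) ∈ ⁅D, A⁆ := by rw [hDA]; exact d.2
    obtain ⟨d', hd', hdd⟩ := hle hd
    have h1 : d' = d := Subtype.ext hdd
    rw [← h1]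
    exact MonoidHom.mem_ker.mp hd'
  have hmain : ∀ x y : D, x * y = y * x := by
    apply h8m_kc_aux p hp2 (Nat.card D) D rfl hD hDm 𝒜
    intro M hMn hMA hMc s hs
    haveI := hMn
    have he𝒜 : ∀ a : A, e a ∈ 𝒜 := by
      intro a
      rw [h𝒜]
      exact ⟨a, a.2, he a⟩
    obtain ⟨M', hM'⟩ : ∃ M' : Subgroup G, M' = M.map D.subtype := ⟨_, rfl⟩
    have hM'mem : ∀ g : G, g ∈ M' ↔ ∃ h : g ∈ D, (⟨g, h⟩ : D) ∈ M := by
      intro g
      rw [hM']
      constructor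
      · rintro ⟨m, hm, rfl⟩
        exact ⟨m.2, hm⟩
      · rintro ⟨h, hm⟩
        exact ⟨⟨g, h⟩, hm, rfl⟩
    have hM'D : M' ≤ D := by
      intro g hg
      exact ((hM'mem g).mp hg).1
    have hDM' : D ≤ Subgroup.normalizer (M' : Set G) := by
      apply le_normalizer_of_conj_mem
      intro d hd x hx
      obtain ⟨hxD, hxM⟩ := (hM'mem x).mp hx
      rw [hM'mem]
      exact ⟨D.mul_mem (D.mul_mem hd hxD) (D.inv_mem hd), hMn.conj_mem ⟨x, hxD⟩ hxM ⟨d, hd⟩⟩
    have hAM' : A ≤ Subgroup.normalizer (M' : Set G) := by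
      apply le_normalizer_of_conj_mem
      intro a ha x hx
      obtain ⟨hxD, hxM⟩ := (hM'mem x).mp hx
      rw [hM'mem]
      have h1 := hMA (e ⟨a, ha⟩) (he𝒜 ⟨a, ha⟩) ⟨x, hxD⟩ hxM
      refine ⟨conj_mem_of_mem_normalizer (hA ha) hxD, ?_⟩
      have h2 : e ⟨a, ha⟩ ⟨x, hxD⟩ = ⟨a * x * a⁻¹, conj_mem_of_mem_normalizer (hA ha) hxD⟩ :=
        Subtype.ext (he ⟨a, ha⟩ ⟨x, hxD⟩)
      rw [← h2]
      exact h1
    have hfix : ∀ a ∈ A, a * (s : G) * a⁻¹ * (s : G)⁻¹ ∈ M' := by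
      intro a ha
      have h1 := hs (e ⟨a, ha⟩) (he𝒜 ⟨a, ha⟩)
      have h2 := hMn.conj_mem _ h1 s
      rw [hM'mem]
      have hmemD : a * (s : G) * a⁻¹ * (s : G)⁻¹ ∈ D :=
        D.mul_mem (conj_mem_of_mem_normalizer (hA ha) s.2) (D.inv_mem s.2)
      refine ⟨hmemD, ?_⟩
      have h3 : (⟨a * (s : G) * a⁻¹ * (s : G)⁻¹, hmemD⟩ : D)
          = s * (s⁻¹ * e ⟨a, ha⟩ s) * s⁻¹ := by
        apply Subtype.ext
        show a * (s : G) * a⁻¹ * (s : G)⁻¹
          = (s : G) * ((s : G)⁻¹ * ((e ⟨a, ha⟩ s : D) : G)) * (s : G)⁻¹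
        rw [he]
        group
      rw [h3]
      exact h2
    obtain ⟨c, hc, hsc⟩ := coprime_fixed_quot A D hcopD hsolv M' hM'D hDM' hAM' (s : G) s.2 hfix
    obtain ⟨hcD, hcA⟩ := Subgroup.mem_inf.mp hc
    have hcfix : ∀ a : A, e a ⟨c, hcD⟩ = ⟨c, hcD⟩ := by
      intro a
      apply Subtype.ext
      rw [he]
      have h1 := Subgroup.mem_centralizer_iff.mp hcA (a : G) a.2
      show (a : G) * c * (a : G)⁻¹ = c
      rw [h1]
      group
    have hτc : τ ⟨c, hcD⟩ = (Abelianization.of (⟨c, hcD⟩ : D)) ^ (Nat.card A) := by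
      rw [hτ]
      simp only [hcfix]
      rw [Finset.prod_const, Finset.card_univ, Nat.card_eq_fintype_card]
    have hcpow : (⟨c, hcD⟩ : D) ^ (Nat.card A) ∈ M := by
      have h1 : Abelianization.of ((⟨c, hcD⟩ : D) ^ (Nat.card A)) = 1 := by
        rw [map_pow, ← hτc, hker]
      have h2 : (⟨c, hcD⟩ : D) ^ (Nat.card A) ∈ commutator D := by
        rw [← Abelianization.ker_of]
        exact MonoidHom.mem_ker.mpr h1
      have hle : commutator D ≤ M := by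
        rw [commutator_eq_closure, Subgroup.closure_le]
        rintro _ ⟨g₁, g₂, rfl⟩
        rw [SetLike.mem_coe, commutatorElement_def]
        exact hMc g₁ g₂
      exact hle h2
    have hcM : (⟨c, hcD⟩ : D) ∈ M := by
      rw [← QuotientGroup.eq_one_iff]
      have h1 : (QuotientGroup.mk (⟨c, hcD⟩ : D) : D ⧸ M) ^ (Nat.card A) = 1 := by
        rw [← QuotientGroup.mk_pow, QuotientGroup.eq_one_iff]
        exact hcpow
      obtain ⟨k, hk⟩ := (IsPGroup.iff_orderOf.mp (hD.to_quotient M))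
        (QuotientGroup.mk (⟨c, hcD⟩ : D))
      have h2 : orderOf (QuotientGroup.mk (⟨c, hcD⟩ : D) : D ⧸ M) ∣ Nat.card A :=
        orderOf_dvd_of_pow_eq_one h1
      rw [hk] at h2
      have h3 : (p ^ k).Coprime (Nat.card A) := Nat.Coprime.pow_left k hcop.symm
      have h4 : p ^ k = 1 := Nat.Coprime.eq_one_of_dvd h3 h2
      rw [h4, orderOf_eq_one_iff] at hk
      exact hk
    obtain ⟨hscD, hscM⟩ := (hM'mem _).mp hsc
    have h5 : s = ⟨c, hcD⟩ * (⟨(s : G)⁻¹ * c, hscD⟩ : D)⁻¹ := by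
      apply Subtype.ext
      show (s : G) = c * ((s : G)⁻¹ * c)⁻¹
      group
    rw [h5]
    exact M.mul_mem hcM (M.inv_mem hscM)
  intro x hx y hy
  exact congrArg Subtype.val (hmain ⟨x, hx⟩ ⟨y, hy⟩)

end Cfsg.Agent.Lib.helper8
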