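import Cfsg.Agent.Lib.helper8.Meta3

set_option autoImplicit false
open scoped commutatorElement

namespace Cfsg.Agent.Lib.helper8

universe u

theorem h8m_exists_order_p {G : Type*} [Group G] {p : ℕ} [Fact p.Prime] {C : Subgroup G}
    (hC : IsPGroup p C) (h1 : C ≠ ⊥) : ∃ c ∈ C, c ≠ 1 ∧ c ^ p = 1 := by
  have hp : p.Prime := Fact.out
  obtain ⟨⟨c, hcC⟩, hc1⟩ := (Subgroup.ne_bot_iff_exists_ne_one).mp h1
  have hc1' : c ≠ 1 := fun h => hc1 (Subtype.ext h)
  obtain ⟨k, hk⟩ := hC ⟨c, hcC⟩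
  have hk' : c ^ (p ^ k) = 1 := by
    have := congrArg Subtype.val hk
    rwa [Subgroup.coe_pow] at this
  obtain ⟨j, hj, hj'⟩ := (Nat.dvd_prime_pow hp).mp (orderOf_dvd_of_pow_eq_one hk')
  have hj1 : 1 ≤ j := by
    by_contra h
    have h0 : j = 0 := by omega
    rw [h0, pow_zero, orderOf_eq_one_iff] at hj'
    exact hc1' hj'
  refine ⟨c ^ (p ^ (j - 1)), C.pow_mem hcC _, ?_, ?_⟩
  · intro h
    have hd := orderOf_dvd_of_pow_eq_one h
    rw [hj'] at hd
    have h2 := Nat.le_of_dvd (pow_pos hp.pos _) hd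
    have h3 : j ≤ j - 1 := (Nat.pow_le_pow_iff_right hp.one_lt).mp h2
    omega
  · rw [← pow_mul, ← pow_succ, show j - 1 + 1 = j by omega, ← hj', pow_orderOf_eq_one]

theorem h8m_core {G : Type u} [Group G] [Finite G] (p : ℕ) [Fact p.Prime] (hp : p ≠ 2)
    (R A : Subgroup G) (hR : IsPGroup p R) (hRm : Cfsg.IsMetacyclic R)
    (hA : A ≤ Subgroup.normalizer (R : Set G)) (hcop : (Nat.card A).Coprime p)
    (D C : Subgroup G) (hDdef : D = ⁅R, A⁆)
    (hCdef : C = R ⊓ Subgroup.centralizer (A : Set G)) :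
    IsMulCommutative D ∧ D ⊔ C = R ∧ D ⊓ C = ⊥ ∧
    (¬ IsMulCommutative R → ¬ A ≤ Subgroup.centralizer (R : Set G) →
      D ≠ ⊥ ∧ IsCyclic D ∧ C ≠ ⊥ ∧ IsCyclic C ∧ ⁅R, R⁆ ≤ D) := by
  classical
  have hp' : p.Prime := Fact.out
  have hcopR : (Nat.card A).Coprime (Nat.card R) := by
    obtain ⟨k, hk⟩ := (IsPGroup.iff_card).mp hR
    rw [hk]
    exact Nat.Coprime.pow_right k hcop
  haveI : Group.IsNilpotent R := hR.isNilpotent
  have hsolv : Group.IsSolvable A ∨ Group.IsSolvable R := Or.inr inferInstance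
  have hDR : D ≤ R := by rw [hDdef]; exact commutator_le_of_le_normalizer hA
  have hCR : C ≤ R := by rw [hCdef]; exact inf_le_left
  have hRD : R ≤ Subgroup.normalizer (D : Set G) := by
    rw [hDdef]
    exact le_normalizer_commutator_left R A
  have hAD : A ≤ Subgroup.normalizer (D : Set G) := by
    rw [hDdef]
    exact le_normalizer_commutator_right hA
  have hDp : IsPGroup p D := hR.to_le hDR
  have hCp : IsPGroup p C := hR.to_le hCR
  have hsup : D ⊔ C = R := by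
    rw [hDdef, hCdef]
    exact commutator_sup_fixed A R hA hcopR hsolv
  have hDD : ⁅D, A⁆ = D := by
    rw [hDdef]
    exact commutator_commutator_eq A R hA hcopR hsolv
  have hDab : ∀ x ∈ D, ∀ y ∈ D, x * y = y * x :=
    h8m_kc p hp D A hDp (h8m_meta_le hDR hRm) hAD hcop hDD
  have hDcomm : IsMulCommutative D := ⟨⟨fun a b => Subtype.ext (hDab a a.2 b b.2)⟩⟩
  have hcopD : (Nat.card A).Coprime (Nat.card D) := by
    obtain ⟨k, hk⟩ := (IsPGroup.iff_card).mp hDp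
    rw [hk]
    exact Nat.Coprime.pow_right k hcop
  have hinf : D ⊓ C = ⊥ := by
    have h1 := fixed_inf_commutator_eq_bot A D hAD hcopD
    rw [hDD] at h1
    rw [eq_bot_iff]
    intro x hx
    obtain ⟨hxD, hxC⟩ := Subgroup.mem_inf.mp hx
    rw [hCdef] at hxC
    have h2 : x ∈ (D ⊓ Subgroup.centralizer (A : Set G)) ⊓ D :=
      ⟨⟨hxD, (Subgroup.mem_inf.mp hxC).2⟩, hxD⟩
    rw [h1] at h2
    exact h2
  refine ⟨hDcomm, hsup, hinf, ?_⟩
  intro hRna hAR
  have hD1 : D ≠ ⊥ := by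
    intro h
    apply hAR
    intro a ha
    rw [Subgroup.mem_centralizer_iff]
    intro r hr
    have h1 : ⁅r, a⁆ ∈ ⁅R, A⁆ := Subgroup.commutator_mem_commutator hr ha
    rw [← hDdef, h, Subgroup.mem_bot, commutatorElement_eq_one_iff_commute] at h1
    exact h1.eq
  have hRna' : ∃ x ∈ R, ∃ y ∈ R, x * y ≠ y * x := by
    by_contra h
    push_neg at h
    exact hRna ⟨⟨fun a b => Subtype.ext (h a a.2 b b.2)⟩⟩
  have hC1 : C ≠ ⊥ := by
    intro h
    rw [h, sup_bot_eq] at hsup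
    obtain ⟨x, hx, y, hy, hxy⟩ := hRna'
    rw [← hsup] at hx hy
    exact hxy (hDab x hx y hy)
  have hDcyc : IsCyclic D := by
    by_contra hnc
    obtain ⟨M₀, hM₀n, hM₀p, hM₀card⟩ := h8m_noncyclic hDp hnc
    obtain ⟨πD, hπD⟩ : ∃ πD : D →* D, ∀ d, πD d = d ^ p := by
      refine ⟨MonoidHom.mk' (fun d => d ^ p) ?_, fun d => rfl⟩
      intro x y
      have hc : Commute x y := Subtype.ext (hDab x x.2 y y.2)
      exact hc.mul_pow p
    have hrange : πD.range ≤ M₀ := by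
      rintro _ ⟨d, rfl⟩
      rw [hπD]
      exact hM₀p d
    have hcard1 : Nat.card πD.ker * Nat.card πD.range = Nat.card D := by
      rw [← Subgroup.index_ker]
      exact Subgroup.card_mul_index _
    have hker2 : p ^ 2 ≤ Nat.card πD.ker := by
      have h1 : Nat.card πD.range ≤ Nat.card M₀ := Subgroup.card_le_of_le hrange
      have h2 : 0 < Nat.card M₀ := Nat.card_pos
      by_contra hlt
      push_neg at hlt
      have h3 : Nat.card πD.ker * Nat.card πD.range < p ^ 2 * Nat.card M₀ := by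
        calc Nat.card πD.ker * Nat.card πD.range
            ≤ Nat.card πD.ker * Nat.card M₀ := Nat.mul_le_mul_left _ h1
          _ < p ^ 2 * Nat.card M₀ := Nat.mul_lt_mul_of_pos_right hlt h2
      rw [hcard1] at h3
      exact absurd hM₀card (not_le.mpr h3)
    obtain ⟨W, hW⟩ : ∃ W : Subgroup G, W = πD.ker.map D.subtype := ⟨_, rfl⟩
    have hWmem : ∀ g, g ∈ W ↔ g ∈ D ∧ g ^ p = 1 := by
      intro g
      rw [hW]
      constructor
      · rintro ⟨d, hd, rfl⟩
        refine ⟨d.2, ?_⟩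
        have h1 := MonoidHom.mem_ker.mp hd
        rw [hπD] at h1
        have h2 := congrArg Subtype.val h1
        rw [Subgroup.coe_pow] at h2
        exact h2
      · rintro ⟨hg, hgp⟩
        refine ⟨⟨g, hg⟩, ?_, rfl⟩
        rw [SetLike.mem_coe, MonoidHom.mem_ker, hπD]
        apply Subtype.ext
        rw [Subgroup.coe_pow]
        exact hgp
    have hWcardge : p ^ 2 ≤ Nat.card W := by
      rw [hW, Subgroup.card_map_of_injective D.subtype_injective]
      exact hker2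
    have hWD : W ≤ D := fun g hg => ((hWmem g).mp hg).1
    have hWexp : ∀ v ∈ W, v ^ p = 1 := fun g hg => ((hWmem g).mp hg).2
    have hWcardle : Nat.card W ≤ p ^ 2 :=
      h8m_exp_card_sub R W hRm (hWD.trans hDR) p hp'.pos hWexp
    have hWcard : Nat.card W = p ^ 2 := le_antisymm hWcardle hWcardge
    have hRW : R ≤ Subgroup.normalizer (W : Set G) := by
      apply le_normalizer_of_conj_mem
      intro r hr x hx
      rw [hWmem] at hx ⊢
      exact ⟨conj_mem_of_mem_normalizer (hRD hr) hx.1, by rw [conj_pow, hx.2]; group⟩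
    obtain ⟨c₀, hc₀C, hc₀1, hc₀p⟩ := h8m_exists_order_p hCp hC1
    have hc₀R : c₀ ∈ R := hCR hc₀C
    obtain ⟨P, hP⟩ : ∃ P : Subgroup G, P = W ⊔ Subgroup.zpowers c₀ := ⟨_, rfl⟩
    have hzW : Subgroup.zpowers c₀ ≤ Subgroup.normalizer (W : Set G) := by
      rw [Subgroup.zpowers_le]
      exact hRW hc₀R
    have hPR : P ≤ R := by
      rw [hP]
      exact sup_le (hWD.trans hDR) (by rw [Subgroup.zpowers_le]; exact hc₀R)
    have hWp : IsPGroup p W := hR.to_le (hWD.trans hDR)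
    have hPexp : ∀ g ∈ P, g ^ p = 1 := by
      intro g hg
      rw [hP, mem_sup_iff_of_le_normalizer hzW] at hg
      obtain ⟨v, hv, y, hy, rfl⟩ := hg
      have hyp : y ^ p = 1 := by
        obtain ⟨j, rfl⟩ := Subgroup.mem_zpowers_iff.mp hy
        rw [← zpow_natCast, ← zpow_mul, mul_comm, zpow_mul, zpow_natCast, hc₀p, one_zpow]
      exact h8m_exp_p hp W hWp (fun u hu v hv => hDab u (hWD hu) v (hWD hv)) hWexp hWcard y hyp
        (hzW hy) v hv
    have hPle : Nat.card P ≤ p ^ 2 := h8m_exp_card_sub R P hRm hPR p hp'.pos hPexp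
    have hWltP : W < P := by
      rw [hP]
      refine lt_of_le_of_ne le_sup_left ?_
      intro h
      have h1 : c₀ ∈ W := by rw [h]; exact Subgroup.mem_sup_right (Subgroup.mem_zpowers c₀)
      have h2 : c₀ ∈ D ⊓ C := ⟨hWD h1, hc₀C⟩
      rw [hinf, Subgroup.mem_bot] at h2
      exact hc₀1 h2
    have h3 := h8m_lt_card hp' (hR.to_le hPR) hWltP
    rw [hWcard] at h3
    have h4 : p * p ^ 2 ≤ p ^ 2 := h3.trans hPle
    have h5 : 0 < p ^ 2 := pow_pos hp'.pos 2
    have h6 := hp'.two_le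
    nlinarith
  have hCcyc : IsCyclic C := by
    by_contra hnc
    obtain ⟨M₀, hM₀n, hM₀p, hM₀card⟩ := h8m_noncyclic hCp hnc
    obtain ⟨z₀, hz₀D, hz₀1, hz₀c⟩ := exists_central_of_pgroup D R hR hDR hD1 hRD
    obtain ⟨z, hzZ, hz1, hzp⟩ := h8m_exists_order_p
      (hDp.to_le inf_le_left : IsPGroup p (D ⊓ Subgroup.centralizer (R : Set G) : Subgroup G))
      (by
        intro h
        have h1 : z₀ ∈ D ⊓ Subgroup.centralizer (R : Set G) :=
          ⟨hz₀D, Subgroup.mem_centralizer_iff.mpr (fun r hr => hz₀c r hr)⟩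
        rw [h, Subgroup.mem_bot] at h1
        exact hz₀1 h1)
    have hzD : z ∈ D := hzZ.1
    have hzc : ∀ r ∈ R, r * z = z * r := fun r hr => Subgroup.mem_centralizer_iff.mp hzZ.2 r hr
    obtain ⟨R₁, hR₁⟩ : ∃ R₁ : Subgroup G, R₁ = Subgroup.zpowers z ⊔ C := ⟨_, rfl⟩
    have hzR : z ∈ R := hDR hzD
    have hR₁R : R₁ ≤ R := by
      rw [hR₁]
      exact sup_le (by rw [Subgroup.zpowers_le]; exact hzR) hCR
    obtain ⟨M', hM'⟩ : ∃ M' : Subgroup G, M' = M₀.map C.subtype := ⟨_, rfl⟩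
    have hM'mem : ∀ g : G, g ∈ M' ↔ ∃ h : g ∈ C, (⟨g, h⟩ : C) ∈ M₀ := by
      intro g
      rw [hM']
      constructor
      · rintro ⟨m, hm, rfl⟩
        exact ⟨m.2, hm⟩
      · rintro ⟨h, hm⟩
        exact ⟨⟨g, h⟩, hm, rfl⟩
    have hM'C : M' ≤ C := fun g hg => ((hM'mem g).mp hg).1
    have hM'card : Nat.card M' = Nat.card M₀ := by
      rw [hM', Subgroup.card_map_of_injective C.subtype_injective]
    have hCz : C ≤ Subgroup.normalizer ((Subgroup.zpowers z : Subgroup G) : Set G) := by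
      apply le_normalizer_of_conj_mem
      intro c hc x hx
      have hcx : c * x = x * c := by
        obtain ⟨j, rfl⟩ := Subgroup.mem_zpowers_iff.mp hx
        exact ((show Commute c z from hzc c (hCR hc)).zpow_right j).eq
      rw [hcx, mul_inv_cancel_right]
      exact hx
    have hR₁dec : ∀ g ∈ R₁, ∃ y ∈ Subgroup.zpowers z, ∃ c ∈ C, g = y * c := by
      intro g hg
      rw [hR₁, mem_sup_iff_of_le_normalizer hCz] at hg
      exact hg
    have hR₁M' : R₁ ≤ Subgroup.normalizer (M' : Set G) := by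
      rw [hR₁]
      apply sup_le
      · apply le_normalizer_of_conj_mem
        intro a ha x hx
        have hxR : x ∈ R := hCR (hM'C hx)
        have hax : a * x = x * a := by
          obtain ⟨j, rfl⟩ := Subgroup.mem_zpowers_iff.mp ha
          exact ((show Commute x z from hzc x hxR).zpow_right j).eq.symm
        rw [hax, mul_inv_cancel_right]
        exact hx
      · apply le_normalizer_of_conj_mem
        intro c hc x hx
        obtain ⟨hxC, hxM⟩ := (hM'mem x).mp hx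
        rw [hM'mem]
        exact ⟨C.mul_mem (C.mul_mem hc hxC) (C.inv_mem hc),
          hM₀n.conj_mem ⟨x, hxC⟩ hxM ⟨c, hc⟩⟩
    have hKn : (M'.subgroupOf R₁).Normal := by
      refine ⟨fun x hx g => ?_⟩
      rw [Subgroup.mem_subgroupOf] at hx ⊢
      exact conj_mem_of_mem_normalizer (hR₁M' g.2) hx
    haveI := hKn
    have hQexp : ∀ q : R₁ ⧸ M'.subgroupOf R₁, q ^ p = 1 := by
      intro q
      obtain ⟨g, rfl⟩ := QuotientGroup.mk_surjective q
      rw [← QuotientGroup.mk_pow, QuotientGroup.eq_one_iff, Subgroup.mem_subgroupOf]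
      obtain ⟨y, hy, c, hc, hgyc⟩ := hR₁dec (g : G) g.2
      have hyc : Commute y c := by
        obtain ⟨j, rfl⟩ := Subgroup.mem_zpowers_iff.mp hy
        exact ((show Commute c z from hzc c (hCR hc)).zpow_right j).symm
      have hyp : y ^ p = 1 := by
        obtain ⟨j, rfl⟩ := Subgroup.mem_zpowers_iff.mp hy
        rw [← zpow_natCast, ← zpow_mul, mul_comm, zpow_mul, zpow_natCast, hzp, one_zpow]
      rw [Subgroup.coe_pow, hgyc, hyc.mul_pow, hyp, one_mul, hM'mem]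
      refine ⟨C.pow_mem hc p, ?_⟩
      have h1 := hM₀p ⟨c, hc⟩
      have e : (⟨c ^ p, C.pow_mem hc p⟩ : C) = ⟨c, hc⟩ ^ p := Subtype.ext (by
        rw [Subgroup.coe_pow])
      rw [e]
      exact h1
    have hQle : Nat.card (R₁ ⧸ M'.subgroupOf R₁) ≤ p ^ 2 :=
      h8m_exp_card (h8m_meta_surj (QuotientGroup.mk' _) (QuotientGroup.mk'_surjective _)
        (h8m_meta_le hR₁R hRm)) p hp'.pos hQexp
    have hcardQ := Subgroup.card_eq_card_quotient_mul_card_subgroup (M'.subgroupOf R₁)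
    have hKcard : Nat.card (M'.subgroupOf R₁) = Nat.card M₀ := by
      rw [card_subgroupOf_of_le (hM'C.trans (by rw [hR₁]; exact le_sup_right)), hM'card]
    have hCltR₁ : C < R₁ := by
      rw [hR₁]
      refine lt_of_le_of_ne le_sup_right ?_
      intro h
      have hzC : z ∈ C := by rw [h]; exact Subgroup.mem_sup_left (Subgroup.mem_zpowers z)
      have h2 : z ∈ D ⊓ C := ⟨hzD, hzC⟩
      rw [hinf, Subgroup.mem_bot] at h2
      exact hz1 h2
    have h3 := h8m_lt_card hp' (hR.to_le hR₁R) hCltR₁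
    have h4 : 0 < Nat.card M₀ := Nat.card_pos
    rw [hKcard] at hcardQ
    have h5 : p * (p ^ 2 * Nat.card M₀) ≤ p ^ 2 * Nat.card M₀ := by
      calc p * (p ^ 2 * Nat.card M₀) ≤ p * Nat.card C := Nat.mul_le_mul_left p hM₀card
        _ ≤ Nat.card R₁ := h3
        _ = Nat.card (R₁ ⧸ M'.subgroupOf R₁) * Nat.card M₀ := hcardQ
        _ ≤ p ^ 2 * Nat.card M₀ := Nat.mul_le_mul_right _ hQle
    have h6 : 0 < p ^ 2 * Nat.card M₀ := Nat.mul_pos (pow_pos hp'.pos 2) h4
    have h7 := hp'.two_le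
    nlinarith
  have hRR : ⁅R, R⁆ ≤ D := by
    rw [Subgroup.commutator_le]
    intro g₁ hg₁ g₂ hg₂
    obtain ⟨m₁, hm₁, c₁, hc₁, rfl⟩ := exists_commutator_mul_fixed A R hA hcopR hsolv g₁ hg₁
    obtain ⟨m₂, hm₂, c₂, hc₂, rfl⟩ := exists_commutator_mul_fixed A R hA hcopR hsolv g₂ hg₂
    rw [← hDdef] at hm₁ hm₂
    rw [← hCdef] at hc₁ hc₂
    have hcc : c₁ * c₂ = c₂ * c₁ := by
      haveI := hCcyc
      exact congrArg Subtype.val (h8m_comm_of_cyclic (⟨c₁, hc₁⟩ : C) ⟨c₂, hc₂⟩)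
    rw [commutatorElement_def]
    have e : m₁ * c₁ * (m₂ * c₂) * (m₁ * c₁)⁻¹ * (m₂ * c₂)⁻¹
        = m₁ * (c₁ * m₂ * c₁⁻¹) * (c₂ * m₁⁻¹ * c₂⁻¹) * m₂⁻¹ := by
      have h1 : c₁ * c₂ * c₁⁻¹ = c₂ := by rw [hcc]; group
      calc m₁ * c₁ * (m₂ * c₂) * (m₁ * c₁)⁻¹ * (m₂ * c₂)⁻¹
          = m₁ * (c₁ * m₂ * c₁⁻¹) * (c₁ * c₂ * c₁⁻¹) * m₁⁻¹ * c₂⁻¹ * m₂⁻¹ := by group
        _ = m₁ * (c₁ * m₂ * c₁⁻¹) * c₂ * m₁⁻¹ * c₂⁻¹ * m₂⁻¹ := by rw [h1]
        _ = m₁ * (c₁ * m₂ * c₁⁻¹) * (c₂ * m₁⁻¹ * c₂⁻¹) * m₂⁻¹ := by group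
    rw [e]
    exact D.mul_mem (D.mul_mem (D.mul_mem hm₁ (conj_mem_of_mem_normalizer (hRD (hCR hc₁)) hm₂))
      (conj_mem_of_mem_normalizer (hRD (hCR hc₂)) (D.inv_mem hm₁))) (D.inv_mem hm₂)
  exact ⟨hD1, hDcyc, hC1, hCcyc, hRR⟩

end Cfsg.Agent.Lib.helper8
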