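import Mathlib
import Cfsg.Prelude.Def_Solvable
import Cfsg.Agent.Lib.helper1.Fitting
import Cfsg.Agent.Lib.helper1.Solv

set_option autoImplicit false

open Cfsg

namespace Cfsg.Agent.Lib.helper8.S1451B

theorem le_of_prime_power_mem {G : Type*} [Group G] [Finite G] (K H : Subgroup G)
    (h : ∀ q : ℕ, q.Prime → ∀ x ∈ K, ∀ s : ℕ, x ^ (q ^ s) = 1 → x ∈ H) : K ≤ H := by
  suffices hs : ∀ n : ℕ, ∀ x ∈ K, orderOf x = n → x ∈ H from fun x hx => hs _ x hx rfl
  intro n
  induction n using Nat.strong_induction_on with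
  | _ n ih =>
    intro x hx hn
    by_cases h1 : n = 1
    · rw [h1] at hn
      rw [orderOf_eq_one_iff.mp hn]
      exact H.one_mem
    · have hn0 : n ≠ 0 := by rw [← hn]; exact (orderOf_pos x).ne'
      obtain ⟨q, hq, hqn⟩ := Nat.exists_prime_and_dvd h1
      obtain ⟨k, m, hm, hnk⟩ := Nat.exists_eq_pow_mul_and_not_dvd hn0 q hq.ne_one
      have hcop : Nat.Coprime (q ^ k) m :=
        Nat.Coprime.pow_left k ((Nat.Prime.coprime_iff_not_dvd hq).mpr hm)
      have hxm : (x ^ m) ^ (q ^ k) = 1 := by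
        rw [← pow_mul, mul_comm, ← hnk, ← hn]; exact pow_orderOf_eq_one x
      have hxmH : x ^ m ∈ H := h q hq (x ^ m) (K.pow_mem hx m) k hxm
      have hk0 : k ≠ 0 := by
        rintro rfl
        rw [pow_zero, one_mul] at hnk
        exact hm (hnk ▸ hqn)
      have hm0 : m ≠ 0 := by
        rintro rfl
        rw [mul_zero] at hnk
        exact hn0 hnk
      have hxq : (x ^ (q ^ k)) ^ m = 1 := by
        rw [← pow_mul, ← hnk, ← hn]; exact pow_orderOf_eq_one x
      have hord : orderOf (x ^ (q ^ k)) ≤ m :=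
        Nat.le_of_dvd (Nat.pos_of_ne_zero hm0) (orderOf_dvd_of_pow_eq_one hxq)
      have hmlt : m < n := by
        have h1lt : 1 < q ^ k := Nat.one_lt_pow hk0 hq.one_lt
        rw [hnk]
        nlinarith [Nat.pos_of_ne_zero hm0]
      have hxqH : x ^ (q ^ k) ∈ H :=
        ih (orderOf (x ^ (q ^ k))) (lt_of_le_of_lt hord hmlt) (x ^ (q ^ k)) (K.pow_mem hx _) rfl
      have hb := Int.gcd_eq_gcd_ab ((q ^ k : ℕ) : ℤ) (m : ℤ)
      have hg : Int.gcd ((q ^ k : ℕ) : ℤ) (m : ℤ) = 1 := by
        rw [Int.gcd_natCast_natCast]; exact hcop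
      rw [hg] at hb
      have hx' : x = (x ^ (q ^ k)) ^ (Int.gcdA ((q ^ k : ℕ) : ℤ) (m : ℤ)) *
          (x ^ m) ^ (Int.gcdB ((q ^ k : ℕ) : ℤ) (m : ℤ)) := by
        rw [← zpow_natCast x (q ^ k), ← zpow_natCast x m, ← zpow_mul, ← zpow_mul, ← zpow_add, ← hb]
        simp
      rw [hx']
      exact H.mul_mem (H.zpow_mem hxqH _) (H.zpow_mem hxmH _)

theorem mem_centralizer_iSup {G : Type*} [Group G] {ι : Sort*} (S : ι → Subgroup G) (y : G)
    (h : ∀ i, y ∈ Subgroup.centralizer ((S i : Subgroup G) : Set G)) :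
    y ∈ Subgroup.centralizer ((⨆ i, S i : Subgroup G) : Set G) := by
  have hle : (⨆ i, S i) ≤ Subgroup.centralizer ({y} : Set G) := by
    apply iSup_le
    intro i g hg
    rw [Subgroup.mem_centralizer_iff]
    intro z hz
    rw [Set.mem_singleton_iff] at hz
    subst hz
    exact ((Subgroup.mem_centralizer_iff.mp (h i)) g hg).symm
  rw [Subgroup.mem_centralizer_iff]
  intro g hg
  exact (Subgroup.mem_centralizer_iff.mp (hle hg) y (Set.mem_singleton y)).symm

theorem commutator_le_fitting {G : Type*} [Group G] [Finite G] [Group.IsSolvable G] (h : ∀ q : ℕ, q.Prime → ∀ g ∈ commutator G, (orderOf g).Coprime q → g ∈ Subgroup.centralizer ((pCore q G : Subgroup G) : Set G)) : commutator G ≤ fittingSubgroup G ∧ Group.IsNilpotent ↥(commutator G) := by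
  have hKF : commutator G ≤ fittingSubgroup G := by
    apply le_of_prime_power_mem
    intro r hr x hx s hxs
    have hrF : Fact r.Prime := ⟨hr⟩
    let ι := {p : Nat.Primes // (p : ℕ) ≠ r}
    let C : Subgroup G :=
      ⨅ p : ι, Subgroup.centralizer ((pCore (p.1 : ℕ) G : Subgroup G) : Set G)
    let N : Subgroup G := ⨆ p : ι, pCore (p.1 : ℕ) G
    let M : Subgroup G := commutator G ⊓ C
    have hCn : C.Normal := Subgroup.normal_iInf_normal (fun p => by
      have := Cfsg.Agent.Lib.helper1.pCore_normal (p.1 : ℕ) G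
      exact Subgroup.normal_centralizer)
    have hNn : N.Normal := by
      have : ∀ p : ι, (pCore (p.1 : ℕ) G).Normal :=
        fun p => Cfsg.Agent.Lib.helper1.pCore_normal (p.1 : ℕ) G
      exact Subgroup.iSup_normal _
    have hMn : M.Normal := Subgroup.normal_inf_normal _ _
    have hxM : x ∈ M := by
      refine Subgroup.mem_inf.mpr ⟨hx, ?_⟩
      rw [Subgroup.mem_iInf]
      intro p
      have hp : (p.1 : ℕ).Prime := p.1.2
      apply h p.1 hp x hx
      have hdiv : orderOf x ∣ r ^ s := orderOf_dvd_of_pow_eq_one hxs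
      exact Nat.Coprime.coprime_dvd_left hdiv
        (Nat.Coprime.pow_left s ((Nat.coprime_primes hr hp).mpr (fun e => p.2 e.symm)))
    have hMN : ∀ z ∈ M, z ∈ Subgroup.centralizer ((N : Subgroup G) : Set G) := by
      intro z hz
      apply mem_centralizer_iSup
      intro p
      exact (Subgroup.mem_iInf.mp (Subgroup.mem_inf.mp hz).2) p
    have hFle : fittingSubgroup G ≤ pCore r G ⊔ N := by
      rw [Cfsg.Agent.Lib.helper1.fitting_eq_iSup_pCore]
      apply iSup_le
      intro p
      by_cases hpr : (p : ℕ) = r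
      · rw [hpr]; exact le_sup_left
      · exact le_sup_of_le_right (le_iSup (fun p : ι => pCore (p.1 : ℕ) G) ⟨p, hpr⟩)
    have hkey : ∀ y ∈ M, ∃ k : ℕ, ∀ z ∈ M, z * y ^ (r ^ k) = y ^ (r ^ k) * z := by
      intro y hy
      obtain ⟨k, m, hm, hnk⟩ :=
        Nat.exists_eq_pow_mul_and_not_dvd (orderOf_pos y).ne' r hr.ne_one
      refine ⟨k, ?_⟩
      have hy'M : y ^ (r ^ k) ∈ M := M.pow_mem hy _
      have hy'm : (y ^ (r ^ k)) ^ m = 1 := by
        rw [← pow_mul, ← hnk]; exact pow_orderOf_eq_one y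
      have hcop : (orderOf (y ^ (r ^ k))).Coprime r :=
        Nat.Coprime.coprime_dvd_left (orderOf_dvd_of_pow_eq_one hy'm)
          ((Nat.Prime.coprime_iff_not_dvd hr).mpr hm).symm
      have hy'K : y ^ (r ^ k) ∈ commutator G := (Subgroup.mem_inf.mp hy'M).1
      have hy'F : y ^ (r ^ k) ∈ fittingSubgroup G := by
        apply Cfsg.Agent.Lib.helper1.centralizer_fitting_le G
        rw [Cfsg.Agent.Lib.helper1.fitting_eq_iSup_pCore]
        apply mem_centralizer_iSup
        intro p
        by_cases hpr : (p : ℕ) = r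
        · rw [hpr]; exact h r hr _ hy'K hcop
        · exact (Subgroup.mem_iInf.mp (Subgroup.mem_inf.mp hy'M).2) ⟨p, hpr⟩
      have hy'N : y ^ (r ^ k) ∈ N := by
        have h1 : y ^ (r ^ k) ∈ pCore r G ⊔ N := hFle hy'F
        have h2 : (QuotientGroup.mk' N) (y ^ (r ^ k)) ∈
            (pCore r G ⊔ N).map (QuotientGroup.mk' N) := Subgroup.mem_map_of_mem _ h1
        rw [Subgroup.map_sup, QuotientGroup.map_mk'_self, sup_bot_eq] at h2
        obtain ⟨a, ha, hae⟩ := Subgroup.mem_map.mp h2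
        obtain ⟨j, hj⟩ := (Cfsg.Agent.Lib.helper1.pCore_isPGroup r G) ⟨a, ha⟩
        have haj : a ^ (r ^ j) = 1 := by simpa using congrArg Subtype.val hj
        have e1 : ((QuotientGroup.mk' N) (y ^ (r ^ k))) ^ (r ^ j) = 1 := by
          rw [← hae, ← map_pow, haj, map_one]
        have e2 : ((QuotientGroup.mk' N) (y ^ (r ^ k))) ^ m = 1 := by
          rw [← map_pow, hy'm, map_one]
        have hone : (QuotientGroup.mk' N) (y ^ (r ^ k)) = 1 := by
          rw [← orderOf_eq_one_iff]
          have d1 := orderOf_dvd_of_pow_eq_one e1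
          have d2 := orderOf_dvd_of_pow_eq_one e2
          have hc : Nat.Coprime (r ^ j) m :=
            Nat.Coprime.pow_left j ((Nat.Prime.coprime_iff_not_dvd hr).mpr hm)
          have d3 := Nat.dvd_gcd d1 d2
          rw [hc.gcd_eq_one] at d3
          exact Nat.dvd_one.mp d3
        exact (QuotientGroup.eq_one_iff _).mp hone
      intro z hz
      exact (Subgroup.mem_centralizer_iff.mp (hMN z hz) _ hy'N).symm
    have hMnil : Group.IsNilpotent ↥M := by
      have hP : IsPGroup r (↥M ⧸ Subgroup.center ↥M) := by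
        intro g
        obtain ⟨y, rfl⟩ := QuotientGroup.mk_surjective g
        obtain ⟨k, hk⟩ := hkey y.1 y.2
        refine ⟨k, ?_⟩
        rw [← QuotientGroup.mk_pow, QuotientGroup.eq_one_iff, Subgroup.mem_center_iff]
        intro z
        exact Subtype.ext (by simpa using hk z.1 z.2)
      have hQ : Group.IsNilpotent (↥M ⧸ Subgroup.center ↥M) := hP.isNilpotent
      exact Group.of_quotient_center_nilpotent hQ
    exact Cfsg.Agent.Lib.helper1.le_fitting hMn hMnil hxM
  refine ⟨hKF, ?_⟩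
  have hF : Group.IsNilpotent ↥(fittingSubgroup G) :=
    Cfsg.Agent.Lib.helper1.fitting_isNilpotent G
  have h1 : Group.IsNilpotent ↥((commutator G).subgroupOf (fittingSubgroup G)) := inferInstance
  exact Group.nilpotent_of_mulEquiv (Subgroup.subgroupOfEquivOfLe hKF)

end Cfsg.Agent.Lib.helper8.S1451B
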