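import Mathlib

namespace Cfsg.Agent.Lib.helper8.S1454X2

open scoped commutatorElement

theorem comm_of_card {E : Type*} [Group E] (p : ℕ) [Fact p.Prime] (k : ℕ) (hk : k ≤ 2)
    (h : Nat.card E = p ^ k) (a b : E) : a * b = b * a := by
  interval_cases k
  · simp only [pow_zero] at h
    have hs : Subsingleton E := (Nat.card_eq_one_iff_unique.mp h).1
    rw [Subsingleton.elim a 1, Subsingleton.elim b 1]
  · simp only [pow_one] at h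
    have := isCyclic_of_prime_card (α := E) h
    exact (IsCyclic.commGroup (α := E)).mul_comm a b
  · exact (IsPGroup.isMulCommutative_of_card_eq_prime_sq (p := p) h).is_comm.comm a b

theorem conj_pow {H : Type*} [Group H] (s t z : H) (hsz : s * z = z * s)
    (h0 : s * t * s⁻¹ = z * t) (k : ℕ) :
    s ^ k * t * (s ^ k)⁻¹ = z ^ k * t := by
  induction k with
  | zero => simp
  | succ n ih =>
    have hszn : s * z ^ n = z ^ n * s := (Commute.pow_right (show Commute s z from hsz) n).eq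
    calc s ^ (n + 1) * t * (s ^ (n + 1))⁻¹ = s * (s ^ n * t * (s ^ n)⁻¹) * s⁻¹ := by group
      _ = s * (z ^ n * t) * s⁻¹ := by rw [ih]
      _ = (s * z ^ n) * t * s⁻¹ := by group
      _ = (z ^ n * s) * t * s⁻¹ := by rw [hszn]
      _ = z ^ n * (s * t * s⁻¹) := by group
      _ = z ^ n * (z * t) := by rw [h0]
      _ = z ^ (n + 1) * t := by group

theorem step {H : Type*} [Group H] (p : ℕ) [Fact p.Prime] (Z : Subgroup H)
    (hZ : Nat.card Z = p) (s t g : H) (hsZ : ∀ z ∈ Z, s * z = z * s)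
    (h0 : s * t * s⁻¹ * t⁻¹ ∈ Z) (hne : s * t ≠ t * s)
    (hg : g * t * g⁻¹ * t⁻¹ ∈ Z) :
    ∃ k : ℕ, (s ^ k)⁻¹ * g * t = t * ((s ^ k)⁻¹ * g) := by
  have hz0 : (⟨s * t * s⁻¹ * t⁻¹, h0⟩ : Z) ≠ 1 := by
    intro h1
    have h2 : s * t * s⁻¹ * t⁻¹ = 1 := congrArg Subtype.val h1
    apply hne
    calc s * t = (s * t * s⁻¹ * t⁻¹) * (t * s) := by group
      _ = t * s := by rw [h2, one_mul]
  obtain ⟨k, hk⟩ := (Submonoid.mem_powers_iff _ _).mp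
    (mem_powers_of_prime_card hZ hz0 (g' := ⟨g * t * g⁻¹ * t⁻¹, hg⟩))
  have hk' : (s * t * s⁻¹ * t⁻¹) ^ k = g * t * g⁻¹ * t⁻¹ := by
    have := congrArg Subtype.val hk
    simpa using this
  refine ⟨k, ?_⟩
  have h1 := conj_pow s t (s * t * s⁻¹ * t⁻¹) (hsZ _ h0) (by group) k
  rw [hk'] at h1
  have h2 : s ^ k * t * (s ^ k)⁻¹ = g * t * g⁻¹ := by rw [h1]; group
  calc (s ^ k)⁻¹ * g * t = (s ^ k)⁻¹ * (g * t * g⁻¹) * g := by group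
    _ = (s ^ k)⁻¹ * (s ^ k * t * (s ^ k)⁻¹) * g := by rw [h2]
    _ = t * ((s ^ k)⁻¹ * g) := by group

theorem core {H : Type*} [Group H] [Finite H] (p : ℕ) [Fact p.Prime] (R D : Subgroup H)
    (hDR : D ≤ R) (hD3 : Nat.card D = p ^ 3)
    (hZ : Nat.card ↥(D ⊓ Subgroup.centralizer (D : Set H)) = p)
    (t₁ t₂ : H) (ht₁ : t₁ ∈ D) (ht₂ : t₂ ∈ D) (hne : t₂ * t₁ ≠ t₁ * t₂)
    (h : ∀ r ∈ R, ∀ t ∈ D, r * t * r⁻¹ * t⁻¹ ∈ D ⊓ Subgroup.centralizer (D : Set H)) :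
    ∀ r ∈ R, ∃ d ∈ D, ∃ c ∈ R ⊓ Subgroup.centralizer (D : Set H), r = d * c := by
  intro r hr
  have hZc : ∀ d ∈ D, ∀ z ∈ D ⊓ Subgroup.centralizer (D : Set H), d * z = z * d := by
    intro d hd z hz
    exact Subgroup.mem_centralizer_iff.mp hz.2 d hd
  obtain ⟨a, ha⟩ := step p _ hZ t₂ t₁ r (hZc t₂ ht₂) (h t₂ (hDR ht₂) t₁ ht₁) hne
    (h r hr t₁ ht₁)
  have hc1 : ((t₂ ^ a)⁻¹ * r) * t₂ * ((t₂ ^ a)⁻¹ * r)⁻¹ * t₂⁻¹ ∈
      D ⊓ Subgroup.centralizer (D : Set H) := by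
    have hz := h r hr t₂ ht₂
    have hcm := hZc ((t₂ ^ a)⁻¹) (D.inv_mem (D.pow_mem ht₂ a)) _ hz
    have : ((t₂ ^ a)⁻¹ * r) * t₂ * ((t₂ ^ a)⁻¹ * r)⁻¹ * t₂⁻¹ = r * t₂ * r⁻¹ * t₂⁻¹ := by
      calc ((t₂ ^ a)⁻¹ * r) * t₂ * ((t₂ ^ a)⁻¹ * r)⁻¹ * t₂⁻¹
          = ((t₂ ^ a)⁻¹ * (r * t₂ * r⁻¹ * t₂⁻¹)) * (t₂ * t₂ ^ a * t₂⁻¹) := by group
        _ = ((r * t₂ * r⁻¹ * t₂⁻¹) * (t₂ ^ a)⁻¹) * (t₂ * t₂ ^ a * t₂⁻¹) := by rw [hcm]
        _ = r * t₂ * r⁻¹ * t₂⁻¹ := by group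
    rw [this]; exact hz
  obtain ⟨b, hb⟩ := step p _ hZ t₁ t₂ ((t₂ ^ a)⁻¹ * r) (hZc t₁ ht₁)
    (h t₁ (hDR ht₁) t₂ ht₂) (Ne.symm hne) hc1
  have hct₁ : ((t₁ ^ b)⁻¹ * ((t₂ ^ a)⁻¹ * r)) * t₁ = t₁ * ((t₁ ^ b)⁻¹ * ((t₂ ^ a)⁻¹ * r)) := by
    calc ((t₁ ^ b)⁻¹ * ((t₂ ^ a)⁻¹ * r)) * t₁ = (t₁ ^ b)⁻¹ * ((t₂ ^ a)⁻¹ * r * t₁) := by group
      _ = (t₁ ^ b)⁻¹ * (t₁ * ((t₂ ^ a)⁻¹ * r)) := by rw [ha]
      _ = t₁ * ((t₁ ^ b)⁻¹ * ((t₂ ^ a)⁻¹ * r)) := by group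
  have hdD : t₂ ^ a * t₁ ^ b ∈ D := D.mul_mem (D.pow_mem ht₂ a) (D.pow_mem ht₁ b)
  have hcR : (t₁ ^ b)⁻¹ * ((t₂ ^ a)⁻¹ * r) ∈ R :=
    R.mul_mem (R.inv_mem (R.pow_mem (hDR ht₁) b))
      (R.mul_mem (R.inv_mem (R.pow_mem (hDR ht₂) a)) hr)
  have hE : D ≤ Subgroup.centralizer ({(t₁ ^ b)⁻¹ * ((t₂ ^ a)⁻¹ * r)} : Set H) := by
    by_contra hcon
    have hEle : D ⊓ Subgroup.centralizer ({(t₁ ^ b)⁻¹ * ((t₂ ^ a)⁻¹ * r)} : Set H) ≤ D :=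
      inf_le_left
    have hdvd : Nat.card ↥(D ⊓ Subgroup.centralizer
        ({(t₁ ^ b)⁻¹ * ((t₂ ^ a)⁻¹ * r)} : Set H)) ∣ p ^ 3 := by
      rw [← hD3]; exact Subgroup.card_dvd_of_le hEle
    obtain ⟨k, hk, hkc⟩ := (Nat.dvd_prime_pow Fact.out).mp hdvd
    have hk3 : k ≠ 3 := by
      intro h3
      apply hcon
      have := Subgroup.eq_of_le_of_card_ge hEle (by rw [hkc, h3, hD3])
      rw [← this]; exact inf_le_right
    have hk2 : k ≤ 2 := by omega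
    have h1 : t₁ ∈ D ⊓ Subgroup.centralizer ({(t₁ ^ b)⁻¹ * ((t₂ ^ a)⁻¹ * r)} : Set H) :=
      ⟨ht₁, Subgroup.mem_centralizer_iff.mpr (by
        intro x hx; rw [Set.mem_singleton_iff.mp hx]; exact hct₁)⟩
    have h2 : t₂ ∈ D ⊓ Subgroup.centralizer ({(t₁ ^ b)⁻¹ * ((t₂ ^ a)⁻¹ * r)} : Set H) :=
      ⟨ht₂, Subgroup.mem_centralizer_iff.mpr (by
        intro x hx; rw [Set.mem_singleton_iff.mp hx]; exact hb)⟩
    have := comm_of_card p k hk2 hkc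
      (⟨t₂, h2⟩ : ↥(D ⊓ Subgroup.centralizer ({(t₁ ^ b)⁻¹ * ((t₂ ^ a)⁻¹ * r)} : Set H)))
      ⟨t₁, h1⟩
    exact hne (congrArg Subtype.val this)
  refine ⟨t₂ ^ a * t₁ ^ b, hdD, (t₁ ^ b)⁻¹ * ((t₂ ^ a)⁻¹ * r),
    ⟨hcR, Subgroup.mem_centralizer_iff.mpr ?_⟩, by group⟩
  intro t ht
  have := Subgroup.mem_centralizer_iff.mp (hE ht) _ (Set.mem_singleton _)
  exact this.symm

theorem prod_centralizer {H : Type*} [Group H] [Finite H] (p : ℕ) [Fact p.Prime]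
    (R D : Subgroup H) (hR : IsPGroup p R) (hDR : D ≤ R) (hD3 : Nat.card D = p ^ 3)
    (hZ : Nat.card ↥(D ⊓ Subgroup.centralizer (D : Set H)) = p)
    (hDn : R ≤ Subgroup.normalizer (D : Set H))
    (hcomm : ∀ d ∈ D, ∀ r ∈ R, ⁅d, r⁆ ∈ Subgroup.centralizer (D : Set H)) :
    ∀ r ∈ R, ∃ d ∈ D, ∃ c ∈ R ⊓ Subgroup.centralizer (D : Set H), r = d * c := by
  have _ := hR
  have hex : ∃ t₁ ∈ D, t₁ ∉ Subgroup.centralizer (D : Set H) := by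
    by_contra hcon
    push Not at hcon
    have h1 : D ⊓ Subgroup.centralizer (D : Set H) = D := inf_eq_left.mpr hcon
    rw [h1, hD3] at hZ
    have h2 : p ^ 3 = p ^ 1 := by rw [pow_one]; exact hZ
    have := Nat.pow_right_injective (Fact.out : p.Prime).two_le h2
    omega
  obtain ⟨t₁, ht₁, hnc⟩ := hex
  rw [Subgroup.mem_centralizer_iff] at hnc
  push Not at hnc
  obtain ⟨t₂, ht₂, hne⟩ := hnc
  refine core p R D hDR hD3 hZ t₁ t₂ ht₁ ht₂ hne ?_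
  intro r hr t ht
  refine ⟨?_, ?_⟩
  · have := (Subgroup.mem_normalizer_iff.mp (hDn hr) t).mp ht
    exact D.mul_mem this (D.inv_mem ht)
  · have h1 := hcomm t ht r hr
    have h2 : r * t * r⁻¹ * t⁻¹ = ⁅t, r⁆⁻¹ := by rw [commutatorElement_def]; group
    rw [h2]; exact Subgroup.inv_mem _ h1

theorem eq_mul_centralizer {G : Type*} [Group G] [Finite G] (p : ℕ) [Fact p.Prime]
    (R T : Subgroup G) (hTR : T ≤ R) (hT3 : Nat.card T = p ^ 3)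
    (hTna : ¬ ∀ x ∈ T, ∀ y ∈ T, x * y = y * x)
    (h : ∀ r ∈ R, ∀ t ∈ T, r * t * r⁻¹ * t⁻¹ ∈ T ⊓ Subgroup.centralizer (T : Set G)) :
    ∀ r ∈ R, ∃ t ∈ T, ∃ c ∈ R ⊓ Subgroup.centralizer (T : Set G), r = t * c := by
  push Not at hTna
  obtain ⟨t₂, ht₂, t₁, ht₁, hne⟩ := hTna
  have hZ : Nat.card ↥(T ⊓ Subgroup.centralizer (T : Set G)) = p := by
    have hZC : T ⊓ Subgroup.centralizer (T : Set G) ≤
        T ⊓ Subgroup.centralizer ({t₁} : Set G) := by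
      intro z hz
      refine ⟨hz.1, Subgroup.mem_centralizer_iff.mpr ?_⟩
      intro x hx
      rw [Set.mem_singleton_iff.mp hx]
      exact Subgroup.mem_centralizer_iff.mp hz.2 t₁ ht₁
    have hC1T : T ⊓ Subgroup.centralizer ({t₁} : Set G) ≤ T := inf_le_left
    have ht1C : t₁ ∈ T ⊓ Subgroup.centralizer ({t₁} : Set G) :=
      ⟨ht₁, Subgroup.mem_centralizer_iff.mpr (by
        intro x hx; rw [Set.mem_singleton_iff.mp hx])⟩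
    have ht1Z : t₁ ∉ T ⊓ Subgroup.centralizer (T : Set G) := by
      intro hz
      exact hne (Subgroup.mem_centralizer_iff.mp hz.2 t₂ ht₂)
    have ht2C : t₂ ∉ T ⊓ Subgroup.centralizer ({t₁} : Set G) := by
      intro hc
      have := Subgroup.mem_centralizer_iff.mp hc.2 t₁ (Set.mem_singleton t₁)
      exact hne this.symm
    have hz0 : t₂ * t₁ * t₂⁻¹ * t₁⁻¹ ∈ T ⊓ Subgroup.centralizer (T : Set G) :=
      h t₂ (hTR ht₂) t₁ ht₁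
    have hz0ne : t₂ * t₁ * t₂⁻¹ * t₁⁻¹ ≠ 1 := by
      intro h1; apply hne
      calc t₂ * t₁ = (t₂ * t₁ * t₂⁻¹ * t₁⁻¹) * (t₁ * t₂) := by group
        _ = t₁ * t₂ := by rw [h1, one_mul]
    have hd1 : Nat.card ↥(T ⊓ Subgroup.centralizer (T : Set G)) ∣ p ^ 3 := by
      rw [← hT3]; exact Subgroup.card_dvd_of_le inf_le_left
    have hd2 : Nat.card ↥(T ⊓ Subgroup.centralizer ({t₁} : Set G)) ∣ p ^ 3 := by
      rw [← hT3]; exact Subgroup.card_dvd_of_le hC1T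
    obtain ⟨i, hi, hic⟩ := (Nat.dvd_prime_pow Fact.out).mp hd1
    obtain ⟨j, hj, hjc⟩ := (Nat.dvd_prime_pow Fact.out).mp hd2
    have hj3 : j ≠ 3 := by
      intro h3
      have := Subgroup.eq_of_le_of_card_ge hC1T (by rw [hjc, h3, hT3])
      apply ht2C; rw [this]; exact ht₂
    have hij : i < j := by
      by_contra hcon
      push Not at hcon
      have := Subgroup.eq_of_le_of_card_ge hZC (by
        rw [hjc, hic]; exact Nat.pow_le_pow_right (Fact.out : p.Prime).pos hcon)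
      apply ht1Z; rw [this]; exact ht1C
    have hi0 : i ≠ 0 := by
      intro h0
      rw [h0, pow_zero] at hic
      have hs : Subsingleton ↥(T ⊓ Subgroup.centralizer (T : Set G)) :=
        (Nat.card_eq_one_iff_unique.mp hic).1
      have := Subsingleton.elim
        (⟨_, hz0⟩ : ↥(T ⊓ Subgroup.centralizer (T : Set G))) 1
      exact hz0ne (congrArg Subtype.val this)
    have hi1 : i = 1 := by omega
    rw [hic, hi1, pow_one]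
  exact core p R T hTR hT3 hZ t₁ t₂ ht₁ ht₂ hne h

end Cfsg.Agent.Lib.helper8.S1454X2
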